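import Cfsg.Agent.Gate.Tv45
import Cfsg.Agent.Mit.TvTwo
import Cfsg.Agent.Mit.QSBasic

/-!
# Groups generated by transvections in arbitrary dimension: vocabulary and calculus
-/

set_option autoImplicit false

namespace Cfsg.Lib.Tv45

open Matrix Cfsg.Geo Cfsg.Lib.Class Cfsg.Lib.Class.Asch Cfsg.Lib.Mit
open scoped MatrixGroups

variable {ι : Type} [Fintype ι] [DecidableEq ι] {F : Type*} [Field F]

/-- The map `x ↦ x + (f ⬝ᵥ x) • a` is a (possibly trivial) transvection of `P`. -/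
def T (P : Subgroup (GL ι F)) (a f : ι → F) : Prop := f ⬝ᵥ a = 0 ∧ tv a f ∈ P

/-- A non-trivial transvection of `P`. -/
structure Fl (P : Subgroup (GL ι F)) (a f : ι → F) : Prop where
  t : T P a f
  l : a ≠ 0
  r : f ≠ 0

/-- The root subgroup has at least three elements. -/
def Big (P : Subgroup (GL ι F)) (a f : ι → F) : Prop :=
  ∃ l : F, l ≠ 0 ∧ l ≠ 1 ∧ T P (l • a) f

/-- All root subgroups have order two. -/
def Small (P : Subgroup (GL ι F)) : Prop :=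
  ∀ a φ, Fl P a φ → ∀ l : F, T P (l • a) φ → l = 0 ∨ l = 1

/-- Incidence of centres and axes is symmetric. -/
def NS (P : Subgroup (GL ι F)) : Prop :=
  ∀ a φ b ψ, Fl P a φ → Fl P b ψ → φ ⬝ᵥ b = 0 → ψ ⬝ᵥ a = 0

/-- An axis has one centre and a centre has one axis. -/
structure Un (P : Subgroup (GL ι F)) : Prop where
  cen : ∀ a φ x, Fl P a φ → T P x φ → x = 0 ∨ x = a
  ax : ∀ a φ ψ, Fl P a φ → T P a ψ → ψ = 0 ∨ ψ = φ

/-- `P` is generated by its transvections and is irreducible. -/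
structure Hy (P : Subgroup (GL ι F)) : Prop where
  gen : ∀ K : Subgroup (GL ι F), (∀ a φ, Fl P a φ → tv a φ ∈ K) → P ≤ K
  inv : ∀ W : Submodule F (ι → F), (∀ a φ, Fl P a φ → ∀ v ∈ W, (φ ⬝ᵥ v) • a ∈ W) → W = ⊥ ∨ W = ⊤

variable {P : Subgroup (GL ι F)} {a b c m x φ ψ χ : ι → F}

namespace T

theorem zero_left (P : Subgroup (GL ι F)) (φ : ι → F) : T P 0 φ := ⟨by simp, by simp⟩

theorem zero_right (P : Subgroup (GL ι F)) (a : ι → F) : T P a 0 := ⟨by simp, by simp⟩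

theorem add_left (h : T P a φ) (h' : T P b φ) : T P (a + b) φ :=
  ⟨by simp [h.1, h'.1], tv_add_left h.1 h'.1 ▸ mul_mem h.2 h'.2⟩

theorem add_right (h : T P a φ) (h' : T P a ψ) : T P a (φ + ψ) :=
  ⟨by simp [h.1, h'.1], tv_add_right h.1 h'.1 ▸ mul_mem h.2 h'.2⟩

theorem smul_iff (c : F) : T P (c • a) φ ↔ T P a (c • φ) := by
  simp [T, tv_smul_left]

theorem neg_left (h : T P a φ) : T P (-a) φ := ⟨by simp [h.1], tv_inv h.1 ▸ inv_mem h.2⟩

theorem neg_right (h : T P a φ) : T P a (-φ) := ⟨by simp [h.1], tv_neg_left a φ ▸ h.neg_left.2⟩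

theorem sub_left (h : T P a φ) (h' : T P b φ) : T P (a - b) φ :=
  sub_eq_add_neg a b ▸ h.add_left h'.neg_left

theorem sub_right (h : T P a φ) (h' : T P a ψ) : T P a (φ - ψ) :=
  sub_eq_add_neg φ ψ ▸ h.add_right h'.neg_right

theorem congr (h : T P a φ) (e : a = b) (e' : φ = ψ) : T P b ψ := e ▸ e' ▸ h

theorem conj (h : T P a φ) {g : GL ι F} (hg : g ∈ P)
    (e : ψ ᵥ* (g : Matrix ι ι F) = φ) : T P ((g : Matrix ι ι F) *ᵥ a) ψ := by
  subst e
  refine ⟨by rw [dotProduct_mulVec, h.1], ?_⟩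
  have := mul_mem (mul_mem hg h.2) (inv_mem hg)
  rwa [conj_tv, GL_vecMul_vecMul_inv] at this

theorem conj' (h : T P a φ) {g : GL ι F} (hg : g ∈ P) :
    T P ((g : Matrix ι ι F) *ᵥ a) (φ ᵥ* ((g⁻¹ : GL ι F) : Matrix ι ι F)) :=
  h.conj hg (GL_vecMul_inv_vecMul g φ)

theorem conj_tv (h : T P a φ) (h' : T P b ψ) : T P (a + (ψ ⬝ᵥ a) • b) (φ - (φ ⬝ᵥ b) • ψ) := by
  rw [← tv_mulVec h'.1]
  exact h.conj h'.2 (by simp [vecMul_tv h'.1, h'.1])

theorem comm (h : T P a φ) (h' : T P b ψ) (e : φ ⬝ᵥ b = 0) : T P ((ψ ⬝ᵥ a) • b) φ := by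
  exact (((h.conj_tv h').congr rfl (by simp [e])).sub_left h).congr (by abel) rfl

theorem comm' (h : T P a φ) (h' : T P b ψ) (e : ψ ⬝ᵥ a = 0) : T P a ((φ ⬝ᵥ b) • ψ) := by
  exact (h.sub_right ((h.conj_tv h').congr (by simp [e]) rfl)).congr rfl (by abel)

theorem mono (h : T P a φ) {Q : Subgroup (GL ι F)} (hQ : P ≤ Q) : T Q a φ := ⟨h.1, hQ h.2⟩

/-- Rescaling the centre and the axis. -/
theorem scale (h : T P a φ) {s : F} (hs : s ≠ 0) : T P (s • a) (s⁻¹ • φ) := by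
  rw [← smul_iff, smul_smul, inv_mul_cancel₀ hs, one_smul]; exact h

end T

theorem Fl.conj_tv (h : Fl P a φ) (h' : T P b ψ) :
    Fl P (a + (ψ ⬝ᵥ a) • b) (φ - (φ ⬝ᵥ b) • ψ) := by
  refine ⟨h.t.conj_tv h', fun e => h.l ?_, fun e => h.r ?_⟩
  · have := congrArg (ψ ⬝ᵥ ·) e
    simp only [dotProduct_add, dotProduct_smul, h'.1, smul_zero, add_zero, dotProduct_zero] at this
    simpa [this] using e
  · have := congrArg (· ⬝ᵥ b) e
    simp only [sub_dotProduct, smul_dotProduct, h'.1, smul_zero, sub_zero, zero_dotProduct] at this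
    simpa [this] using e

theorem Fl.conj' (h : Fl P a φ) {g : GL ι F} (hg : g ∈ P) :
    Fl P ((g : Matrix ι ι F) *ᵥ a) (φ ᵥ* ((g⁻¹ : GL ι F) : Matrix ι ι F)) :=
  ⟨h.t.conj' hg, by simpa [GL_mulVec_eq_zero_iff] using h.l,
    by rw [Ne, GL_vecMul_eq_zero_iff]; exact h.r⟩

theorem Fl.congr (h : Fl P a φ) (e : a = b) (e' : φ = ψ) : Fl P b ψ := e ▸ e' ▸ h

theorem Fl.scale (h : Fl P a φ) {s : F} (hs : s ≠ 0) : Fl P (s • a) (s⁻¹ • φ) :=
  ⟨h.t.scale hs, smul_ne_zero hs h.l, smul_ne_zero (inv_ne_zero hs) h.r⟩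

theorem Fl.smul (h : Fl P a φ) {s t : F} (hs : s ≠ 0) (ht : t ≠ 0) (h' : T P ((s * t) • a) φ) :
    Fl P (s • a) (t • φ) :=
  ⟨by rwa [← T.smul_iff, smul_smul, mul_comm], smul_ne_zero hs h.l, smul_ne_zero ht h.r⟩

omit [DecidableEq ι] in
theorem left_ne (h : φ ⬝ᵥ a ≠ 0) : φ ≠ 0 := by rintro rfl; simp at h

omit [DecidableEq ι] in
theorem right_ne (h : φ ⬝ᵥ a ≠ 0) : a ≠ 0 := by rintro rfl; simp at h

theorem eq_zero_of_dot (h : ∀ v, φ ⬝ᵥ v = 0) : φ = 0 :=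
  funext fun i => by simpa using h (Pi.single i 1)

theorem eq_zero_of_dot' (h : ∀ f, f ⬝ᵥ a = 0) : a = 0 :=
  funext fun i => by simpa using h (Pi.single i 1)

theorem NS.ne (h : NS P) (ha : Fl P a φ) (hb : Fl P b ψ) (e : φ ⬝ᵥ b ≠ 0) : ψ ⬝ᵥ a ≠ 0 :=
  fun e' => e (h _ _ _ _ hb ha e')

theorem big_of_two (h2 : (2 : F) ≠ 0) (h : T P a φ) : Big P a φ :=
  ⟨-1, by simp, fun e => h2 (by linear_combination -e), by simpa using h.neg_left⟩

/-- In the small case a multiple of a non-zero centre on the same axis is the centre. -/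
theorem Small.eq (hs : Small P) {s t : F} (ha : a ≠ 0) (hφ : φ ≠ 0) (h1 : T P (s • a) φ)
    (h2 : T P (t • a) φ) (s0 : s ≠ 0) : t = 0 ∨ t = s := by
  rcases hs _ _ ⟨h1, smul_ne_zero s0 ha, hφ⟩ (t / s) (by rwa [smul_smul, div_mul_cancel₀ _ s0])
    with e | e
  · exact Or.inl (by simpa [s0] using e)
  · exact Or.inr ((div_eq_one_iff_eq s0).1 e)

theorem Small.eq' (hs : Small P) {s t : F} (ha : a ≠ 0) (hφ : φ ≠ 0) (h1 : T P a (s • φ))
    (h2 : T P a (t • φ)) (s0 : s ≠ 0) : t = 0 ∨ t = s :=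
  hs.eq ha hφ ((T.smul_iff s).2 h1) ((T.smul_iff t).2 h2) s0

/-! ### Duality -/

/-- The dual group. -/
def dl (P : Subgroup (GL ι F)) : Subgroup (GL ι F) := P.comap (invT ι F).toMonoidHom

theorem mem_dl {g : GL ι F} : g ∈ dl P ↔ invT ι F g ∈ P := Iff.rfl

theorem dl_dl : dl (dl P) = P := Subgroup.ext fun g => by rw [mem_dl, mem_dl, invT_invT]

theorem T_dl : T (dl P) φ a ↔ T P a φ := by
  have key : ∀ (h : a ⬝ᵥ φ = 0), tv φ a ∈ dl P ↔ tv (-a) φ ∈ P := fun h => by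
    rw [← invT_tv h]; rfl
  exact ⟨fun h => by simpa using T.neg_left ⟨by rw [dotProduct_neg, dotProduct_comm, h.1, neg_zero],
      (key h.1).1 h.2⟩,
    fun h => ⟨dotProduct_comm a φ ▸ h.1, (key (dotProduct_comm a φ ▸ h.1)).2 h.neg_left.2⟩⟩

theorem Fl_dl : Fl (dl P) φ a ↔ Fl P a φ :=
  ⟨fun h => ⟨T_dl.1 h.t, h.r, h.l⟩, fun h => ⟨T_dl.2 h.t, h.r, h.l⟩⟩

theorem Big_dl : Big (dl P) φ a ↔ Big P a φ := by
  simp only [Big, T_dl, T.smul_iff]

theorem Small.dl (h : Small P) : Small (dl P) := fun a φ ha l hl =>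
  h φ a (Fl_dl.1 ha) l ((T.smul_iff l).2 (T_dl.1 hl))

theorem NS.dl (h : NS P) : NS (dl P) := fun a φ b ψ ha hb e =>
  dotProduct_comm a ψ ▸ h _ _ _ _ (Fl_dl.1 hb) (Fl_dl.1 ha) (dotProduct_comm φ b ▸ e)

theorem Hy.dl (h : Hy P) : Hy (dl P) := by
  refine ⟨fun K hK g hg => ?_, fun W hW => ?_⟩
  · have := h.gen (Tv45.dl K) (fun a φ ha => by
      rw [mem_dl, invT_tv ha.t.1]
      exact hK _ _ (Fl_dl.2 ⟨ha.t.neg_right, ha.l, neg_ne_zero.2 ha.r⟩)) (mem_dl.1 hg)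
    rwa [mem_dl, invT_invT] at this
  · rcases h.inv (dotPerp W) (fun a φ ha v hv => mem_dotPerp.2 fun w hw => by
      have := mem_dotPerp.1 hv _ (hW φ a (Fl_dl.2 ha) w hw)
      simpa [dotProduct_comm φ v, mul_comm] using this) with e | e
    · right
      rw [← dotPerp_dotPerp W, e]
      exact eq_top_iff.2 fun f _ => mem_dotPerp.2 fun w hw => by simp [(Submodule.mem_bot F).1 hw]
    · left
      rw [← dotPerp_dotPerp W, e]
      exact eq_bot_iff.2 fun f hf => eq_zero_of_dot fun v => mem_dotPerp.1 hf v trivial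

theorem NoSub.dl (h : NoSub P) : NoSub (dl P) := by
  rintro F₀ h0 ⟨B, hB⟩
  refine h F₀ h0 ⟨invT ι F B, ?_⟩
  rintro _ ⟨s, hs, rfl⟩ i j
  have := hB _ ⟨invT ι F s⁻¹, show _ ∈ Tv45.dl P by rw [mem_dl, invT_invT]; exact inv_mem hs, rfl⟩ j i
  simp only [coe_invT, inv_inv] at this
  simp only [← map_inv, coe_invT, inv_inv]
  have e : ((B⁻¹ : GL ι F) : Matrix ι ι F)ᵀ * (s : Matrix ι ι F) * (B : Matrix ι ι F)ᵀ =
      ((B : Matrix ι ι F) * (s : Matrix ι ι F)ᵀ * ((B⁻¹ : GL ι F) : Matrix ι ι F))ᵀ := by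
    rw [transpose_mul, transpose_mul, transpose_transpose, Matrix.mul_assoc]
  rw [e]
  exact this

theorem eq_SL_of_dl (h : dl P = specialLinear ι F) : P = specialLinear ι F := by
  rw [← dl_dl (P := P), h]
  ext g
  simp [mem_dl, specialLinear, MonoidHom.mem_ker, det_invT]

/-! ### Irreducibility -/

theorem Hy.of_irr (hP : tvGen P = P) (hI : Irr P) : Hy P := by
  have gen : ∀ K : Subgroup (GL ι F), (∀ a φ, Fl P a φ → tv a φ ∈ K) → P ≤ K := fun K h => by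
    rw [← hP]
    refine (Subgroup.closure_le _).2 ?_
    rintro g ⟨hg, h1, a, φ, h0, rfl⟩
    rw [Ne, tv_eq_one_iff h0, not_or] at h1
    exact h a φ ⟨⟨h0, hg⟩, h1.1, h1.2⟩
  refine ⟨gen, fun W hW => ?_⟩
  let K : Subgroup (GL ι F) :=
    { carrier := {g | ∀ v, (g : Matrix ι ι F) *ᵥ v ∈ W ↔ v ∈ W}
      one_mem' := by simp
      mul_mem' := fun {g h} hg hh v => by rw [GL_mul_mulVec, hg, hh]
      inv_mem' := fun {g} hg v => by rw [← hg, GL_mulVec_inv_mulVec] }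
  refine hI W fun g hg v hv => (gen K (fun a φ h v => ?_) hg v).2 hv
  rw [tv_mulVec h.t.1]
  refine ⟨fun hv => ?_, fun hv => add_mem hv (hW a φ h v hv)⟩
  simpa [h.t.1] using sub_mem hv (hW a φ h _ hv)

theorem Hy.irr (h : Hy P) : Irr P := fun W hW => h.inv W fun a φ ha v hv => by
  simpa [tv_mulVec ha.t.1] using sub_mem (hW _ ha.t.2 v hv) hv

theorem Hy.tvGen_eq (h : Hy P) : tvGen P = P :=
  le_antisymm (tvGen_le P) (h.gen _ fun a φ ha => Subgroup.subset_closure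
    ⟨ha.t.2, by simp [tv_eq_one_iff ha.t.1, ha.l, ha.r], a, φ, ha.t.1, rfl⟩)

theorem Hy.of_QS (h : QS P) {t : GL ι F} (ht : t ∈ P) (ht' : IsTv t) : Hy P :=
  Hy.of_irr (h.tvGen_eq ht ht') fun W hW => by
    by_contra! hn
    obtain ⟨v, hv, v0⟩ := Submodule.exists_mem_ne_zero_of_ne_bot hn.1
    refine hn.2 (eq_top_iff.2 fun w _ => ?_)
    obtain ⟨f, hf⟩ := exists_dot_eq_one v0
    have key : ∀ M ∈ env P, M *ᵥ v ∈ W := fun M hM => by
      have : M ∈ Submodule.span F (matrixSet P) := span_eq_top_of_env h.env_top ▸ trivial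
      clear hM
      induction this using Submodule.span_induction with
      | mem _ hx => obtain ⟨g, hg, rfl⟩ := hx; exact hW g hg v hv
      | zero => simp
      | add _ _ _ _ h1 h2 => rw [add_mulVec]; exact add_mem h1 h2
      | smul c _ _ h1 => rw [smul_mulVec]; exact W.smul_mem c h1
    simpa [vecMulVec_mulVec, hf] using key (vecMulVec w f) (h.env_top ▸ trivial)

theorem Hy.le_SL (h : Hy P) : P ≤ specialLinear ι F :=
  h.gen _ fun _ _ ha => tv_mem_ker_det ha.t.1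

/-- A subspace containing the centre of every transvection whose axis does not contain it. -/
theorem Hy.eq_top (h : Hy P) {W : Submodule F (ι → F)} (h0 : W ≠ ⊥)
    (hW : ∀ a φ, Fl P a φ → ∀ v ∈ W, φ ⬝ᵥ v ≠ 0 → a ∈ W) : W = ⊤ :=
  (h.inv W fun a φ ha v hv => by
    by_cases e : φ ⬝ᵥ v = 0
    · simp [e]
    · exact W.smul_mem _ (hW a φ ha v hv e)).resolve_left h0

/-- A version for a spanning set. -/
theorem Hy.span_eq_top (h : Hy P) {S : Set (ι → F)} (h0 : ∃ v ∈ S, v ≠ 0)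
    (hS : ∀ a φ, Fl P a φ → ∀ v ∈ S, (φ ⬝ᵥ v) • a ∈ Submodule.span F S) :
    Submodule.span F S = ⊤ := by
  refine (h.inv _ fun a φ ha v hv => ?_).resolve_left fun e => ?_
  · induction hv using Submodule.span_induction with
    | mem _ hx => exact hS a φ ha _ hx
    | zero => simp
    | add _ _ _ _ h1 h2 => rw [dotProduct_add, add_smul]; exact add_mem h1 h2
    | smul c _ _ h1 => rw [dotProduct_smul, smul_eq_mul, mul_smul]; exact Submodule.smul_mem _ c h1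
  · obtain ⟨v, hv, v0⟩ := h0
    exact v0 (Submodule.span_eq_bot.1 e v hv)

theorem eq_zero_of_span {S : Set (ι → F)} (h : Submodule.span F S = ⊤) (hφ : ∀ v ∈ S, φ ⬝ᵥ v = 0) :
    φ = 0 := eq_zero_of_dot fun v => by
  have hv : v ∈ Submodule.span F S := h ▸ trivial
  induction hv using Submodule.span_induction with
  | mem _ hx => exact hφ _ hx
  | zero => simp
  | add _ _ _ _ h1 h2 => simp [h1, h2]
  | smul c _ _ h1 => simp [h1]

/-- The centres span the space. -/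
theorem Hy.r (h : Hy P) (h0 : Fl P a φ) {f : ι → F} (hf : f ≠ 0) :
    ∃ b ψ, Fl P b ψ ∧ f ⬝ᵥ b ≠ 0 := by
  by_contra! hn
  exact hf (eq_zero_of_span (h.span_eq_top (S := {b | ∃ ψ, Fl P b ψ}) ⟨a, ⟨φ, h0⟩, h0.l⟩
    fun b ψ hb v _ => Submodule.smul_mem _ _ (Submodule.subset_span ⟨ψ, hb⟩))
      fun v ⟨ψ, hv⟩ => hn v ψ hv)

/-- The axes have no common point. -/
theorem Hy.l (h : Hy P) (h0 : Fl P a φ) (hx : x ≠ 0) : ∃ b ψ, Fl P b ψ ∧ ψ ⬝ᵥ x ≠ 0 := by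
  obtain ⟨ψ, b, h1, h2⟩ := h.dl.r (Fl_dl.2 h0) hx
  exact ⟨b, ψ, Fl_dl.1 h1, dotProduct_comm x ψ ▸ h2⟩

/-- Every transvection has an opposite one. -/
theorem Hy.exists_opp (h : Hy P) (ha : Fl P a φ) : ∃ b ψ, Fl P b ψ ∧ φ ⬝ᵥ b ≠ 0 ∧ ψ ⬝ᵥ a ≠ 0 := by
  by_contra! hn
  have := h.span_eq_top (S := {b | ∃ ψ, Fl P b ψ ∧ ψ ⬝ᵥ a ≠ 0} ∪ {a}) ⟨a, by simp, ha.l⟩ ?_
  · refine ha.r (eq_zero_of_span this ?_)
    rintro v (⟨ψ, h1, h2⟩ | rfl)
    · exact by_contra fun e => h2 (hn v ψ h1 e)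
    · exact ha.t.1
  · intro b ψ hb v hv
    by_cases e : ψ ⬝ᵥ a = 0
    · rcases hv with ⟨χ, h1, h2⟩ | rfl
      · have := sub_mem (Submodule.subset_span (R := F)
          (s := {b | ∃ ψ, Fl P b ψ ∧ ψ ⬝ᵥ a ≠ 0} ∪ {a})
          (Or.inl ⟨_, h1.conj_tv hb.t, by simpa [e] using h2⟩))
          (Submodule.subset_span (Or.inl ⟨χ, h1, h2⟩))
        simpa using this
      · simp [e]
    · exact Submodule.smul_mem _ _ (Submodule.subset_span (Or.inl ⟨ψ, hb, e⟩))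

end Cfsg.Lib.Tv45
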