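import Cfsg.Agent.Tv45.BigA

/-!
# Large root groups: the unitary, symplectic and linear cases
-/

set_option autoImplicit false

namespace Cfsg.Lib.Tv45

open Matrix Cfsg.Geo Cfsg.Lib.Class Cfsg.Lib.Class.Asch Cfsg.Lib.Mit
open scoped MatrixGroups

variable {ι : Type} [Fintype ι] [DecidableEq ι] {F : Type*} [Field F]
  {P : Subgroup (GL ι F)} {a b c c' m u u' w x y z z' φ ψ χ χ' φ₀ φ' μ μ' : ι → F}
  {K : Subfield F} {σ : F ≃+* F} {J : (ι → F) → (ι → F)}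

theorem exists_frob [Finite F] (K : Subfield F) : ∃ σ : F ≃+* F, ∀ s, s ∈ K ↔ σ s = s := by
  obtain ⟨p, hp⟩ := CharP.exists F
  have hpp : Fact p.Prime := ⟨CharP.char_is_prime F p⟩
  have := Fintype.ofFinite K
  obtain ⟨n, -, hn⟩ := FiniteField.card K p
  exact ⟨iterateFrobeniusEquiv F p n, fun s => by
    rw [mem_subfield_iff_pow, Nat.card_eq_fintype_card, hn, iterateFrobeniusEquiv_def]⟩

omit [DecidableEq ι] in
theorem Pol.zero (h : Pol σ J) : J 0 = 0 := by simpa using h.smul 0 0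

omit [DecidableEq ι] in
theorem Pol.alt (h : Pol (RingEquiv.refl F) J) {S : Set (ι → F)} (hS : Submodule.span F S = ⊤)
    (h0 : ∀ v ∈ S, J v ⬝ᵥ v = 0) (v : ι → F) : J v ⬝ᵥ v = 0 := by
  have hv : v ∈ Submodule.span F S := hS ▸ trivial
  induction hv using Submodule.span_induction with
  | mem _ hx => exact h0 _ hx
  | zero => simp
  | add x y _ _ h1 h2 => simp [h.add, h1, h2, h.skew x y]
  | smul c _ _ h1 => simp [h.smul, h1]

namespace St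

variable [Finite F]

theorem gram_ns (h : St P K z φ₀) (hS : NS P) (hσ : ∀ s, s ∈ K ↔ σ s = s) (hc : Op P z φ₀ c χ)
    (hc' : Op P z φ₀ c' χ') : χ ⬝ᵥ c' = -σ (χ' ⬝ᵥ c) := by
  by_cases e : χ' ⬝ᵥ c ∈ K
  · have := hS _ _ _ _ hc'.fl (h.shift hc e).fl (by simp [hc'.r])
    simp only [add_dotProduct, smul_dotProduct, hc'.l, smul_eq_mul, mul_one] at this
    rw [(hσ _).1 e]
    linear_combination this
  · have h1 := (hσ _).1 (h.gram_mul hc hc')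
    have h2 := (hσ _).1 (h.gram_sub hc hc')
    rw [map_mul] at h1
    rw [map_sub] at h2
    refine mul_left_cancel₀ (sub_ne_zero.2 ((hσ _).not.1 e)) ?_
    linear_combination h1 - σ (χ' ⬝ᵥ c) * h2

theorem full (h : St P K z φ₀) (hσ : ∀ s, s ∈ K ↔ σ s = s) (hJ : Pol σ J)
    (hop : ∀ c χ, Op P z φ₀ c χ → J c = χ) (h' : Op P z φ₀ z' φ') (hc : Op P z φ₀ c χ)
    (hn : φ' ⬝ᵥ c ∉ K) (w : ι → F) (w0 : φ₀ ⬝ᵥ w = 0) (w1 : φ' ⬝ᵥ w = 0) :
    ∃ b : F, Rd P z φ₀ z' (w + b • z) (J w) := by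
  have jz' := hop _ _ h'
  have jz : J z = φ₀ := by
    have := hop _ _ (h.shift h' (one_mem K))
    simpa [hJ.add, jz'] using this
  let W : (ι → F) → Prop := fun w => φ' ⬝ᵥ w = 0 ∧ ∃ b : F, Rd P z φ₀ z' (w + b • z) (J w)
  have add : ∀ {w w'}, W w → W w' → W (w + w') := fun {w w'} ⟨k, b, hb⟩ ⟨k', b', hb'⟩ =>
    ⟨by simp [k, k'], b + b' + J w ⬝ᵥ (w' + b' • z),
      (h.rd_add hb hb').congr (by module) (hJ.add _ _).symm⟩
  have smul : ∀ {w} {s : F}, s ∈ K → W w → W (s • w) := fun {w s} hs ⟨k, b, hb⟩ =>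
    ⟨by simp [k], s * b + s * (1 - s) * φ' ⬝ᵥ (w + b • z),
      (h.rd_smul h' hb hs).congr (by module) (by rw [hJ.smul, (hσ s).1 hs])⟩
  have opw : ∀ {c χ}, Op P z φ₀ c χ → Rd P z φ₀ z' (c - z' + (φ' ⬝ᵥ c) • z + (-(φ' ⬝ᵥ c)) • z)
      (J (c - z' + (φ' ⬝ᵥ c) • z)) := fun {c χ} hc => by
    refine (h.op_rd h' hc).congr (by module) ?_
    rw [sub_eq_add_neg c, ← neg_one_smul F z', hJ.add, hJ.add, hJ.smul, hJ.smul, hop _ _ hc, jz', jz,
      ← hop _ _ hc, hJ.skew c z', jz']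
    simp only [map_neg, map_one]
    module
  have val : ∀ {w} {b : F}, φ' ⬝ᵥ w = 0 → Rd P z φ₀ z' (w + b • z) (J w) → J w ⬝ᵥ w = b - σ b :=
    fun {w b} k hb => by
      have h1 := congrArg (· ⬝ᵥ z') (hop _ _ (h.rd_op h' hb))
      simp only [hJ.add, hJ.smul, jz, jz', add_dotProduct, sub_dotProduct, smul_dotProduct,
        dotProduct_add, dotProduct_smul, smul_eq_mul, h'.l, h'.r, k, hb.r] at h1
      linear_combination h1
  have non : ∀ {w}, W w → J w ⬝ᵥ w ≠ 0 → ∀ s : F, W (s • w) := fun {w} hw e s => by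
    obtain ⟨k, b, hb⟩ := id hw
    have v := val k hb
    have b1 : σ b ≠ b := fun e' => e (by rw [v, e', sub_self])
    have e1 : 1 - 1 * b ≠ 0 := fun e' => b1 (by rw [show b = 1 by linear_combination -e', map_one])
    have e3 : 1 - 1 * (b - J w ⬝ᵥ w) = σ (1 - 1 * b) := by simp [v]
    have e2 : 1 - 1 * (b - J w ⬝ᵥ w) ≠ 0 := by rw [e3]; exact (map_ne_zero σ).2 e1
    have h1 : W ((1 - 1 * b)⁻¹ • w) := ⟨by simp [k], (1 - 1 * b)⁻¹ * b,
      (h.rd_scale h' k hb (one_mem K) e1 e2).congr (by module) (by rw [hJ.smul, e3, map_inv₀])⟩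
    set r := (1 - 1 * b)⁻¹ with hr
    have r1 : r - σ r ≠ 0 := fun e' => b1 (by
      have := inv_injective (show (1 - 1 * b)⁻¹ = (σ (1 - 1 * b))⁻¹ by
        rw [← map_inv₀, ← hr]; exact sub_eq_zero.1 e')
      simp only [one_mul, map_sub, map_one] at this
      linear_combination this)
    have k2 : (s - σ s) / (r - σ r) ∈ K := (hσ _).2 (by
      rw [map_div₀, map_sub, map_sub, hJ.invol, hJ.invol, ← neg_sub s, ← neg_sub r, neg_div_neg_eq])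
    have k1 : s - (s - σ s) / (r - σ r) * r ∈ K := (hσ _).2 (by
      rw [map_sub, map_mul, (hσ _).1 k2]
      field_simp
      ring)
    convert add (smul k1 hw) (smul k2 h1) using 1
    module
  have hw₀ : W (c - z' + (φ' ⬝ᵥ c) • z) := ⟨by simp [h'.r, h'.fl.t.1], _, opw hc⟩
  have n₀ : J (c - z' + (φ' ⬝ᵥ c) • z) ⬝ᵥ (c - z' + (φ' ⬝ᵥ c) • z) ≠ 0 := by
    rw [val hw₀.1 (opw hc), sub_ne_zero]
    exact fun e => hn (by simpa using neg_mem ((hσ _).2 e.symm))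
  generalize c - z' + (φ' ⬝ᵥ c) • z = w₀ at hw₀ n₀
  have all : ∀ {w}, W w → ∀ s : F, W (s • w) := fun {w} hw s => by
    obtain ⟨k, hk, e⟩ : ∃ k ∈ K, J (w + k • w₀) ⬝ᵥ (w + k • w₀) ≠ 0 := by
      obtain ⟨l, hl, l0, l1⟩ := h.big
      by_contra! hn
      have a0 := hn 0 (zero_mem K)
      have a1 := hn 1 (one_mem K)
      have a2 := hn l hl
      simp only [hJ.add, hJ.smul, add_dotProduct, dotProduct_add, smul_dotProduct, dotProduct_smul,
        smul_eq_mul, map_zero, map_one, (hσ l).1 hl] at a0 a1 a2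
      exact mul_ne_zero (mul_ne_zero l0 (sub_ne_zero.2 l1)) n₀ (by
        linear_combination a2 - l * a1 + (l - 1) * a0)
    convert add (non (add hw (smul hk hw₀)) e s) (non hw₀ n₀ (-(s * k))) using 1
    module
  have key : ∀ v ∈ Submodule.span F {c | ∃ χ, Op P z φ₀ c χ},
      W (v - (φ₀ ⬝ᵥ v) • z' + (φ' ⬝ᵥ v) • z) := fun v hv => by
    induction hv using Submodule.span_induction with
    | mem _ hx =>
      obtain ⟨χ, hx⟩ := hx
      rw [hx.l, one_smul]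
      exact ⟨by simp [h'.r, h'.fl.t.1], _, opw hx⟩
    | zero => simpa using all hw₀ 0
    | add _ _ _ _ h1 h2 =>
      convert add h1 h2 using 1
      simp only [dotProduct_add]
      module
    | smul s _ _ h1 =>
      convert all h1 s using 1
      simp only [dotProduct_smul, smul_eq_mul]
      module
  simpa [w0, w1] using (key w (h.span_l ▸ trivial)).2

theorem of_ns (h : St P K z φ₀) (hN : NoSub P) (hS : NS P) : IsSU P ∨ FixA P := by
  obtain ⟨σ, hσ⟩ := exists_frob K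
  have inv : ∀ y, σ (σ y) = y := fun y => (h.eq_top hN
    (RingHom.eqLocusField (σ.trans σ : F →+* F) (RingHom.id F))
    (fun s hs => show σ (σ s) = s by rw [(hσ s).1 hs, (hσ s).1 hs])
    fun c χ c' χ' hc hc' => show σ (σ _) = _ by
      have e1 := h.gram_ns hS hσ hc hc'
      have e2 := congrArg σ (h.gram_ns hS hσ hc' hc)
      rw [map_neg] at e2
      exact show _ = χ ⬝ᵥ c' by linear_combination e2 - e1).ge
    (Subfield.mem_top y)
  obtain ⟨J, hJ, hop⟩ := exists_pol inv {p | Op P z φ₀ p.1 p.2}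
    (fun p hp q hq => h.gram_ns hS hσ hp hq)
    (eq_top_iff.2 (h.span_l.ge.trans (Submodule.span_mono fun c ⟨χ, hc⟩ => ⟨(c, χ), hc, rfl⟩)))
    (eq_top_iff.2 (h.span_r.ge.trans (Submodule.span_mono fun χ ⟨c, hc⟩ => ⟨(c, χ), hc, rfl⟩)))
  replace hop : ∀ c χ, Op P z φ₀ c χ → J c = χ := fun c χ hc => hop (c, χ) hc
  have hle : P ≤ isoms fun u v => J v ⬝ᵥ u := h.gen _ fun c χ k hc hk => by
    have := hJ.tv_mem (c := c) ((hσ k).1 hk) (by rw [hop _ _ hc, hc.fl.t.1])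
    rwa [hop _ _ hc] at this
  by_cases e : σ = RingEquiv.refl F
  · subst e
    exact Or.inr (hJ.fixA (hJ.alt h.span_l fun c ⟨χ, hc⟩ => by rw [hop _ _ hc, hc.fl.t.1]) hle)
  obtain ⟨z', φ', c, χ, h', hc, hn⟩ : ∃ z' φ' c χ, Op P z φ₀ z' φ' ∧ Op P z φ₀ c χ ∧
      φ' ⬝ᵥ c ∉ K := by
    by_contra! hn
    exact e (RingEquiv.ext fun y => (hσ y).1 ((h.eq_top hN K le_rfl hn).ge (Subfield.mem_top y)))
  obtain ⟨l₀, hl₀, l0, l1⟩ := h.big
  refine Or.inl (hJ.isSU e hle h.hy.le_SL (fun _ => ⟨l₀, (hσ _).1 hl₀, l0, l1⟩) fun v hv l hl => ?_)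
  by_cases v0 : v = 0 ∨ l = 0
  · rcases v0 with rfl | rfl
    · exact T.zero_left _ _
    · simpa using T.zero_right P v
  push Not at v0
  have jz' := hop _ _ h'
  have jz : J z = φ₀ := by
    have := hop _ _ (h.shift h' (one_mem K))
    simpa [hJ.add, jz'] using this
  refine h.induct (fun a φ => a ≠ 0 ∧ J a ⬝ᵥ a = 0 ∧ ∃ l, σ l = l ∧ l ≠ 0 ∧ φ = l • J a) (T P)
    ?_ ?_ (fun a φ c χ k hc hk => T.of_conj ((h.root_op hc k).2 hk)) ?_ v _
    ⟨v0.1, hv, l, hl, v0.2, rfl⟩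
  · rintro a _ ⟨a0, -, l, -, l0, rfl⟩
    exact ⟨a0, smul_ne_zero l0 fun e => a0 (hJ.inj a e)⟩
  · rintro a _ c χ k ⟨a0, a1, l, hl, l0, rfl⟩ hc hk
    have c0 := hc.fl.t.1
    obtain rfl := hop _ _ hc
    have e1 : J (a + (J c ⬝ᵥ a) • k • c) = J a - (k * J a ⬝ᵥ c) • J c := by
      rw [hJ.add, hJ.smul, hJ.smul, (hσ k).1 hk, hJ.skew a c]
      module
    refine ⟨fun e => a0 ?_, ?_, l, hl, l0, ?_⟩
    · have := congrArg (J c ⬝ᵥ ·) e
      simp only [dotProduct_add, dotProduct_smul, c0, smul_zero, add_zero, dotProduct_zero] at this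
      simpa [this] using e
    · simp only [e1, sub_dotProduct, dotProduct_add, dotProduct_smul, smul_dotProduct, smul_eq_mul,
        a1, c0]
      ring
    · simp only [e1, dotProduct_smul, smul_dotProduct, smul_eq_mul]
      module
  · rintro a _ ⟨a0, a1, l, hl, l0, rfl⟩ e1 -
    obtain ⟨s, hs⟩ : ∃ s, s = φ₀ ⬝ᵥ a := ⟨_, rfl⟩
    obtain ⟨c, rfl⟩ : ∃ c, a = s • c := ⟨s⁻¹ • a, by rw [smul_inv_smul₀ (hs ▸ e1)]⟩
    have s0 : s ≠ 0 := hs ▸ e1
    have c1 : φ₀ ⬝ᵥ c = 1 := mul_left_cancel₀ s0 (by simpa using hs.symm)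
    have c2 : J c ⬝ᵥ c = 0 := by simpa [hJ.smul, s0] using a1
    obtain ⟨b, hb⟩ := h.full hσ hJ hop h' hc hn (c - z' + (φ' ⬝ᵥ c) • z)
      (by simp [c1, h'.l, h.zz]) (by simp [h'.r, h'.fl.t.1])
    have h1 := h.rd_op h' hb
    have h2 := h1.fl.t.1
    rw [← hop _ _ h1, show z' + (c - z' + (φ' ⬝ᵥ c) • z + b • z) = c + (φ' ⬝ᵥ c + b) • z by module,
      hJ.add, hJ.smul, jz] at h2
    have h3 : J c ⬝ᵥ z = -1 := by rw [hJ.skew, jz, c1, map_one]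
    simp only [add_dotProduct, dotProduct_add, smul_dotProduct, dotProduct_smul, smul_eq_mul, c1,
      c2, h3, h.zz] at h2
    have h4 := h.shift h1 (neg_mem ((hσ (φ' ⬝ᵥ c + b)).2 (by linear_combination h2)))
    rw [← hop _ _ h4, show z' + (c - z' + (φ' ⬝ᵥ c) • z + b • z) + -(φ' ⬝ᵥ c + b) • z = c by
      module] at h4
    rw [hJ.smul, smul_smul, ← T.smul_iff, smul_smul]
    exact (h.root_op h4 _).2 ((hσ _).2 (by simp [hl, inv]; ring))

/-- If incidence is not symmetric then `z` has a second axis. -/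
theorem exists_ax (h : St P K z φ₀) (hS : ¬ NS P) : ∃ μ, T P z μ ∧ ∀ s : F, μ ≠ s • φ₀ := by
  by_contra! hn
  let U : (ι → F) → (ι → F) → Prop := fun a φ => ∀ μ, T P a μ → ∃ s : F, μ = s • φ
  have cj : ∀ {a φ b ψ}, T P b ψ → U (a + (ψ ⬝ᵥ a) • b) (φ - (φ ⬝ᵥ b) • ψ) → U a φ :=
    fun {a φ b ψ} hb hU μ hμ => by
      obtain ⟨s, e⟩ := hU _ (hμ.conj_tv hb)
      have := congrArg (· ⬝ᵥ b) e
      simp only [sub_dotProduct, smul_dotProduct, hb.1, smul_zero, sub_zero] at this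
      exact ⟨s, by rw [this] at e; linear_combination (norm := module) e⟩
  have uop : ∀ {c χ}, Op P z φ₀ c χ → U c χ := fun {c χ} hc =>
    cj h.fl.t (cj hc.fl.t fun μ hμ => by
      obtain ⟨s, e⟩ := hn μ (hμ.congr (by simp [hc.l, hc.r, hc.fl.t.1]) rfl)
      exact ⟨s, by simp [hc.l, hc.r, hc.fl.t.1, e]⟩)
  have all := h.induct_fl U (fun a φ c χ k hc hk => cj ((h.root_op hc k).2 hk))
    fun a φ ha e1 e2 μ hμ => by
      obtain ⟨s, e⟩ := uop (h.normalise ha e1 e2) _ (hμ.scale (inv_ne_zero e1))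
      refine ⟨(φ₀ ⬝ᵥ a)⁻¹ * s * -(φ ⬝ᵥ z)⁻¹, ?_⟩
      rw [mul_smul, mul_smul, ← e, inv_inv, inv_smul_smul₀ e1]
  refine hS fun a φ b ψ ha hb e => by_contra fun e' => ?_
  obtain ⟨s, hs⟩ := all b ψ hb _ (hb.t.comm' ha.t e)
  have := congrArg (· ⬝ᵥ a) hs
  simp only [smul_dotProduct, ha.t.1, mul_zero, smul_eq_mul] at this
  rw [(mul_eq_zero.1 this.symm).resolve_right e', zero_smul] at hs
  exact smul_ne_zero e' ha.r hs

theorem mem_of_rd (h : St P K z φ₀) (h' : Op P z φ₀ z' φ') {α : F} (hw : φ' ⬝ᵥ w = 0)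
    (h1 : Rd P z φ₀ z' (w + α • z) μ) : α * (α - μ ⬝ᵥ w) ∈ K ∧ α + (α - μ ⬝ᵥ w) ∈ K := by
  have a1 := neg_mem (h.gram_mul h' (h.rd_op h' h1))
  have a2 := neg_mem (h.gram_sub h' (h.rd_op h' h1))
  simp only [dotProduct_add, add_dotProduct, sub_dotProduct, dotProduct_smul, smul_dotProduct,
    smul_eq_mul, h'.l, h'.r, h'.fl.t.1, hw, h1.r, h1.r'] at a1 a2
  exact ⟨by convert a1 using 1; ring, by convert a2 using 1; ring⟩

theorem of_not_ns (h : St P K z φ₀) (hN : NoSub P) (hS : ¬ NS P) : P = specialLinear ι F := by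
  obtain ⟨z', φ', h'⟩ := h.exists_op
  have sq : ∀ {w μ} {α : F}, φ' ⬝ᵥ w = 0 → Rd P z φ₀ z' (w + α • z) μ → μ ⬝ᵥ w = 0 → α ∈ K :=
    fun hw h1 e => by
      have := h.mem_of_rd h' hw h1
      rw [e, sub_zero, ← sq, ← two_mul] at this
      exact mem_of_sq_mem this.1 fun h2 => by
        simpa [h2] using div_mem this.2 (show (2 : F) ∈ K from by exact_mod_cast natCast_mem K 2)
  have un : ∀ {w μ} {α : F}, Rd P z φ₀ z' (w + α • z) μ → α ∈ K → Rd P z φ₀ z' w μ :=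
    fun h1 hα => (h.rd_shift h1 (neg_mem hα)).congr (by module) rfl
  have neg : ∀ {μ}, T P z μ → μ ⬝ᵥ z' = 0 → ∀ {w ν}, Rd P z φ₀ z' w (ν + μ) → Rd P z φ₀ z' w ν :=
    fun hμ e _ _ h1 => (h.rd_add h1 (Rd.of_right hμ.neg_right (by simp [e]))).congr (by simp)
      (by simp)
  have S1 : ∀ {w μ}, φ' ⬝ᵥ w = 0 → Rd P z φ₀ z' w μ → μ ⬝ᵥ w ≠ 0 → T P w φ₀ ∧ T P z μ :=
    fun {w μ} hw h1 e => by
      have ht : μ ⬝ᵥ w ∈ K := by
        simpa using neg_mem (h.mem_of_rd h' (α := 0) hw (h1.congr (by simp) rfl)).2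
      obtain ⟨l, hl, l0, l1⟩ := h.big
      have e1 : 1 - l / μ ⬝ᵥ w * μ ⬝ᵥ w ≠ 0 := by
        rw [div_mul_cancel₀ _ e]; exact sub_ne_zero.2 l1.symm
      have h2 := h.rd_scale h' hw (h.rd_shift h1 ht) (div_mem hl ht) e1 (by simp)
      rw [div_mul_cancel₀ _ e] at h2 e1
      have hr := inv_mem (sub_mem (one_mem K) hl)
      have r1 : 1 - (1 - l)⁻¹ ≠ 0 := fun e' => l0 (by
        have := inv_eq_one.1 (sub_eq_zero.1 e').symm
        linear_combination -this)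
      generalize (1 - l)⁻¹ = r at h2 hr r1
      have h3 : Rd P z φ₀ z' (r • w) μ :=
        un (h2.congr (by rw [smul_add, smul_smul]) (by simp)) (mul_mem hr ht)
      have h4 : Rd P z φ₀ z' 0 ((1 - r) • μ) := un (α := -(r * (r * μ ⬝ᵥ w)))
        ((h.rd_add (h.rd_smul h' h1 (neg_mem hr)) h3).congr (by simp [hw]) (by module))
        (neg_mem (mul_mem hr (mul_mem hr ht)))
      have h5 : T P z μ := Rd.right ((h.rd_smul h' h4 (inv_mem (sub_mem (one_mem K) hr))).congr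
        (by simp) (by rw [inv_smul_smul₀ r1]))
      exact ⟨Rd.left (neg h5 h1.r' (h1.congr rfl (zero_add μ).symm)), h5⟩
  obtain ⟨μ₂, m1, m2, m3⟩ : ∃ μ₂, T P z μ₂ ∧ μ₂ ⬝ᵥ z' = 0 ∧ μ₂ ≠ 0 := by
    obtain ⟨μ, hμ, hn⟩ := h.exists_ax hS
    have h1 : Rd P z φ₀ z' (0 + (μ ⬝ᵥ z') • z) (μ - (μ ⬝ᵥ z') • φ₀) :=
      ⟨by simp [h.zz], by simp [hμ.1, h.zz], by simp [h'.l], _, hμ.2, fun v => by
        simp only [tv_mulVec hμ.1, sub_dotProduct, smul_dotProduct, smul_eq_mul]; module⟩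
    exact ⟨_, Rd.right (un h1 (sq (by simp) h1 (by simp))), h1.r', sub_ne_zero.2 (hn _)⟩
  have S2 : ∀ {w μ} {α : F}, φ' ⬝ᵥ w = 0 → Rd P z φ₀ z' (w + α • z) μ → μ₂ ⬝ᵥ w ≠ 0 →
      T P w φ₀ ∧ T P z μ := fun {w μ α} hw h1 e => by
    have h2 : Rd P z φ₀ z' (w + (α + μ₂ ⬝ᵥ w) • z) (μ + μ₂) :=
      (h.rd_add (Rd.of_right m1 m2) h1).congr (by simp [m1.1]; module) (add_comm _ _)
    obtain ⟨a1, a2⟩ := h.mem_of_rd h' hw h1
    obtain ⟨a3, a4⟩ := h.mem_of_rd h' hw h2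
    rw [add_dotProduct] at a3 a4
    have a5 : μ₂ ⬝ᵥ w ∈ K := by convert sub_mem a4 a2 using 1; ring
    have a6 : α - μ ⬝ᵥ w ∈ K := by
      convert div_mem (sub_mem a3 a1) a5 using 1
      field_simp
      ring
    have a7 : α ∈ K := by simpa using sub_mem a2 a6
    by_cases e' : μ ⬝ᵥ w = 0
    · obtain ⟨k1, k2⟩ := S1 hw (un h2 (add_mem a7 a5)) (by simpa [e'] using e)
      exact ⟨k1, by simpa using k2.sub_right m1⟩
    · exact S1 hw (un h1 a7) e'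
  have opw : ∀ {c χ}, Op P z φ₀ c χ → Rd P z φ₀ z' (c - z' + (φ' ⬝ᵥ c) • z + (-(φ' ⬝ᵥ c)) • z)
      (χ - φ' - (χ ⬝ᵥ z') • φ₀) := fun hc => (h.op_rd h' hc).congr (by module) rfl
  have w0 : ∀ c, φ' ⬝ᵥ (c - z' + (φ' ⬝ᵥ c) • z) = 0 := fun c => by simp [h'.r, h'.fl.t.1]
  obtain ⟨c₀, ⟨χ₀, h₀⟩, e₀⟩ : ∃ c ∈ {c | ∃ χ, Op P z φ₀ c χ}, μ₂ ⬝ᵥ c ≠ 0 := by
    by_contra! hn
    exact m3 (eq_zero_of_span h.span_l hn)
  have e₀' : μ₂ ⬝ᵥ (c₀ - z' + (φ' ⬝ᵥ c₀) • z) ≠ 0 := by simpa [m1.1, m2] using e₀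
  have S3 : ∀ {c χ}, Op P z φ₀ c χ →
      T P (c - z' + (φ' ⬝ᵥ c) • z) φ₀ ∧ T P z (χ - φ' - (χ ⬝ᵥ z') • φ₀) := fun {c χ} hc => by
    by_cases e : μ₂ ⬝ᵥ (c - z' + (φ' ⬝ᵥ c) • z) = 0
    swap
    · exact S2 (w0 c) (opw hc) e
    obtain ⟨k1, k2⟩ := S2 (w0 c₀) (opw h₀) e₀'
    obtain ⟨k3, k4⟩ := S2 (w := c - z' + (φ' ⬝ᵥ c) • z + (c₀ - z' + (φ' ⬝ᵥ c₀) • z))
      (α := (χ - φ' - (χ ⬝ᵥ z') • φ₀) ⬝ᵥ (c₀ - z') - φ' ⬝ᵥ c - φ' ⬝ᵥ c₀)
      (by rw [dotProduct_add, w0, w0, add_zero])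
      ((h.rd_add (h.op_rd h' hc) (h.op_rd h' h₀)).congr (by module) rfl)
      (by rwa [dotProduct_add, e, zero_add])
    exact ⟨by simpa using k3.sub_left k1, by simpa using k4.sub_right k2⟩
  have hα : ∀ {c χ}, Op P z φ₀ c χ → φ' ⬝ᵥ c ∈ K := fun {c χ} hc => by
    obtain ⟨k1, k2⟩ := S3 hc
    have := (Rd.left (neg k2 (opw hc).r' ((opw hc).congr rfl (zero_add _).symm))).sub_left k1
    simpa using neg_mem ((h.root (-(φ' ⬝ᵥ c))).1 (this.congr (by module) rfl))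
  obtain rfl : K = ⊤ := h.eq_top hN K le_rfl fun c χ c' χ' hc hc' => by
    have a1 := (h.root _).1 ((S3 hc').1.comm (S3 hc).2 h.zz)
    have a2 := sub_mem (hα hc) (h.gram_sub h' hc)
    simp only [dotProduct_add, dotProduct_sub, sub_dotProduct, dotProduct_smul, smul_dotProduct,
      smul_eq_mul, hc.r, h'.r, h'.l, hc'.l, h.zz, h'.fl.t.1] at a1
    convert add_mem (add_mem a1 a2) (hα hc') using 1
    ring
  have A1 : ∀ v ∈ Submodule.span F {c | ∃ χ, Op P z φ₀ c χ},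
      T P (v - (φ₀ ⬝ᵥ v) • z' + (φ' ⬝ᵥ v) • z) φ₀ := fun v hv => by
    induction hv using Submodule.span_induction with
    | mem _ hx => obtain ⟨χ, hx⟩ := hx; simpa [hx.l] using (S3 hx).1
    | zero => simpa using T.zero_left P φ₀
    | add _ _ _ _ h1 h2 => exact (h1.add_left h2).congr (by simp only [dotProduct_add]; module) rfl
    | smul s x _ h1 =>
      refine Rd.left ((h.rd_smul h' (Rd.of_left h1) (Subfield.mem_top s)).congr ?_ (by simp))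
      simp only [dotProduct_add, dotProduct_sub, dotProduct_smul, smul_eq_mul, h'.r, h'.fl.t.1]
      module
  have A2 : ∀ v ∈ Submodule.span F {χ | ∃ c, Op P z φ₀ c χ},
      T P z (v + (v ⬝ᵥ z) • φ' - (v ⬝ᵥ z') • φ₀) := fun v hv => by
    induction hv using Submodule.span_induction with
    | mem _ hx => obtain ⟨c, hx⟩ := hx; exact (S3 hx).2.congr rfl (by rw [hx.r]; module)
    | zero => simpa using T.zero_right P z
    | add _ _ _ _ h1 h2 => exact (h1.add_right h2).congr rfl (by simp only [add_dotProduct]; module)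
    | smul s x _ h1 =>
      refine Rd.right ((h.rd_smul h' (Rd.of_right h1 (by simp [h'.l, h'.fl.t.1]))
        (Subfield.mem_top s)).congr (by simp) ?_)
      simp only [smul_dotProduct, smul_eq_mul]
      module
  refine eq_SL h.hy.le_SL fun a φ h0 => ?_
  by_cases v0 : a = 0 ∨ φ = 0
  · rcases v0 with rfl | rfl
    · exact T.zero_left _ _
    · exact T.zero_right _ _
  push Not at v0
  refine h.induct (Fl ⊤) (T P) (fun _ _ ha => ⟨ha.l, ha.r⟩)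
    (fun a φ c χ k ha hc _ => ha.conj_tv ⟨by simp [hc.fl.t.1], trivial⟩)
    (fun a φ c χ k hc hk => T.of_conj ((h.root_op hc k).2 hk)) (fun a φ ha e1 e2 => ?_) a φ
    ⟨⟨h0, trivial⟩, v0.1, v0.2⟩
  have op : ∀ c χ : ι → F, χ ⬝ᵥ c = 0 → φ₀ ⬝ᵥ c = 1 → χ ⬝ᵥ z = -1 → Op P z φ₀ c χ :=
    fun c χ k0 k1 k2 => by
      have h1 := h.rd_op h' (h.rd_shift (h.rd_add (Rd.of_left (A1 c (h.span_l ▸ trivial)))
        (Rd.of_right (A2 χ (h.span_r ▸ trivial)) (by simp [h'.l, h'.fl.t.1])))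
        (Subfield.mem_top (-(φ' ⬝ᵥ c))))
      convert h1 using 1
      · simp [k1]
      · simp only [dotProduct_add, add_dotProduct, dotProduct_sub, sub_dotProduct, dotProduct_smul,
          smul_dotProduct, dotProduct_zero, zero_dotProduct, smul_eq_mul, h'.l, h'.r, h'.fl.t.1,
          h.zz, k0, k1, k2]
        module
  have h2 := (h.root_op (op ((φ₀ ⬝ᵥ a)⁻¹ • a) (-(φ ⬝ᵥ z)⁻¹ • φ) (by simp [ha.t.1]) (by simp [e1])
    (by simp [e2])) (-(φ₀ ⬝ᵥ a * φ ⬝ᵥ z))).2 trivial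
  rw [← T.smul_iff, smul_smul, smul_smul] at h2
  convert h2
  field_simp
  simp

end St

universe u

theorem wBig : WBig.{u} := fun {_ _ _ _ _ _ P _ _} _ H hN hz h1 h2 h3 => by
  have h : St P _ _ _ := ⟨H, hz, h1, h2, h3⟩
  by_cases hS : NS P
  · exact Or.inr (h.of_ns hN hS)
  · exact Or.inl (h.of_not_ns hN hS)

end Cfsg.Lib.Tv45
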