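import Cfsg.Agent.Tv45.Defs

/-!
# Large root groups: the transvections opposite to a fixed one
-/

set_option autoImplicit false

namespace Cfsg.Lib.Tv45

open Matrix Cfsg.Geo Cfsg.Lib.Class Cfsg.Lib.Class.Asch Cfsg.Lib.Mit
open scoped MatrixGroups

variable {ι : Type} [Fintype ι] [DecidableEq ι] {F : Type*} [Field F]
  {P : Subgroup (GL ι F)} {a b c c' m u u' w x y z z' φ ψ χ χ' φ₀ φ' μ μ' : ι → F}
  {K : Subfield F}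

theorem T.of_conj (hb : T P b ψ) (h : T P (a + (ψ ⬝ᵥ a) • b) (φ - (φ ⬝ᵥ b) • ψ)) : T P a φ :=
  (h.conj_tv hb.neg_left).congr (by simp [hb.1]) (by simp [hb.1])

/-- The standing hypotheses. -/
structure St (P : Subgroup (GL ι F)) (K : Subfield F) (z φ₀ : ι → F) : Prop where
  hy : Hy P
  fl : Fl P z φ₀
  root : ∀ c, T P (c • z) φ₀ ↔ c ∈ K
  big : ∃ l ∈ K, l ≠ 0 ∧ l ≠ 1
  pair : ∀ a φ b ψ, Fl P a φ → Fl P b ψ → (∀ c, T P (c • a) φ ↔ c ∈ K) → φ ⬝ᵥ b ≠ 0 →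
    ψ ⬝ᵥ a ≠ 0 → φ ⬝ᵥ b * ψ ⬝ᵥ a ∈ K

/-- A normalised transvection opposite to `(z, φ₀)`. -/
structure Op (P : Subgroup (GL ι F)) (z φ₀ c χ : ι → F) : Prop where
  fl : Fl P c χ
  l : φ₀ ⬝ᵥ c = 1
  r : χ ⬝ᵥ z = -1

theorem Op.dl (h : Op P z φ₀ c χ) : Op (dl P) φ₀ z (-χ) (-c) :=
  ⟨Fl_dl.2 ⟨h.fl.t.neg_left.neg_right, neg_ne_zero.2 h.fl.l, neg_ne_zero.2 h.fl.r⟩,
    by simp [dotProduct_comm z, h.r], by simp [dotProduct_comm c, h.l]⟩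

theorem Op.of_dl (h : Op (Tv45.dl P) φ₀ z χ c) : Op P z φ₀ (-c) (-χ) := by
  have := h.dl
  rwa [dl_dl] at this

namespace St

theorem dl (h : St P K z φ₀) : St (dl P) K φ₀ z :=
  ⟨h.hy.dl, Fl_dl.2 h.fl, fun c => by rw [T_dl, ← T.smul_iff, h.root], h.big,
    fun a φ b ψ ha hb r e1 e2 => by
      have := h.pair φ a ψ b (Fl_dl.1 ha) (Fl_dl.1 hb) (fun c => by rw [T.smul_iff, ← T_dl, r])
        (dotProduct_comm ψ a ▸ e2) (dotProduct_comm φ b ▸ e1)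
      rwa [dotProduct_comm a, dotProduct_comm b, mul_comm] at this⟩

theorem zz (h : St P K z φ₀) : φ₀ ⬝ᵥ z = 0 := h.fl.t.1

variable [Finite F]

theorem root_opp (h : St P K z φ₀) (ha : Fl P a φ) (e1 : φ₀ ⬝ᵥ a ≠ 0) (e2 : φ ⬝ᵥ z ≠ 0) (k : F) :
    T P (k • a) φ ↔ k ∈ K := by
  obtain ⟨l, hl, l0, l1⟩ := h.big
  obtain ⟨K', k1, k2, -⟩ := pairT h.fl.t ha.t e1 e2 ⟨l, l0, l1, (h.root l).2 hl⟩
  rw [k2, ← k1, h.root]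

theorem root_op (h : St P K z φ₀) (hc : Op P z φ₀ c χ) (k : F) : T P (k • c) χ ↔ k ∈ K :=
  h.root_opp hc.fl (by simp [hc.l]) (by simp [hc.r]) k

theorem normalise (h : St P K z φ₀) (ha : Fl P a φ) (e1 : φ₀ ⬝ᵥ a ≠ 0) (e2 : φ ⬝ᵥ z ≠ 0) :
    Op P z φ₀ ((φ₀ ⬝ᵥ a)⁻¹ • a) (-(φ ⬝ᵥ z)⁻¹ • φ) :=
  ⟨ha.smul (inv_ne_zero e1) (by simpa using e2) ((h.root_opp ha e1 e2 _).2 (by
    rw [mul_neg, ← mul_inv]
    exact neg_mem (inv_mem (h.pair _ _ _ _ h.fl ha h.root e1 e2)))), by simp [e1], by simp [e2]⟩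

theorem exists_op (h : St P K z φ₀) : ∃ c χ, Op P z φ₀ c χ := by
  obtain ⟨b, ψ, hb, e1, e2⟩ := h.hy.exists_opp h.fl
  exact ⟨_, _, h.normalise hb e1 e2⟩

omit [Finite F] in
theorem shift (h : St P K z φ₀) (hc : Op P z φ₀ c χ) {k : F} (hk : k ∈ K) :
    Op P z φ₀ (c + k • z) (χ + k • φ₀) :=
  ⟨(hc.fl.conj_tv ((h.root k).2 hk)).congr (by simp [hc.l]) (by simp [hc.r]),
    by simp [hc.l, h.zz], by simp [hc.r, h.zz]⟩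

theorem gram_mul (h : St P K z φ₀) (hc : Op P z φ₀ c χ) (hc' : Op P z φ₀ c' χ') :
    χ ⬝ᵥ c' * χ' ⬝ᵥ c ∈ K := by
  by_cases e1 : χ ⬝ᵥ c' = 0
  · simp [e1]
  by_cases e2 : χ' ⬝ᵥ c = 0
  · simp [e2]
  exact h.pair _ _ _ _ hc.fl hc'.fl (h.root_op hc) e1 e2

theorem gram_sub (h : St P K z φ₀) (hc : Op P z φ₀ c χ) (hc' : Op P z φ₀ c' χ') :
    χ ⬝ᵥ c' - χ' ⬝ᵥ c ∈ K := by
  have h1 := h.gram_mul hc (h.shift hc' (one_mem K))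
  simp only [one_smul, dotProduct_add, add_dotProduct, hc.l, hc.r] at h1
  convert add_mem (sub_mem h1 (h.gram_mul hc hc')) (one_mem K) using 1
  ring

theorem span_l (h : St P K z φ₀) : Submodule.span F {c | ∃ χ, Op P z φ₀ c χ} = ⊤ := by
  obtain ⟨c₀, χ₀, h0⟩ := h.exists_op
  have sub : ∀ {c χ}, Op P z φ₀ c χ → c ∈ Submodule.span F {c | ∃ χ, Op P z φ₀ c χ} :=
    fun hc => Submodule.subset_span ⟨_, hc⟩
  have L : ∀ a φ, Fl P a φ → φ ⬝ᵥ z ≠ 0 → a ∈ Submodule.span F {c | ∃ χ, Op P z φ₀ c χ} :=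
    fun a φ ha e2 => by
      by_cases e1 : φ₀ ⬝ᵥ a = 0
      · have h1 := h.fl.t.comm ha.t e1
        have h2 : Op P z φ₀ _ _ := ⟨h0.fl.conj_tv h1, by simp [h0.l, e1], by simp [h0.r, h.zz]⟩
        have := Submodule.smul_mem _ (φ ⬝ᵥ z)⁻¹ (sub_mem (sub h2) (sub h0))
        simpa [h0.l, e2] using this
      · simpa [e1] using Submodule.smul_mem _ (φ₀ ⬝ᵥ a) (sub (h.normalise ha e1 e2))
  refine h.hy.span_eq_top ⟨c₀, ⟨_, h0⟩, h0.fl.l⟩ ?_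
  rintro a φ ha c ⟨χ, hc⟩
  by_cases e2 : φ ⬝ᵥ z = 0
  swap
  · exact Submodule.smul_mem _ _ (L a φ ha e2)
  by_cases e3 : φ ⬝ᵥ c = 0
  · simp [e3]
  have := L _ _ (ha.conj_tv hc.fl.t) (by simpa [e2, hc.r] using e3)
  exact Submodule.smul_mem _ _ (by simpa using sub_mem this (Submodule.smul_mem _ (χ ⬝ᵥ a) (sub hc)))

theorem span_r (h : St P K z φ₀) : Submodule.span F {χ | ∃ c, Op P z φ₀ c χ} = ⊤ :=
  eq_top_iff.2 (h.dl.span_l.ge.trans (Submodule.span_le.2 fun _ ⟨_, hc⟩ => by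
    simpa using neg_mem (Submodule.subset_span (R := F) (s := {χ | ∃ c, Op P z φ₀ c χ})
      ⟨_, hc.of_dl⟩)))

/-- Every pair can be moved opposite to the base. -/
theorem induct (h : St P K z φ₀) (Y Q : (ι → F) → (ι → F) → Prop)
    (h0 : ∀ a φ, Y a φ → a ≠ 0 ∧ φ ≠ 0)
    (hY : ∀ a φ c χ k, Y a φ → Op P z φ₀ c χ → k ∈ K →
      Y (a + (χ ⬝ᵥ a) • k • c) (φ - (φ ⬝ᵥ k • c) • χ))
    (hQ : ∀ a φ c χ k, Op P z φ₀ c χ → k ∈ K →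
      Q (a + (χ ⬝ᵥ a) • k • c) (φ - (φ ⬝ᵥ k • c) • χ) → Q a φ)
    (hop : ∀ a φ, Y a φ → φ₀ ⬝ᵥ a ≠ 0 → φ ⬝ᵥ z ≠ 0 → Q a φ) : ∀ a φ, Y a φ → Q a φ := by
  have L : ∀ a φ, Y a φ → φ ⬝ᵥ z ≠ 0 → Q a φ := fun a φ ha e2 => by
    by_cases e1 : φ₀ ⬝ᵥ a = 0
    swap
    · exact hop a φ ha e1 e2
    obtain ⟨χ, ⟨c, hc⟩, e3⟩ : ∃ χ ∈ {χ | ∃ c, Op P z φ₀ c χ}, χ ⬝ᵥ a ≠ 0 := by
      by_contra! hn
      exact (h0 a φ ha).1 (eq_zero_of_span h.span_r fun v hv => dotProduct_comm v a ▸ hn v hv)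
    obtain ⟨k, hk, k0, k1⟩ : ∃ k ∈ K, k ≠ 0 ∧ φ ⬝ᵥ z + k * φ ⬝ᵥ c ≠ 0 := by
      obtain ⟨l, hl, l0, l1⟩ := h.big
      by_contra! hn
      have a1 := hn 1 (one_mem K) one_ne_zero
      have a2 := hn l hl l0
      exact mul_ne_zero (sub_ne_zero.2 l1) e2 (by linear_combination l * a1 - a2)
    exact hQ a φ c χ k hc hk (hop _ _ (hY a φ c χ k ha hc hk) (by simp [e1, hc.l, e3, k0])
      (by simpa [hc.r] using k1))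
  intro a φ ha
  by_cases e2 : φ ⬝ᵥ z = 0
  swap
  · exact L a φ ha e2
  obtain ⟨c, ⟨χ, hc⟩, e3⟩ : ∃ c ∈ {c | ∃ χ, Op P z φ₀ c χ}, φ ⬝ᵥ c ≠ 0 := by
    by_contra! hn
    exact (h0 a φ ha).2 (eq_zero_of_span h.span_l hn)
  exact hQ a φ c χ 1 hc (one_mem K) (L _ _ (hY a φ c χ 1 ha hc (one_mem K))
    (by simpa [e2, hc.r] using e3))

theorem induct_fl (h : St P K z φ₀) (Q : (ι → F) → (ι → F) → Prop)
    (hQ : ∀ a φ c χ k, Op P z φ₀ c χ → k ∈ K →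
      Q (a + (χ ⬝ᵥ a) • k • c) (φ - (φ ⬝ᵥ k • c) • χ) → Q a φ)
    (hop : ∀ a φ, Fl P a φ → φ₀ ⬝ᵥ a ≠ 0 → φ ⬝ᵥ z ≠ 0 → Q a φ) : ∀ a φ, Fl P a φ → Q a φ :=
  h.induct (Fl P) Q (fun _ _ ha => ⟨ha.l, ha.r⟩)
    (fun _ _ _ _ k ha hc hk => ha.conj_tv ((h.root_op hc k).2 hk)) hQ hop

theorem gen (h : St P K z φ₀) (Q : Subgroup (GL ι F))
    (hQ : ∀ c χ k, Op P z φ₀ c χ → k ∈ K → tv (k • c) χ ∈ Q) : P ≤ Q :=
  h.hy.gen Q fun a φ ha => (h.induct_fl (T Q) (fun a φ c χ k hc hk =>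
    T.of_conj ⟨by simp [hc.fl.t.1], hQ c χ k hc hk⟩) (fun a φ ha e1 e2 => by
      have := hQ _ _ (-(φ₀ ⬝ᵥ a * φ ⬝ᵥ z)) (h.normalise ha e1 e2)
        (neg_mem (h.pair _ _ _ _ h.fl ha h.root e1 e2))
      rw [smul_smul, ← tv_smul_left, smul_smul] at this
      refine ⟨ha.t.1, ?_⟩
      convert this
      field_simp
      simp) a φ ha).2

theorem eq_top (h : St P K z φ₀) (hN : NoSub P) (L : Subfield F) (hL : K ≤ L)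
    (hv : ∀ c χ c' χ', Op P z φ₀ c χ → Op P z φ₀ c' χ' → χ ⬝ᵥ c' ∈ L) : L = ⊤ :=
  eq_top_of_rat hN L h.span_l h.span_r (fun _ ⟨_, hc⟩ _ ⟨_, hc'⟩ => hv _ _ _ _ hc' hc)
    fun Q hQ => h.gen Q fun c χ k hc hk => hQ c ⟨χ, hc⟩ χ ⟨c, hc⟩ k (hL hk) hc.fl.t.1

end St

/-! ### The unipotent radical -/

/-- An element of the unipotent radical of the flag `(z, φ₀)`. -/
structure Rd (P : Subgroup (GL ι F)) (z φ₀ z' u μ : ι → F) : Prop where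
  l : φ₀ ⬝ᵥ u = 0
  r : μ ⬝ᵥ z = 0
  r' : μ ⬝ᵥ z' = 0
  mem : ∃ g ∈ P, ∀ v, (g : Matrix ι ι F) *ᵥ v = v + (φ₀ ⬝ᵥ v) • u + (μ ⬝ᵥ v) • z

theorem Rd.congr (h : Rd P z φ₀ z' u μ) (e : u = u') (e' : μ = μ') : Rd P z φ₀ z' u' μ' :=
  e ▸ e' ▸ h

theorem Rd.of_left (h : T P u φ₀) : Rd P z φ₀ z' u 0 :=
  ⟨h.1, by simp, by simp, _, h.2, fun v => by simp [tv_mulVec h.1]⟩

theorem Rd.of_right (h : T P z μ) (e : μ ⬝ᵥ z' = 0) : Rd P z φ₀ z' 0 μ :=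
  ⟨by simp, h.1, e, _, h.2, fun v => by simp [tv_mulVec h.1]⟩

theorem Rd.left (h : Rd P z φ₀ z' u 0) : T P u φ₀ := by
  obtain ⟨g, hg, e⟩ := h.mem
  exact ⟨h.l, (show g = tv u φ₀ from GL_ext_mulVec fun v => by simp [e, tv_mulVec h.l]) ▸ hg⟩

theorem Rd.right (h : Rd P z φ₀ z' 0 μ) : T P z μ := by
  obtain ⟨g, hg, e⟩ := h.mem
  exact ⟨h.r, (show g = tv z μ from GL_ext_mulVec fun v => by simp [e, tv_mulVec h.r]) ▸ hg⟩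

namespace St

theorem rd_add (h : St P K z φ₀) (h1 : Rd P z φ₀ z' u μ) (h2 : Rd P z φ₀ z' u' μ') :
    Rd P z φ₀ z' (u + u' + (μ ⬝ᵥ u') • z) (μ + μ') := by
  obtain ⟨g, hg, e⟩ := h1.mem
  obtain ⟨g', hg', e'⟩ := h2.mem
  refine ⟨by simp [h1.l, h2.l, h.zz], by simp [h1.r, h2.r], by simp [h1.r', h2.r'], _,
    mul_mem hg hg', fun v => ?_⟩
  simp only [GL_mul_mulVec, e, e', dotProduct_add, add_dotProduct, dotProduct_smul, smul_eq_mul,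
    h2.l, h1.r, h.zz]
  module

theorem rd_shift (h : St P K z φ₀) (h1 : Rd P z φ₀ z' u μ) {k : F} (hk : k ∈ K) :
    Rd P z φ₀ z' (u + k • z) μ :=
  (h.rd_add h1 (Rd.of_left ((h.root k).2 hk))).congr (by simp [h1.r]) (by simp)

theorem rd_op (h : St P K z φ₀) (h' : Op P z φ₀ z' φ') (h1 : Rd P z φ₀ z' u μ) :
    Op P z φ₀ (z' + u) (φ' + μ - (φ' ⬝ᵥ u + μ ⬝ᵥ u) • φ₀) := by
  obtain ⟨g, hg, e⟩ := h1.mem
  have e1 : φ₀ ⬝ᵥ (z' + u) = 1 := by simp [h'.l, h1.l]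
  have e2 : (φ' + μ - (φ' ⬝ᵥ u + μ ⬝ᵥ u) • φ₀) ⬝ᵥ z = -1 := by simp [h'.r, h1.r, h.zz]
  refine ⟨⟨(h'.fl.t.conj hg (sub_eq_zero.1 (eq_zero_of_dot fun v => ?_))).congr
    (by simp [e, h'.l, h1.r']) rfl, right_ne (φ := φ₀) (by simp [e1]),
    left_ne (a := z) (by simp [e2])⟩, e1, e2⟩
  rw [sub_dotProduct, ← dotProduct_mulVec, e]
  simp only [dotProduct_add, add_dotProduct, sub_dotProduct, dotProduct_smul, smul_dotProduct,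
    smul_eq_mul, h1.l, h1.r, h.zz, h'.r]
  ring

variable [Finite F]

theorem torus (h : St P K z φ₀) (hc : Op P z φ₀ c χ) {s : F} (hs : s ∈ K) (s0 : s ≠ 0) :
    ∃ g ∈ P, ∀ v, (g : Matrix ι ι F) *ᵥ v =
      v + ((1 - s) * χ ⬝ᵥ v) • z + ((s⁻¹ - 1) * φ₀ ⬝ᵥ v) • c := by
  obtain ⟨l, hl, l0, l1⟩ := h.big
  obtain ⟨K', k1, -, -, k2⟩ := pairT h.fl.t hc.fl.t (by simp [hc.l]) (by simp [hc.r])
    ⟨l, l0, l1, (h.root l).2 hl⟩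
  obtain ⟨g, hg, e⟩ := k2 s ((k1 s).1 ((h.root s).2 hs)) s0
  refine ⟨g, hg, fun v => ?_⟩
  rw [e, hc.l, hc.r]
  module

theorem rd_smul (h : St P K z φ₀) (h' : Op P z φ₀ z' φ') (h1 : Rd P z φ₀ z' u μ) {s : F}
    (hs : s ∈ K) : Rd P z φ₀ z' (s • u + (s * (1 - s) * φ' ⬝ᵥ u) • z) (s • μ) := by
  by_cases s0 : s = 0
  · exact (Rd.of_left (T.zero_left P φ₀)).congr (by simp [s0]) (by simp [s0])
  obtain ⟨g, hg, e⟩ := h1.mem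
  obtain ⟨k, hk, ek⟩ := h.torus h' hs s0
  obtain ⟨k', hk', ek'⟩ := h.torus h' (inv_mem hs) (inv_ne_zero s0)
  refine ⟨by simp [h1.l, h.zz], by simp [h1.r], by simp [h1.r'], _, mul_mem (mul_mem hk hg) hk',
    fun v => ?_⟩
  simp only [GL_mul_mulVec, e, ek, ek', dotProduct_add, dotProduct_smul, smul_dotProduct,
    smul_eq_mul, h1.l, h1.r, h1.r', h.zz, h'.l, h'.r, h'.fl.t.1, inv_inv]
  match_scalars <;> field_simp <;> ring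

theorem op_rd (h : St P K z φ₀) (h' : Op P z φ₀ z' φ') (hc : Op P z φ₀ c χ) :
    Rd P z φ₀ z' (c - z') (χ - φ' - (χ ⬝ᵥ z') • φ₀) := by
  obtain ⟨s, hs, s0, s1⟩ := h.big
  have s2 : 1 - s ≠ 0 := sub_ne_zero.2 s1.symm
  obtain ⟨k, hk, ek⟩ := h.torus hc hs s0
  obtain ⟨k', hk', ek'⟩ := h.torus h' (inv_mem hs) (inv_ne_zero s0)
  have h1 : Rd P z φ₀ z' ((1 - s) • (c - z') + (s * (1 - s) * χ ⬝ᵥ z') • z)
      ((1 - s) • (χ - φ' - (χ ⬝ᵥ z') • φ₀)) := by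
    refine ⟨by simp [hc.l, h'.l, h.zz], by simp [hc.r, h'.r, h.zz], by simp [h'.fl.t.1, h'.l], _,
      mul_mem hk hk', fun v => ?_⟩
    simp only [GL_mul_mulVec, ek, ek', dotProduct_add, dotProduct_smul, smul_dotProduct,
      sub_dotProduct, smul_eq_mul, h.zz, h'.l, hc.r, inv_inv]
    match_scalars <;> field_simp <;> ring
  have h2 := h.rd_smul h' h1 (inv_mem (sub_mem (one_mem K) hs))
  have h3 := h.rd_shift h2 (k := s / (1 - s) * (φ' ⬝ᵥ c - χ ⬝ᵥ z'))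
    (mul_mem (div_mem hs (sub_mem (one_mem K) hs)) (h.gram_sub h' hc))
  refine h3.congr ?_ (by rw [smul_smul, inv_mul_cancel₀ s2, one_smul])
  simp only [dotProduct_add, dotProduct_smul, dotProduct_sub, smul_eq_mul, h'.r, h'.fl.t.1]
  match_scalars <;> field_simp <;> ring

/-- Conjugation by the opposite root group rescales the two halves differently. -/
theorem rd_scale (h : St P K z φ₀) (h' : Op P z φ₀ z' φ') {α l : F} (hw : φ' ⬝ᵥ w = 0)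
    (h1 : Rd P z φ₀ z' (w + α • z) μ) (hl : l ∈ K) (e1 : 1 - l * α ≠ 0)
    (e2 : 1 - l * (α - μ ⬝ᵥ w) ≠ 0) :
    Rd P z φ₀ z' ((1 - l * α)⁻¹ • (w + α • z)) ((1 - l * (α - μ ⬝ᵥ w))⁻¹ • μ) := by
  have w0 : φ₀ ⬝ᵥ w = 0 := by simpa [h.zz] using h1.l
  have h2 := (h.rd_op h' h1).fl.conj_tv ((h.root_op h' l).2 hl)
  have a1 : φ₀ ⬝ᵥ (z' + (w + α • z) + (φ' ⬝ᵥ (z' + (w + α • z))) • l • z') = 1 - l * α := by
    simp [h'.l, w0, h.zz, hw, h'.r, h'.fl.t.1]; ring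
  have a2 : (φ' + μ - (φ' ⬝ᵥ (w + α • z) + μ ⬝ᵥ (w + α • z)) • φ₀ -
      ((φ' + μ - (φ' ⬝ᵥ (w + α • z) + μ ⬝ᵥ (w + α • z)) • φ₀) ⬝ᵥ l • z') • φ') ⬝ᵥ z =
      -(1 - l * (α - μ ⬝ᵥ w)) := by
    simp [h'.l, h.zz, hw, h'.r, h'.fl.t.1, h1.r, h1.r']; ring
  have h3 := h.op_rd h' (h.normalise h2 (a1 ▸ e1) (a2 ▸ neg_ne_zero.2 e2))
  rw [a1, a2] at h3
  refine h3.congr ?_ ?_
  · simp only [dotProduct_add, dotProduct_smul, smul_eq_mul, h'.r, h'.fl.t.1, hw]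
    match_scalars <;> field_simp <;> ring
  · simp only [dotProduct_add, add_dotProduct, sub_dotProduct, dotProduct_smul, smul_dotProduct,
      smul_eq_mul, h'.r, h'.fl.t.1, hw, h1.r, h1.r', h'.l]
    match_scalars <;> field_simp <;> ring

end St

end Cfsg.Lib.Tv45
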