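import Cfsg.Agent.Tv45.Defs

/-!
# The centres of an axis form a conic
-/

set_option autoImplicit false

namespace Cfsg.Lib.Tv45

open Matrix Cfsg.Geo Cfsg.Lib.Class Cfsg.Lib.Class.Asch Cfsg.Lib.Mit
open scoped MatrixGroups

universe u

variable {ι : Type} [Fintype ι] [DecidableEq ι] {F : Type*} [Field F]
  {P : Subgroup (GL ι F)} {a b c m x y φ ψ χ : ι → F}

/-- The action on the quotient by the common kernel of two functionals, of the elements fixing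
that kernel pointwise. -/
def quoK (P : Subgroup (GL ι F)) (f : Fin 2 → ι → F) : Subgroup SL(2, F) where
  carrier := {A | ∃ g ∈ P, (∀ v, co f ((g : Matrix ι ι F) *ᵥ v) =
    (A : Matrix (Fin 2) (Fin 2) F) *ᵥ co f v) ∧ ∀ m, co f m = 0 → (g : Matrix ι ι F) *ᵥ m = m}
  one_mem' := ⟨1, P.one_mem, by simp, by simp⟩
  mul_mem' := by
    rintro A B ⟨g, hg, g1, g2⟩ ⟨h, hh, h1, h2⟩
    refine ⟨g * h, mul_mem hg hh, fun v => ?_, fun m hm => ?_⟩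
    · rw [GL_mul_mulVec, g1, h1, mulVec_mulVec]; rfl
    · rw [GL_mul_mulVec, h2 m hm, g2 m hm]
  inv_mem' := by
    rintro A ⟨g, hg, g1, g2⟩
    refine ⟨g⁻¹, inv_mem hg, fun v => ?_, fun m hm => ?_⟩
    · have e : ((A⁻¹ : SL(2, F)) : Matrix (Fin 2) (Fin 2) F) * (A : Matrix (Fin 2) (Fin 2) F) = 1 :=
        congrArg Subtype.val (inv_mul_cancel A)
      conv_rhs => rw [← GL_mulVec_inv_mulVec g v, g1, mulVec_mulVec, e, one_mulVec]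
    · conv_lhs => rw [← g2 m hm]
      rw [GL_inv_mulVec_mulVec]

/-- Dickson's lemma modulo the common kernel of the two axes. -/
theorem pairK [Finite F] (ha : T P a φ) (hb : T P b ψ) (e1 : φ ⬝ᵥ b ≠ 0) (e2 : ψ ⬝ᵥ a ≠ 0)
    (hno : ∀ m, T P m φ → ψ ⬝ᵥ m = 0 → m = 0)
    (hbig : ∃ (l : F) (w : ι → F), l ≠ 0 ∧ l ≠ 1 ∧ T P w φ ∧ ψ ⬝ᵥ w = l * ψ ⬝ᵥ a) :
    ∃ K : Subfield F, (∀ c, (∃ w, T P w φ ∧ ψ ⬝ᵥ w = c * ψ ⬝ᵥ a) ↔ c ∈ K) ∧
      (φ ⬝ᵥ b * ψ ⬝ᵥ a ∈ K ∨ (3 : F) = 0) ∧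
      ∀ μ ∈ K, μ ≠ 0 → ∃ u, ψ ⬝ᵥ u = μ * ψ ⬝ᵥ a ∧ ∀ (w : ι → F) (c : F), T P w φ →
        ψ ⬝ᵥ w = c * ψ ⬝ᵥ a → T P (μ • (w + c • (u - a))) φ := by
  set f : Fin 2 → ι → F := ![(ψ ⬝ᵥ a)⁻¹ • ψ, (φ ⬝ᵥ b)⁻¹ • φ] with hf
  have cof : ∀ v, co f v = ![(ψ ⬝ᵥ a)⁻¹ * ψ ⬝ᵥ v, (φ ⬝ᵥ b)⁻¹ * φ ⬝ᵥ v] := fun v => by
    ext i; fin_cases i <;> simp [co, hf]
  have co0 : ∀ v, φ ⬝ᵥ v = 0 → ψ ⬝ᵥ v = 0 → co f v = 0 := fun v h1 h2 => by
    rw [cof, h1, h2]; ext i; fin_cases i <;> simp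
  have co0' : ∀ v, co f v = 0 → φ ⬝ᵥ v = 0 ∧ ψ ⬝ᵥ v = 0 := fun v h => by
    rw [cof] at h
    exact ⟨by simpa [e1] using congrFun h 1, by simpa [e2] using congrFun h 0⟩
  have C : ∀ c, slU (c * φ ⬝ᵥ b) ∈ quoK P f ↔ ∃ w, T P w φ ∧ ψ ⬝ᵥ w = c * ψ ⬝ᵥ a := fun c => by
    refine ⟨fun ⟨g, hg, g1, g2⟩ => ?_, fun ⟨w, hw, e⟩ => ⟨_, hw.2, fun v => ?_, fun m hm => ?_⟩⟩
    · have a1 : ∀ v, φ ⬝ᵥ (g : Matrix ι ι F) *ᵥ v = φ ⬝ᵥ v := fun v => by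
        have := congrFun (g1 v) 1
        simpa [cof, mulVec, dotProduct.eq_1 (m := Fin 2), Fin.sum_univ_two, e1] using this
      have a2 : ∀ v, ψ ⬝ᵥ (g : Matrix ι ι F) *ᵥ v = ψ ⬝ᵥ v + c * φ ⬝ᵥ v * ψ ⬝ᵥ a := fun v => by
        have := congrFun (g1 v) 0
        simp only [cof, mulVec, dotProduct.eq_1 (m := Fin 2), Fin.sum_univ_two, coe_slU,
          cons_val_zero, cons_val_one, of_apply, cons_val', cons_val_fin_one] at this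
        field_simp at this
        linear_combination this
      have a3 : φ ᵥ* (g : Matrix ι ι F) = φ := sub_eq_zero.1 (eq_zero_of_dot fun v => by
        rw [sub_dotProduct, ← dotProduct_mulVec, a1, sub_self])
      have a4 : (g : Matrix ι ι F) *ᵥ a = a :=
        sub_eq_zero.1 (hno _ ((ha.conj hg a3).sub_left ha) (by simp [a2, ha.1]))
      have a5 : φ ⬝ᵥ ((φ ⬝ᵥ b)⁻¹ • ((g : Matrix ι ι F) *ᵥ b - b)) = 0 := by simp [a1]
      refine ⟨_, ⟨a5, ?_⟩, by simp [a2]; field_simp⟩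
      convert hg using 1
      refine GL_ext_mulVec fun v => ?_
      have := g2 (v - ((ψ ⬝ᵥ a)⁻¹ * ψ ⬝ᵥ v) • a - ((φ ⬝ᵥ b)⁻¹ * φ ⬝ᵥ v) • b)
        (co0 _ (by simp [ha.1]; field_simp; simp) (by simp [hb.1]; field_simp; simp))
      rw [mulVec_sub, mulVec_sub, mulVec_smul, mulVec_smul, a4] at this
      rw [tv_mulVec a5]
      linear_combination (norm := module) -this
    · rw [tv_mulVec hw.1, cof, cof]
      ext i
      fin_cases i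
      · simp [mulVec, dotProduct.eq_1 (m := Fin 2), Fin.sum_univ_two, e]
        field_simp
      · simp [mulVec, dotProduct.eq_1 (m := Fin 2), Fin.sum_univ_two, hw.1]
    · simp [tv_mulVec hw.1, (co0' m hm).1]
  have B : slV (ψ ⬝ᵥ a) ∈ quoK P f := by
    refine ⟨_, hb.2, fun v => ?_, fun m hm => by simp [tv_mulVec hb.1, (co0' m hm).2]⟩
    rw [tv_mulVec hb.1, cof, cof]
    ext i
    fin_cases i
    · simp [mulVec, dotProduct.eq_1 (m := Fin 2), Fin.sum_univ_two, hb.1]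
    · simp [mulVec, dotProduct.eq_1 (m := Fin 2), Fin.sum_univ_two]
      field_simp
      ring
  obtain ⟨l, w, l0, l1, hl⟩ := hbig
  obtain ⟨K, h1, -, h3, h4⟩ := pair (quoK P f) e1 e2
    (by simpa using (C 1).2 ⟨a, ha, by simp⟩) B ⟨l, l0, l1, (C l).2 ⟨w, hl⟩⟩
  refine ⟨K, fun c => by rw [← h1, C], h3.imp_right And.left, fun μ hμ μ0 => ?_⟩
  obtain ⟨g, hg, g1, g2⟩ := h4 μ hμ μ0
  have a1 : ∀ v, μ * φ ⬝ᵥ (g : Matrix ι ι F) *ᵥ v = φ ⬝ᵥ v := fun v => by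
    have := congrFun (g1 v) 1
    simp only [cof, mulVec, dotProduct.eq_1 (m := Fin 2), Fin.sum_univ_two, sl2_coe,
      cons_val_zero, cons_val_one, of_apply, cons_val', cons_val_fin_one, zero_mul, zero_add,
      add_zero] at this
    field_simp at this
    linear_combination this
  have a2 : ψ ⬝ᵥ (g : Matrix ι ι F) *ᵥ a = μ * ψ ⬝ᵥ a := by
    have := congrFun (g1 a) 0
    simp only [cof, mulVec, dotProduct.eq_1 (m := Fin 2), Fin.sum_univ_two, sl2_coe,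
      cons_val_zero, cons_val_one, of_apply, cons_val', cons_val_fin_one, zero_mul, zero_add,
      add_zero] at this
    field_simp at this
    linear_combination this
  have a3 : (μ • φ) ᵥ* (g : Matrix ι ι F) = φ := sub_eq_zero.1 (eq_zero_of_dot fun v => by
    rw [sub_dotProduct, ← dotProduct_mulVec, smul_dotProduct, smul_eq_mul, a1, sub_self])
  refine ⟨_, a2, fun w c hw e => ?_⟩
  have := g2 (w - c • a) (co0 _ (by simp [ha.1, hw.1]) (by simp [e]))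
  rw [mulVec_sub, mulVec_smul] at this
  exact ((T.smul_iff μ).2 (hw.conj hg a3)).congr
    (by congr 1; linear_combination (norm := module) this) rfl

theorem wCon : WCon.{u} := by
  intro ι _ _ F _ _ P a b y φ ψ h2 hs ha hb e1 e2 hno hy y0 ya
  have inj : ∀ w w', T P w φ → T P w' φ → ψ ⬝ᵥ w = ψ ⬝ᵥ w' → w = w' := fun w w' k k' e =>
    sub_eq_zero.1 (hno _ (k.sub_left k') (by simp [e]))
  have ey : ψ ⬝ᵥ y = ψ ⬝ᵥ y / ψ ⬝ᵥ a * ψ ⬝ᵥ a := (div_mul_cancel₀ _ e2).symm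
  generalize ψ ⬝ᵥ y / ψ ⬝ᵥ a = α at ey
  have α0 : α ≠ 0 := by rintro rfl; exact y0 (hno y hy (by simpa using ey))
  have α1 : α ≠ 1 := by rintro rfl; exact ya (inj _ _ hy ha.t (by simpa using ey))
  obtain ⟨K, k1, k2, k3⟩ := pairK ha.t hb.t e1 e2 hno ⟨α, y, α0, α1, hy, ey⟩
  obtain ⟨ν, hν, rfl⟩ := exists_sq_eq h2 ((k1 α).1 ⟨y, hy, ey⟩)
  have ν0 : ν ≠ 0 := by rintro rfl; simp at α0
  have ν1 : ν ≠ 1 := by rintro rfl; simp at α1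
  have ν2 : ν ^ 2 - ν ≠ 0 := fun e => mul_ne_zero ν0 (sub_ne_zero.2 ν1) (by linear_combination e)
  obtain ⟨m, hm⟩ : ∃ m, y = ν ^ 2 • a + (ν ^ 2 - ν) • m :=
    ⟨(ν ^ 2 - ν)⁻¹ • (y - ν ^ 2 • a), by rw [smul_smul, mul_inv_cancel₀ ν2]; module⟩
  have m1 : φ ⬝ᵥ m = 0 := by simpa [hm, ha.t.1, ν2] using hy.1
  have m2 : ψ ⬝ᵥ m = 0 := by simpa [hm, ν2] using ey
  have key : ∀ s ∈ K, T P (s ^ 2 • a + (s ^ 2 + s) • m) φ := fun μ hμ => by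
    by_cases μ0 : μ = 0
    · simpa [μ0] using T.zero_left P φ
    obtain ⟨u, u1, hu⟩ := k3 μ hμ μ0
    obtain ⟨v, v1, hv⟩ := k3 ν hν ν0
    have a1 := hu a 1 ha.t (by simp)
    have a2 := inj _ _ hy (hv a 1 ha.t (by simp)) (by simp [ey, v1]; ring)
    have a3 := inj _ _ (hu y _ hy ey) (hv _ (μ ^ 2) a1 (by simp [u1]; ring))
      (by simp [ey, u1, v1]; ring)
    refine a1.congr ?_ rfl
    rw [show μ ^ 2 + μ = μ ^ 2 - μ by linear_combination μ * h2]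
    refine smul_right_injective _ ν2 ?_
    linear_combination (norm := module) a3 - (μ ^ 2) • a2 + (μ ^ 2 - μ) • hm
  refine ⟨K, m, ?_, m1, m2, k2.resolve_right fun e => one_ne_zero (α := F) (by
    linear_combination e - h2), key, fun x hx => ?_⟩
  · rintro rfl
    rcases hs a φ ha (ν ^ 2) (by simpa [hm] using hy) with e | e <;> contradiction
  · obtain ⟨s, hs, e⟩ := exists_sq_eq h2 ((k1 (ψ ⬝ᵥ x / ψ ⬝ᵥ a)).1
      ⟨x, hx, (div_mul_cancel₀ _ e2).symm⟩)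
    exact ⟨s, hs, inj _ _ hx (key s hs) (by simp [m2, ← e, e2])⟩

/-- If the centre has a second axis, the conic is defined over the field with four elements. -/
theorem conic4 {F : Type u} [Field F] [Finite F] {P : Subgroup (GL ι F)} {a b y φ ψ μ₀ : ι → F}
    (h2 : (2 : F) = 0) (hs : Small P) (ha : Fl P a φ) (hb : Fl P b ψ) (e1 : φ ⬝ᵥ b ≠ 0)
    (e2 : ψ ⬝ᵥ a ≠ 0) (hno : ∀ m, T P m φ → ψ ⬝ᵥ m = 0 → m = 0) (hy : T P y φ) (y0 : y ≠ 0)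
    (ya : y ≠ a) (hμ : T P a μ₀) (e3 : μ₀ ⬝ᵥ y ≠ 0) :
    (ψ ⬝ᵥ y / ψ ⬝ᵥ a) ^ 2 + ψ ⬝ᵥ y / ψ ⬝ᵥ a + 1 = 0 := by
  obtain ⟨K, m, -, -, m2, -, k1, k2⟩ := wCon h2 hs ha hb e1 e2 hno hy y0 ya
  obtain ⟨s, hK, rfl⟩ := k2 y hy
  have a1 := (hs.pairing ha hy hμ).resolve_left e3
  have a2 := hs.pairing ha (k1 _ (pow_mem hK 2)) hμ
  simp only [dotProduct_add, dotProduct_smul, hμ.1, m2, smul_eq_mul, mul_zero, zero_add,
    add_zero] at a1 a2 ⊢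
  rw [mul_div_cancel_right₀ _ e2]
  have a3 : ((s ^ 2) ^ 2 + s ^ 2) * μ₀ ⬝ᵥ m = s ^ 2 + s := by
    linear_combination (s ^ 2 + s) * a1 - (s ^ 3 * μ₀ ⬝ᵥ m) * h2
  rw [a3] at a2
  rcases a2 with e | e
  · simp [e] at a1
  · linear_combination (s ^ 2 + s + 1) * e + (1 - s ^ 3) * h2

end Cfsg.Lib.Tv45
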