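import Cfsg.Agent.Tv45.Tools

/-!
# The transvection theorem in dimensions four and five: the pieces and their assembly
-/

set_option autoImplicit false

namespace Cfsg.Lib.Tv45

open Matrix Cfsg.Geo Cfsg.Lib.Class Cfsg.Lib.Class.Asch Cfsg.Lib.Mit
open scoped MatrixGroups

universe u

section

variable {ι : Type} [Fintype ι] [DecidableEq ι] {F : Type*} [Field F]
  {P : Subgroup (GL ι F)} {a b c m x φ ψ χ : ι → F}

/-- An opposite pair whose first axis has a centre on the second axis has invariant one. -/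
theorem Small.x_eq_one (hs : Small P) (ha : T P a φ) (hb : T P b ψ) (hm : T P m φ) (m0 : m ≠ 0)
    (e : ψ ⬝ᵥ m = 0) (e1 : φ ⬝ᵥ b ≠ 0) (e2 : ψ ⬝ᵥ a ≠ 0) : φ ⬝ᵥ b * ψ ⬝ᵥ a = 1 := by
  have h := (hm.comm' hb e).comm' ha hm.1
  rw [smul_dotProduct, smul_eq_mul, ← T.smul_iff] at h
  exact (hs _ _ ⟨hm, m0, left_ne e1⟩ _ h).resolve_left (mul_ne_zero e1 e2)

theorem Small.x_eq_one' (hs : Small P) (ha : T P a φ) (hb : T P b ψ) (hm : T P a χ) (m0 : χ ≠ 0)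
    (e : χ ⬝ᵥ b = 0) (e1 : φ ⬝ᵥ b ≠ 0) (e2 : ψ ⬝ᵥ a ≠ 0) : φ ⬝ᵥ b * ψ ⬝ᵥ a = 1 := by
  have := hs.dl.x_eq_one (T_dl.2 ha) (T_dl.2 hb) (T_dl.2 hm) m0 (dotProduct_comm χ b ▸ e)
    (dotProduct_comm ψ a ▸ e2) (dotProduct_comm φ b ▸ e1)
  rwa [dotProduct_comm a, dotProduct_comm b, mul_comm] at this

/-- The centres of an axis pair with the axes of one of its centres into `{0, 1}`. -/
theorem Small.pairing (hs : Small P) (ha : Fl P a φ) (hx : T P x φ) (hχ : T P a χ) :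
    χ ⬝ᵥ x = 0 ∨ χ ⬝ᵥ x = 1 := hs _ _ ha _ (hx.comm hχ ha.t.1)

/-- All triples of transvections are symmetric. -/
def Sym (P : Subgroup (GL ι F)) : Prop := ∀ a φ b ψ c χ, Fl P a φ → Fl P b ψ → Fl P c χ →
  φ ⬝ᵥ b * ψ ⬝ᵥ c * χ ⬝ᵥ a = φ ⬝ᵥ c * χ ⬝ᵥ b * ψ ⬝ᵥ a

/-- A copy of `SL₃(2)` generated by elementary transvections. -/
def Seed (P : Subgroup (GL ι F)) : Prop :=
  ∃ e f : Fin 3 → ι → F, Dual e f ∧ ∀ i j, i ≠ j → T P (e i) (f j)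

/-- The configuration generating the triple cover of `A₆`. -/
def Sig (P : Subgroup (GL ι F)) : Prop :=
  ∃ (e f : Fin 3 → ι → F) (w : F), Dual e f ∧ w ^ 2 + w + 1 = 0 ∧ T P (e 0) (f 1) ∧
    T P (e 1) (f 0) ∧ T P (e 0) (f 2) ∧ T P (e 1) (f 2) ∧ T P (e 2 + w • e 1) (f 0)

/-- A monomial frame (characteristic two). -/
structure Fr (P : Subgroup (GL ι F)) (μ : F) {κ : Type} [DecidableEq κ] (e f : κ → ι → F) :
    Prop where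
  dual : Dual e f
  ne0 : μ ≠ 0
  ne1 : μ ≠ 1
  one : ∀ i j, i ≠ j → T P (e i + e j) (f i + f j)
  mu : ∀ i j, i ≠ j → T P (e i + μ • e j) (f i + μ⁻¹ • f j)

/-- The position of an arbitrary transvection relative to a monomial frame. -/
def Pat (P : Subgroup (GL ι F)) (μ : F) : Prop :=
  ∀ {κ : Type} [Fintype κ] [DecidableEq κ] (e f : κ → ι → F), Fr P μ e f → 3 ≤ Fintype.card κ →
    ∀ c χ, Fl P c χ → ∀ i j, i ≠ j →
      f i ⬝ᵥ c * χ ⬝ᵥ e i = f j ⬝ᵥ c * χ ⬝ᵥ e j ∨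
      (f i ⬝ᵥ c * χ ⬝ᵥ e i = 1 ∧ f j ⬝ᵥ c = 0 ∧ χ ⬝ᵥ e j = 0) ∨
      (f j ⬝ᵥ c * χ ⬝ᵥ e j = 1 ∧ f i ⬝ᵥ c = 0 ∧ χ ⬝ᵥ e i = 0)

/-- All monomial frames use cube roots of unity. -/
def Cub (P : Subgroup (GL ι F)) : Prop :=
  ∀ (μ : F) (e f : Fin 3 → ι → F), Fr P μ e f → μ ^ 3 = 1

end

/-- Root groups of order at least three, no exceptional pair. -/
def WBig : Prop := ∀ {ι : Type} [Fintype ι] [DecidableEq ι] {F : Type u} [Field F] [Finite F]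
  {P : Subgroup (GL ι F)} {z φ₀ : ι → F} (K : Subfield F), Hy P → NoSub P → Fl P z φ₀ →
  (∀ c, T P (c • z) φ₀ ↔ c ∈ K) → (∃ l ∈ K, l ≠ 0 ∧ l ≠ 1) →
  (∀ a φ b ψ, Fl P a φ → Fl P b ψ → (∀ c, T P (c • a) φ ↔ c ∈ K) → φ ⬝ᵥ b ≠ 0 → ψ ⬝ᵥ a ≠ 0 →
    φ ⬝ᵥ b * ψ ⬝ᵥ a ∈ K) → P = specialLinear ι F ∨ IsSU P ∨ FixA P

/-- No pair generating `SL₂(5)` in characteristic three. -/
def WExc : Prop := ∀ {ι : Type} [Fintype ι] [DecidableEq ι] {F : Type u} [Field F] [Finite F]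
  {P : Subgroup (GL ι F)}, (3 : F) = 0 → Hy P → 3 ≤ Fintype.card ι →
  (∀ a φ, Fl P a φ → ∀ l : F, T P (l • a) φ → l = 0 ∨ l = 1 ∨ l = -1) →
  ∀ a φ b ψ, Fl P a φ → Fl P b ψ → (φ ⬝ᵥ b * ψ ⬝ᵥ a) ^ 2 ≠ -1

/-- The centres of an axis form a conic. -/
def WCon : Prop := ∀ {ι : Type} [Fintype ι] [DecidableEq ι] {F : Type u} [Field F] [Finite F]
  {P : Subgroup (GL ι F)} {a b y φ ψ : ι → F}, (2 : F) = 0 → Small P → Fl P a φ → Fl P b ψ →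
  φ ⬝ᵥ b ≠ 0 → ψ ⬝ᵥ a ≠ 0 → (∀ m, T P m φ → ψ ⬝ᵥ m = 0 → m = 0) → T P y φ → y ≠ 0 → y ≠ a →
  ∃ (K : Subfield F) (m : ι → F), m ≠ 0 ∧ φ ⬝ᵥ m = 0 ∧ ψ ⬝ᵥ m = 0 ∧ φ ⬝ᵥ b * ψ ⬝ᵥ a ∈ K ∧
    (∀ s ∈ K, T P (s ^ 2 • a + (s ^ 2 + s) • m) φ) ∧
    ∀ x, T P x φ → ∃ s ∈ K, x = s ^ 2 • a + (s ^ 2 + s) • m

/-- Uniqueness of centres and axes, and the symmetric case. -/
def WUn : Prop := ∀ {ι : Type} [Fintype ι] [DecidableEq ι] {F : Type u} [Field F] [Finite F]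
  {P : Subgroup (GL ι F)}, (2 : F) = 0 → Hy P → Small P → NS P → Un P

def WSym : Prop := ∀ {ι : Type} [Fintype ι] [DecidableEq ι] {F : Type u} [Field F] [Finite F]
  {P : Subgroup (GL ι F)} {z φ₀ : ι → F}, (2 : F) = 0 → Hy P → NS P → Fl P z φ₀ → Sym P → FixA P

def WSeed : Prop := ∀ {ι : Type} [Fintype ι] [DecidableEq ι] {F : Type u} [Field F] [Finite F]
  {P : Subgroup (GL ι F)}, (2 : F) = 0 → Hy P → Small P → ¬ NS P → Seed P ∨ Sig P ∨ Sig (dl P)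

def WSig : Prop := ∀ {ι : Type} [Fintype ι] [DecidableEq ι] {F : Type u} [Field F] [Finite F]
  {P : Subgroup (GL ι F)}, (2 : F) = 0 → Hy P → Small P → Sig P → Fintype.card ι ≤ 3

def WSL : Prop := ∀ {ι : Type} [Fintype ι] [DecidableEq ι] {F : Type u} [Field F] [Finite F]
  {P : Subgroup (GL ι F)}, (2 : F) = 0 → Hy P → NoSub P → Small P → Seed P →
  P = specialLinear ι F

/-- In dimension three the group is monomial. -/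
def WM3 : Prop := ∀ {F : Type u} [Field F] [Finite F] {X : Subgroup (GL (Fin 3) F)},
  (2 : F) = 0 → Hy X → Small X → NS X → Un X →
  ∃ e f : Fin 3 → Fin 3 → F, Dual e f ∧ (∀ i j, i ≠ j → T X (e i + e j) (f i + f j)) ∧
    ∀ a φ, Fl X a φ → ∃ (i j : Fin 3) (s l : F), i ≠ j ∧ s ≠ 0 ∧ l ≠ 0 ∧
      a = s • (e i + l • e j) ∧ φ = s⁻¹ • (f i + l⁻¹ • f j)

/-- Existence of a monomial frame and the pattern lemma. -/
def WPat : Prop := ∀ {ι : Type} [Fintype ι] [DecidableEq ι] {F : Type u} [Field F] [Finite F]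
  {P : Subgroup (GL ι F)}, (2 : F) = 0 → Small P → NS P → Un P →
  (¬ Sym P → ∃ (μ : F) (e f : Fin 3 → ι → F), Fr P μ e f) ∧
    ∀ μ : F, (μ ^ 3 ≠ 1 ∨ Cub P) → Pat P μ

def WFrA : Prop := ∀ {ι : Type} [Fintype ι] [DecidableEq ι] {F : Type u} [Field F] [Finite F]
  {P : Subgroup (GL ι F)} {μ : F} {e f : Fin 3 → ι → F}, (2 : F) = 0 → QS P → Hy P → Small P →
  Un P → Pat P μ → Fr P μ e f → μ ^ 3 = 1

def WFrB : Prop := ∀ {ι : Type} [Fintype ι] [DecidableEq ι] {F : Type u} [Field F] [Finite F]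
  {P : Subgroup (GL ι F)} {μ : F} {e f : Fin 3 → ι → F}, (2 : F) = 0 → QS P → Hy P → NoSub P →
  Small P → NS P → Un P → Cub P → Pat P μ → Fr P μ e f →
  (Fintype.card ι = 4 ∨ Fintype.card ι = 5) → IsSU P

theorem tv45_of (hBig : WBig.{u}) (hExc : WExc.{u}) (hUn : WUn.{u}) (hSym : WSym.{u})
    (hSeed : WSeed.{u}) (hSig : WSig.{u}) (hSL : WSL.{u}) (hPat : WPat.{u}) (hA : WFrA.{u})
    (hB : WFrB.{u}) : Agent.Gate.Tv45.{u} := ⟨fun {ι _ _ F _ _} P hn hQ hN ⟨t, ht, ht'⟩ => by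
  have H := Hy.of_QS hQ ht ht'
  have big : ∀ z φ₀, Fl P z φ₀ → Big P z φ₀ →
      ((∃ l : F, l ≠ 0 ∧ l ≠ 1 ∧ l ≠ -1 ∧ T P (l • z) φ₀) ∨
        ∀ a φ b ψ, Fl P a φ → Fl P b ψ → (φ ⬝ᵥ b * ψ ⬝ᵥ a) ^ 2 ≠ -1) →
      P = specialLinear ι F ∨ IsSU P ∨ FixA P := fun z φ₀ hz hb h => by
    obtain ⟨b, ψ, hbψ, e1, e2⟩ := H.exists_opp hz
    obtain ⟨K, k1, -⟩ := pairT hz.t hbψ.t e1 e2 hb
    obtain ⟨l, l0, l1, hl⟩ := hb
    refine hBig K H hN hz k1 ⟨l, (k1 l).1 hl, l0, l1⟩ fun a φ b ψ ha hb r e1 e2 => ?_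
    obtain ⟨K', k2, -, k3, -⟩ := pairT ha.t hb.t e1 e2 ⟨l, l0, l1, (r l).2 ((k1 l).1 hl)⟩
    obtain rfl : K' = K := Subfield.ext fun c => by rw [← k2, r]
    refine k3.resolve_right fun k => ?_
    rcases h with ⟨s, s0, s1, s2, hs⟩ | h
    · rcases k.2.2 s ((k1 s).1 hs) with e | e | e <;> contradiction
    · exact h _ _ _ _ ha hb k.2.1
  by_cases h1 : ∃ (z φ₀ : ι → F) (l : F), Fl P z φ₀ ∧ l ≠ 0 ∧ l ≠ 1 ∧ l ≠ -1 ∧ T P (l • z) φ₀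
  · obtain ⟨z, φ₀, l, hz, l0, l1, l2, hl⟩ := h1
    exact big z φ₀ hz ⟨l, l0, l1, hl⟩ (Or.inl ⟨l, l0, l1, l2, hl⟩)
  have h1' : ∀ a φ, Fl P a φ → ∀ l : F, T P (l • a) φ → l = 0 ∨ l = 1 ∨ l = -1 :=
    fun a φ ha l hl => by
      by_contra! hn
      exact h1 ⟨a, φ, l, ha, hn.1, hn.2.1, hn.2.2, hl⟩
  obtain ⟨t1, z, φ₀, h0, rfl⟩ := ht'
  rw [Ne, tv_eq_one_iff h0, not_or] at t1
  have hz : Fl P z φ₀ := ⟨⟨h0, ht⟩, t1.1, t1.2⟩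
  by_cases h2 : (2 : F) = 0
  swap
  · refine big z φ₀ hz (big_of_two h2 hz.t) (Or.inr (hExc ?_ H (by omega) h1'))
    rcases h1' z φ₀ hz 2 (two_smul F z ▸ hz.t.add_left hz.t) with e | e | e
    · exact absurd e h2
    · exact absurd (by linear_combination e : (1 : F) = 0) one_ne_zero
    · linear_combination e
  have hs : Small P := fun a φ ha l hl => (h1' a φ ha l hl).imp_right fun e =>
    e.elim id fun e => by linear_combination e - h2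
  by_cases hS : NS P
  swap
  · rcases hSeed h2 H hs hS with e | e | e
    · exact Or.inl (hSL h2 H hN hs e)
    · have := hSig h2 H hs e
      omega
    · have := hSig h2 H.dl hs.dl e
      omega
  have hU := hUn h2 H hs hS
  by_cases hy : Sym P
  · exact Or.inr (Or.inr (hSym h2 H hS hz hy))
  obtain ⟨k1, k2⟩ := hPat h2 hs hS hU
  have hC : Cub P := fun μ e f hf => by_contra fun h =>
    h (hA h2 hQ H hs hU (k2 μ (Or.inl h)) hf)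
  obtain ⟨μ, e, f, hf⟩ := k1 hy
  exact Or.inr (Or.inl (hB h2 hQ H hN hs hS hU hC (k2 μ (Or.inr hC)) hf hn))⟩

end Cfsg.Lib.Tv45
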