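import Cfsg.Agent.Tv45.Defs
import Cfsg.Agent.Mit.TvSU

/-!
# No pair of transvections generating `SL₂(5)` in characteristic three
-/

set_option autoImplicit false

namespace Cfsg.Lib.Tv45

open Matrix Cfsg.Geo Cfsg.Lib.Class Cfsg.Lib.Class.Asch
open scoped MatrixGroups

universe u

namespace Exc

variable {ι : Type} [Fintype ι] [DecidableEq ι] {F : Type*} [Field F]
  {P : Subgroup (GL ι F)} {a b c m x φ ψ χ θ ν u u' η η' : ι → F}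

/-- All root subgroups have order at most three. -/
def Rt (P : Subgroup (GL ι F)) : Prop :=
  ∀ a φ, Fl P a φ → ∀ l : F, T P (l • a) φ → l = 0 ∨ l = 1 ∨ l = -1

theorem Rt.dl (h : Rt P) : Rt (dl P) := fun a φ ha l hl =>
  h φ a (Fl_dl.1 ha) l ((T.smul_iff l).2 (T_dl.1 hl))

theorem Rt.no (h : Rt P) (h2 : (2 : F) ≠ 0) {k : F} (hk : k ^ 2 = -1) (hx : Fl P x η)
    (h' : T P (k • x) η) : False := by
  rcases h _ _ hx k h' with rfl | rfl | rfl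
  · simp at hk
  · exact h2 (by linear_combination hk)
  · exact h2 (by linear_combination hk)

/-- An exceptional pair. -/
structure Ex (P : Subgroup (GL ι F)) (a φ b ψ : ι → F) : Prop where
  ha : Fl P a φ
  hb : Fl P b ψ
  hk : (φ ⬝ᵥ b * ψ ⬝ᵥ a) ^ 2 = -1

namespace Ex

theorem symm (h : Ex P a φ b ψ) : Ex P b ψ a φ := ⟨h.hb, h.ha, by rw [mul_comm]; exact h.hk⟩

theorem dl (h : Ex P a φ b ψ) : Ex (dl P) φ a ψ b :=
  ⟨Fl_dl.2 h.ha, Fl_dl.2 h.hb, by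
    rw [dotProduct_comm a, dotProduct_comm b, mul_comm]; exact h.hk⟩

theorem e1 (h : Ex P a φ b ψ) : φ ⬝ᵥ b ≠ 0 := fun e => by simpa [e] using h.hk

theorem e2 (h : Ex P a φ b ψ) : ψ ⬝ᵥ a ≠ 0 := h.symm.e1

theorem conj (h : Ex P a φ b ψ) (hc : T P c χ) : Ex P (a + (χ ⬝ᵥ a) • c) (φ - (φ ⬝ᵥ c) • χ)
    (b + (χ ⬝ᵥ b) • c) (ψ - (ψ ⬝ᵥ c) • χ) :=
  ⟨h.ha.conj_tv hc, h.hb.conj_tv hc, by
    simp only [dotProduct_add, dotProduct_smul, sub_dotProduct, smul_dotProduct, smul_eq_mul, hc.1]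
    rw [← h.hk]; ring⟩

theorem l1a (h : Ex P a φ b ψ) (hR : Rt P) (h2 : (2 : F) ≠ 0) (m0 : m ≠ 0) (e1 : φ ⬝ᵥ m = 0)
    (e2 : ψ ⬝ᵥ m = 0) (hm : T P m θ) : θ ⬝ᵥ a = 0 := by_contra fun e => by
  have k1 := hm.comm' h.ha.t e1
  have k2 := (k1.comm' h.hb.t e2).comm' h.ha.t e1
  refine hR.no h2 h.hk ⟨k1, m0, smul_ne_zero e h.ha.r⟩ ((T.smul_iff _).2 (k2.congr rfl ?_))
  simp only [smul_dotProduct, smul_eq_mul, smul_smul]
  congr 1; ring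

theorem l1 (h : Ex P a φ b ψ) (hR : Rt P) (h2 : (2 : F) ≠ 0) (m0 : m ≠ 0) (e1 : φ ⬝ᵥ m = 0)
    (e2 : ψ ⬝ᵥ m = 0) (hm : T P m θ) : θ ⬝ᵥ a = 0 ∧ θ ⬝ᵥ b = 0 :=
  ⟨h.l1a hR h2 m0 e1 e2 hm, h.symm.l1a hR h2 m0 e2 e1 hm⟩

theorem l1' (h : Ex P a φ b ψ) (hR : Rt P) (h2 : (2 : F) ≠ 0) (m0 : ν ≠ 0) (e1 : ν ⬝ᵥ a = 0)
    (e2 : ν ⬝ᵥ b = 0) (hm : T P x ν) : φ ⬝ᵥ x = 0 ∧ ψ ⬝ᵥ x = 0 := by
  have := h.dl.l1 hR.dl h2 m0 (dotProduct_comm ν a ▸ e1) (dotProduct_comm ν b ▸ e2) (T_dl.2 hm)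
  rwa [dotProduct_comm x, dotProduct_comm x] at this

/-- Conjugation by the involution inverting the plane of the pair. -/
theorem jc [Finite F] (h : Ex P a φ b ψ) (h2 : (2 : F) ≠ 0) {s t : F} (e1 : φ ⬝ᵥ m = 0)
    (e2 : ψ ⬝ᵥ m = 0) (e3 : ν ⬝ᵥ a = 0) (e4 : ν ⬝ᵥ b = 0) (hm : T P (s • a + m) (t • φ + ν)) :
    T P (s • a - m) (t • φ - ν) := by
  obtain ⟨K, -, -, -, k⟩ := pairT h.ha.t h.hb.t h.e1 h.e2 (big_of_two h2 h.ha.t)
  obtain ⟨g, hg, k⟩ := k (-1) (neg_mem (one_mem _)) (by simp)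
  have := (hm.conj hg (ψ := -(t • φ - ν)) (sub_eq_zero.1 (eq_zero_of_dot fun v => by
    have := h.e1
    rw [sub_dotProduct, ← dotProduct_mulVec, k]
    simp only [dotProduct_add, dotProduct_smul, sub_dotProduct, smul_dotProduct, smul_eq_mul,
      neg_dotProduct, add_dotProduct, e3, e4, h.ha.t.1]
    field_simp
    ring))).neg_left.neg_right
  refine this.congr ?_ (neg_neg _)
  have := h.e2
  rw [k]
  simp only [dotProduct_add, dotProduct_smul, smul_eq_mul, e1, e2, h.ha.t.1, add_zero,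
    mul_div_cancel_right₀ _ this, mul_zero, zero_div, zero_smul]
  module

end Ex

/-- The map `v ↦ v + ν(v) u + η(v) m` lies in `P`. -/
def EE (P : Subgroup (GL ι F)) (m ν u η : ι → F) : Prop :=
  ∃ g ∈ P, ∀ v, (g : Matrix ι ι F) *ᵥ v = v + (ν ⬝ᵥ v) • u + (η ⬝ᵥ v) • m

theorem EE.conj (h : EE P m ν u η) (hb : T P b ψ) (e1 : ψ ⬝ᵥ m = 0) (e2 : ν ⬝ᵥ b = 0) :
    EE P m ν (u + (ψ ⬝ᵥ u) • b) (η - (η ⬝ᵥ b) • ψ) := by
  obtain ⟨g, hg, k⟩ := h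
  refine ⟨_, mul_mem (mul_mem hb.2 hg) hb.neg_left.2, fun v => ?_⟩
  rw [GL_mul_mulVec, GL_mul_mulVec, tv_mulVec hb.neg_left.1, k, tv_mulVec hb.1]
  simp only [dotProduct_add, dotProduct_smul, sub_dotProduct, smul_dotProduct, smul_eq_mul,
    dotProduct_neg, e1, e2, hb.1]
  module

theorem EE.comm (h : EE P m ν u η) (h' : EE P m ν u' η') (e0 : ν ⬝ᵥ m = 0) (e1 : ν ⬝ᵥ u = 0)
    (e2 : ν ⬝ᵥ u' = 0) (e3 : η ⬝ᵥ m = 0) (e4 : η' ⬝ᵥ m = 0) :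
    T P ((η ⬝ᵥ u' - η' ⬝ᵥ u) • m) ν := by
  obtain ⟨g, hg, k⟩ := h
  obtain ⟨g', hg', k'⟩ := h'
  have h0 : ν ⬝ᵥ ((η ⬝ᵥ u' - η' ⬝ᵥ u) • m) = 0 := by simp [e0]
  have : tv ((η ⬝ᵥ u' - η' ⬝ᵥ u) • m) ν * (g' * g) = g * g' := GL_ext_mulVec fun v => by
    rw [GL_mul_mulVec, GL_mul_mulVec, GL_mul_mulVec, tv_mulVec h0, k, k', k, k']
    simp only [dotProduct_add, dotProduct_smul, smul_eq_mul, e0, e1, e2, e3, e4]
    module
  exact ⟨h0, eq_mul_inv_of_mul_eq this ▸ mul_mem (mul_mem hg hg') (inv_mem (mul_mem hg' hg))⟩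

variable [Finite F]

theorem Ex.l2 (h : Ex P a φ b ψ) (hR : Rt P) (h2 : (2 : F) ≠ 0) (hc : Fl P c χ)
    (e : φ ⬝ᵥ c * χ ⬝ᵥ a = 0) : (∃ s : F, c = s • a) ∨ (χ ⬝ᵥ a = 0 ∧ χ ⬝ᵥ b = 0) := by
  have e1 := h.e1
  have e2 := h.e2
  have dv : ∀ v, φ ⬝ᵥ v = 0 → ∃ (s : F) (m : ι → F), φ ⬝ᵥ m = 0 ∧ ψ ⬝ᵥ m = 0 ∧ v = s • a + m :=
    fun v hv => ⟨ψ ⬝ᵥ v / ψ ⬝ᵥ a, v - (ψ ⬝ᵥ v / ψ ⬝ᵥ a) • a, by simp [hv, h.ha.t.1], by simp [e2],
      by abel⟩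
  have df : ∀ f, f ⬝ᵥ a = 0 → ∃ (t : F) (ν : ι → F), ν ⬝ᵥ a = 0 ∧ ν ⬝ᵥ b = 0 ∧ f = t • φ + ν :=
    fun f hf => ⟨f ⬝ᵥ b / φ ⬝ᵥ b, f - (f ⬝ᵥ b / φ ⬝ᵥ b) • φ, by simp [hf, h.ha.t.1], by simp [e1],
      by abel⟩
  by_cases e3 : χ ⬝ᵥ a = 0
  swap
  · have e4 := (mul_eq_zero.1 e).resolve_right e3
    obtain ⟨s, m, m1, m2, rfl⟩ := dv c e4
    refine Or.inl ⟨s, add_eq_left.2 (by_contra fun m0 => ?_)⟩
    have k1 := h.ha.t.comm hc.t e4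
    set r := χ ⬝ᵥ a
    have k2 := h.jc h2 (s := r * s) (t := 1) (m := r • m) (ν := 0) (by simp [m1]) (by simp [m2])
      (by simp) (by simp) (k1.congr (by module) (by simp))
    have k3 : T P ((2 * r) • m) φ :=
      (k1.sub_left (k2.congr rfl (by simp))).congr (by module) rfl
    exact e1 (h.l1 hR h2 (smul_ne_zero (mul_ne_zero h2 e3) m0) (by simp [m1]) (by simp [m2]) k3).2
  obtain ⟨t, ν, n1, n2, rfl⟩ := df χ e3
  by_cases t0 : t = 0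
  · exact Or.inr ⟨e3, by simp [t0, n2]⟩
  by_cases e4 : φ ⬝ᵥ c = 0
  swap
  · have k1 := h.ha.t.comm' hc.t e3
    have k0 := hc.t.1
    set r := φ ⬝ᵥ c
    have k2 := h.jc h2 (s := 1) (t := r * t) (m := 0) (ν := r • ν) (by simp) (by simp)
      (by simp [n1]) (by simp [n2]) (k1.congr (by simp) (by module))
    have k3 : T P a ((2 * r) • ν) :=
      (k1.sub_right (k2.congr (by simp) rfl)).congr rfl (by module)
    by_cases n0 : ν = 0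
    · simp only [n0, add_zero, smul_dotProduct, smul_eq_mul] at k0
      exact absurd k0 (mul_ne_zero t0 e4)
    exact absurd (h.l1' hR h2 (smul_ne_zero (mul_ne_zero h2 e4) n0) (by simp [n1])
      (by simp [n2]) k3).2 e2
  obtain ⟨s, m, m1, m2, rfl⟩ := dv c e4
  refine Or.inl ⟨s, add_eq_left.2 (by_contra fun m0 => ?_)⟩
  have k0 : ν ⬝ᵥ m = 0 := by simpa [h.ha.t.1, m1, n1] using hc.t.1
  by_cases s0 : s = 0
  · have := (h.l1 hR h2 m0 m1 m2 (hc.t.congr (by simp [s0]) rfl)).2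
    simp [t0, n2, e1] at this
  have k1 := (h.jc h2 m1 m2 n1 n2 hc.t).neg_left
  have k2 : EE P m ν ((2 * s) • a) ((2 * t) • φ) := ⟨_, mul_mem hc.t.2 k1.2, fun v => by
    rw [GL_mul_mulVec, tv_mulVec k1.1, tv_mulVec hc.t.1]
    simp only [dotProduct_add, dotProduct_smul, sub_dotProduct, smul_dotProduct, smul_eq_mul,
      dotProduct_neg, dotProduct_sub, add_dotProduct, m1, n1, k0, h.ha.t.1]
    module⟩
  by_cases n0 : ν = 0
  · obtain ⟨g, hg, k⟩ := k2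
    have h0 : ((2 * t) • φ) ⬝ᵥ m = 0 := by simp [m1]
    have : g = tv m ((2 * t) • φ) := GL_ext_mulVec fun v => by rw [k, tv_mulVec h0]; simp [n0]
    have := (h.l1 hR h2 m0 m1 m2 ⟨h0, this ▸ hg⟩).2
    simp [t0, e1, h2] at this
  have k3 := k2.conj h.hb.t m2 n2
  have k4 := k3.conj h.ha.t m1 n1
  have k5 := k2.comm k3 k0 (by simp [n1]) (by simp [n1, n2]) (by simp [m1]) (by simp [m1, m2])
  have k6 := k3.comm k4 k0 (by simp [n1, n2]) (by simp [n1, n2]) (by simp [m1, m2])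
    (by simp [m1, m2])
  simp only [dotProduct_add, dotProduct_smul, sub_dotProduct, smul_dotProduct, smul_eq_mul,
    h.ha.t.1, h.hb.t.1] at k5 k6
  have k7 : T P ((2 * (2 * s * (2 * t))) • m) ν := k6.congr (by
    congr 1; linear_combination (-2 * (2 * s * (2 * t))) * h.hk) rfl
  exact (hR.no h2 h.hk ⟨k7, smul_ne_zero (by simp [h2, s0, t0]) m0, n0⟩ (k5.congr (by
    rw [smul_smul]; congr 1; ring) rfl))

/-- An exceptional pair in the plane `N`. -/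
structure En (P : Subgroup (GL ι F)) (N : Submodule F (ι → F)) (a φ b ψ : ι → F) : Prop where
  ex : Ex P a φ b ψ
  ma : a ∈ N
  mb : b ∈ N
  sp : ∀ f : ι → F, f ⬝ᵥ a = 0 → f ⬝ᵥ b = 0 → ∀ v ∈ N, f ⬝ᵥ v = 0

variable {N : Submodule F (ι → F)}

omit [Finite F] in
theorem En.symm (h : En P N a φ b ψ) : En P N b ψ a φ :=
  ⟨h.ex.symm, h.mb, h.ma, fun f e1 e2 => h.sp f e2 e1⟩

omit [Finite F] in
theorem En.conj (h : En P N a φ b ψ) (hc : T P c χ) (m : c ∈ N) :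
    En P N (a + (χ ⬝ᵥ a) • c) (φ - (φ ⬝ᵥ c) • χ) (b + (χ ⬝ᵥ b) • c) (ψ - (ψ ⬝ᵥ c) • χ) := by
  refine ⟨h.ex.conj hc, add_mem h.ma (N.smul_mem _ m), add_mem h.mb (N.smul_mem _ m),
    fun f e1 e2 v hv => ?_⟩
  have k := h.sp (f + (f ⬝ᵥ c) • χ) (by simpa [mul_comm] using e1) (by simpa [mul_comm] using e2)
  have := k _ (sub_mem hv (N.smul_mem (χ ⬝ᵥ v) m))
  simp only [add_dotProduct, dotProduct_sub, dotProduct_smul, smul_dotProduct, smul_eq_mul,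
    hc.1] at this
  linear_combination this

theorem En.l3 (h : En P N a φ b ψ) (hR : Rt P) (h3 : (3 : F) = 0) {d : ι → F} (hd : Fl P d θ) :
    d ∈ N ∨ ∀ v ∈ N, θ ⬝ᵥ v = 0 := by
  have h2 : (2 : F) ≠ 0 := fun e => one_ne_zero (α := F) (by linear_combination h3 - e)
  by_contra hn
  have four : ∀ {v η w ω}, En P N v η w ω → (η ⬝ᵥ d * θ ⬝ᵥ v) ^ 4 = 1 := fun {v η w ω} hv => by
    have n0 : η ⬝ᵥ d * θ ⬝ᵥ v ≠ 0 := fun e => hn ((hv.ex.l2 hR h2 hd e).imp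
      (fun ⟨s, e⟩ => e ▸ N.smul_mem s hv.ma) fun e => hv.sp θ e.1 e.2)
    obtain ⟨K, k1, -, k, -⟩ := pairT hv.ex.ha.t hd.t (left_ne_zero_of_mul n0)
      (right_ne_zero_of_mul n0) (big_of_two h2 hv.ex.ha.t)
    rcases k with k | k
    · rcases hR _ _ hv.ex.ha _ ((k1 _).2 k) with k | k | k
      · exact absurd k n0
      · rw [k]; ring
      · rw [k]; ring
    · linear_combination ((η ⬝ᵥ d * θ ⬝ᵥ v) ^ 2 - 1) * k.2.1
  have hk := h.ex.hk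
  have ha := h.ex.ha.t
  have hb := h.ex.hb.t
  have na := neg_mem h.ma
  have nb := neg_mem h.mb
  set k := φ ⬝ᵥ b * ψ ⬝ᵥ a with hk'
  have k4 : k ^ 4 = 1 := by linear_combination (k ^ 2 - 1) * hk
  have k5 : ∀ {u v : F}, v ^ 4 = 1 → u = v → u ^ 4 = 1 := fun h e => e ▸ h
  have k6 : ∀ {u v : F}, v ^ 4 = 1 → u = -k * v → u ^ 4 = 1 := fun h e => by
    rw [e, mul_pow, h, Even.neg_pow (by decide), k4, one_mul]
  have a0 := four h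
  have a1 := four h.symm
  have a2 := four (h.conj hb h.mb)
  have a3 := four (h.conj hb.neg_left nb)
  have a4 := four (h.symm.conj ha h.ma)
  have a5 := four (h.symm.conj ha.neg_left na)
  have a6 := four ((h.conj hb h.mb).conj ha h.ma)
  have a7 := four ((h.conj hb h.mb).conj ha.neg_left na)
  have a8 := four ((h.conj hb.neg_left nb).conj ha h.ma)
  have a9 := four ((h.conj hb.neg_left nb).conj ha.neg_left na)
  simp only [dotProduct_add, dotProduct_smul, sub_dotProduct, smul_dotProduct, smul_eq_mul,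
    dotProduct_neg, ha.1] at a2 a3 a4 a5 a6 a7 a8 a9
  refine Mit.ten_points (A := φ ⬝ᵥ d * θ ⬝ᵥ a)
    (B := φ ⬝ᵥ d * (ψ ⬝ᵥ a * θ ⬝ᵥ b) - φ ⬝ᵥ b * ψ ⬝ᵥ d * θ ⬝ᵥ a)
    (C := -(φ ⬝ᵥ b * ψ ⬝ᵥ d * (ψ ⬝ᵥ a * θ ⬝ᵥ b))) h3 hk ?_
  simp only [List.forall_mem_cons]
  refine ⟨?_, ?_, ?_, ?_, ?_, ?_, ?_, ?_, ?_, ?_, by simp⟩
  · exact k5 a0 (by ring)
  · exact k6 a1 (by ring)
  · exact k5 a2 (by ring)
  · exact k5 a3 (by ring)
  · exact k6 a4 (by rw [hk']; ring)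
  · exact k6 a5 (by rw [hk']; ring)
  · exact k5 a6 (by rw [hk']; ring)
  · exact k5 a7 (by rw [hk']; ring)
  · exact k5 a8 (by rw [hk']; ring)
  · exact k5 a9 (by rw [hk']; ring)

end Exc

open Exc

theorem wExc : WExc.{u} := by
  intro ι _ _ F _ _ P h3 H hc hR a φ b ψ ha hb hk
  have h : En P (Submodule.span F {a, b}) a φ b ψ := ⟨⟨ha, hb, hk⟩,
    Submodule.subset_span (by simp), Submodule.subset_span (by simp), fun f e1 e2 v hv => by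
      obtain ⟨s, t, rfl⟩ := Submodule.mem_span_pair.1 hv
      simp [e1, e2]⟩
  rcases H.inv (Submodule.span F {a, b}) (fun d θ hd v hv => (h.l3 hR h3 hd).elim
    (Submodule.smul_mem _ _) fun e => by simp [e v hv]) with e | e
  · exact ha.l (Submodule.span_eq_bot.1 e a (by simp))
  · classical
    have h1 := finrank_span_finset_le_card (R := F) ({a, b} : Finset (ι → F))
    rw [Set.finrank, Finset.coe_pair, e, finrank_top, Module.finrank_fintype_fun_eq_card] at h1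
    have := Finset.card_le_two (a := a) (b := b)
    omega

end Cfsg.Lib.Tv45
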