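import Cfsg.Agent.Tv45.FrBase

/-!
# Monomial frames: extension, the monomial case, cube roots of unity
-/

set_option autoImplicit false

namespace Cfsg.Lib.Tv45

open Matrix Cfsg.Geo Cfsg.Lib.Class Cfsg.Lib.Class.Asch Cfsg.Lib.Mit
open scoped MatrixGroups

universe u

namespace Fm

variable {ι : Type} [Fintype ι] [DecidableEq ι] {F : Type*} [Field F] {P : Subgroup (GL ι F)}
  {κ : Type} [Fintype κ] [DecidableEq κ] {e f : κ → ι → F} {μ l : F} {u u' η η' d : κ → F}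
  {m m' ν ν' : ι → F} {i j k : κ}

omit [DecidableEq ι] [Fintype κ] in
theorem dual_opt (hd : Dual e f) (h1 : co f m = 0) (h2 : co e ν = 0) (h3 : ν ⬝ᵥ m = 1) :
    Dual (fun o : Option κ => o.elim m e) (fun o => o.elim ν f) := by
  rintro (_ | i) (_ | j)
  · simpa using h3
  · simpa [co, dotProduct_comm] using congrFun h2 j
  · simpa [co] using congrFun h1 i
  · simpa using hd i j

omit [DecidableEq κ] in
theorem dot2 (hij : i ≠ j) (h : ∀ k, k ≠ i → k ≠ j → η k * u k = 0) :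
    η ⬝ᵥ u = η i * u i + η j * u j := Fintype.sum_eq_add i j hij fun k hk => h k hk.1 hk.2

/-- No transvection has exactly one non-zero coordinate. -/
def N1 (P : Subgroup (GL ι F)) (e f : κ → ι → F) : Prop :=
  ∀ u m η ν, TT P e f u m η ν → ∀ i, u i ≠ 0 → ∃ j, j ≠ i ∧ u j ≠ 0

/-- No transvection has three non-zero coordinates. -/
def N3 (P : Subgroup (GL ι F)) (e f : κ → ι → F) : Prop :=
  ∀ u m η ν, TT P e f u m η ν → ∀ i j, i ≠ j → u i ≠ 0 → u j ≠ 0 → ∀ k, k ≠ i → k ≠ j → u k = 0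

namespace Cf

variable (C : Cf P μ e f)
include C

theorem star {v w : κ → ι → F} (hd : Dual v w) (h1 : co w m = 0) (h2 : co v ν = 0)
    (h3 : ν ⬝ᵥ m = 1) (hT : ∀ j l, Lam P e f l → T P (l • v j + m) (l⁻¹ • w j + ν)) :
    ∃ E E' : Option κ → ι → F, Cf P μ E E' := by
  have := C.char
  have key : ∀ l, Lam P e f l → ∀ i j : Option κ, i ≠ j →
      T P (i.elim m v + l • j.elim m v) (i.elim ν w + l⁻¹ • j.elim ν w) := by
    rintro l hl (_ | i) (_ | j) hij
    · exact absurd rfl hij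
    · exact (hT j l hl).congr (add_comm _ _) (add_comm _ _)
    · exact ((hT i _ hl.inv).scale hl.1).congr (by simp [smul_smul, hl.1])
        (by simp [smul_smul, hl.1])
    · have e1 : ∀ i, w i ⬝ᵥ m = 0 := congrFun h1
      have e2 : ∀ i, ν ⬝ᵥ v i = 0 := fun i => (dotProduct_comm _ _).trans (congrFun h2 i)
      have ne : i ≠ j := by simpa using hij
      refine ((hT i 1 Lam.one).conj_tv (hT j l hl)).congr (funext fun x => ?_)
        (funext fun x => ?_) <;> simp [e1, e2, h3, hd.ne ne, hd.ne ne.symm] <;> grind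
  exact ⟨_, _, C.two, C.un, C.pat, ⟨dual_opt hd h1 h2 h3, C.fr.ne0, C.fr.ne1,
    by simpa using key 1 Lam.one, key μ C.lam⟩, by simpa using Nat.le_succ_of_le C.card⟩

theorem free (h : TT P e f u m η ν) (h1 : u k = 0) (hd : ∀ i, Lam P e f (d i)) :
    TT P e f (d * u) m (d⁻¹ * η) ν := h.free h1 (by simp [C.eta h, h1]) hd

theorem ext (h : ¬ N1 P e f) : ∃ E E' : Option κ → ι → F, Cf P μ E E' := by
  simp only [N1, not_forall, not_exists, not_and, not_not] at h
  obtain ⟨u, m, η, ν, h, i, hi, h0⟩ := h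
  obtain rfl := C.eta h
  have h' := h.scale (inv_ne_zero hi)
  refine C.star C.fr.dual h'.l h'.r ?_ fun j l hl => ?_
  · rw [C.zero h', dotProduct, Fintype.sum_eq_single i fun j hj => by simp [h0 j hj]]
    simp [hi]
  · obtain ⟨k, k1, k2⟩ := exists_third C.card i j
    have := (C.free (k := k) (d := fun _ => l) (C.perm (Equiv.swap i j) h')
      (by simp [Equiv.swap_apply_of_ne_of_ne k1 k2, h0 k k1]) fun _ => hl).fl.t
    rw [← vv_single, ← vv_single]
    refine this.congr (congrArg (vv e · + _) (funext fun x => ?_))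
      (congrArg (vv f · + _) (funext fun x => ?_)) <;>
    by_cases e : x = j <;> simp [e, hi, Equiv.swap_apply_eq_iff, h0]

theorem free' (h : TT P e f u m η ν) (h1 : u k = 0) (hl : Lam P e f l) :
    TT P e f u (l⁻¹ • m) η (l • ν) :=
  ((C.free (d := fun _ => l) h h1 fun _ => hl).scale (inv_ne_zero hl.1)).congr
    (funext fun x => by simp [hl.1]) rfl (funext fun x => by simp [hl.1]) (by simp)

theorem iff_zero (h : TT P e f u m η ν) (h1 : u k = 0) : m = 0 ↔ ν = 0 := by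
  have k := C.free' h h1 C.lam
  refine ⟨fun h0 => ?_, fun h0 => ?_⟩
  · have := (C.ax h (k.congr rfl (by simp [h0]) rfl rfl)).2
    rwa [← sub_eq_zero, ← one_smul F ν, smul_smul, mul_one, ← sub_smul,
      smul_eq_zero_iff_right (sub_ne_zero.2 C.fr.ne1)] at this
  · have := (C.cen h (k.congr rfl rfl rfl (by simp [h0]))).2
    rwa [← sub_eq_zero, ← one_smul F m, smul_smul, mul_one, ← sub_smul,
      smul_eq_zero_iff_right (sub_ne_zero.2 (inv_ne_one.2 C.fr.ne1))] at this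

theorem mix (H : Hy P) (n1 : N1 P e f) (n3 : N3 P e f) (h : TT P e f u m η ν) (hi : u i ≠ 0) :
    m = 0 := by
  have := C.char
  by_contra m0
  obtain ⟨j, ji, hj⟩ := n1 _ _ _ _ h i hi
  obtain ⟨k, ki, kj⟩ := exists_third C.card i j
  have h0 := n3 _ _ _ _ h i j ji.symm hi hj
  obtain rfl := C.eta h
  have z : ν ⬝ᵥ m = 0 := by
    rw [C.zero h, dot2 ji.symm fun k k1 k2 => by simp [h0 k k1 k2]]
    simp [hi, hj, CharTwo.add_self_eq_zero]
  obtain ⟨u', m', η', ν', h', ⟨x, hx⟩, hm⟩ : ∃ u' m' η' ν', TT P e f u' m' η' ν' ∧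
      (∃ x, u' x ≠ 0) ∧ ν ⬝ᵥ m' ≠ 0 := by
    obtain ⟨b, ψ, hb, hν⟩ := H.r h.fl ((C.iff_zero h (h0 k ki kj)).not.1 m0)
    obtain ⟨u', m', η', ν', h', rfl, rfl⟩ := exists_TT C.fr.dual hb
    rw [dotProduct_add, dot_vv, h.r, zero_dotProduct, zero_add] at hν
    by_cases hu : u' = 0
    swap
    · exact ⟨_, _, _, _, h', Function.ne_iff.1 hu, hν⟩
    obtain rfl : η' = 0 := (C.eta h').trans (funext fun x => by simp [hu])
    subst hu
    have t := C.conj h h' (a := ν' ⬝ᵥ m) (b := ν ⬝ᵥ m') (by simp) (by simp)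
    refine ⟨_, _, _, _, t, ⟨i, by simpa using hi⟩, ?_⟩
    simp only [dotProduct_add, z, dotProduct_smul, smul_eq_mul, zero_add]
    refine mul_ne_zero (fun a0 => hb.r ?_) hν
    have := (C.ax h (t.congr (by simp) (by simp [a0]) rfl rfl)).2
    simpa [hν, vv_zero] using this
  obtain ⟨y, yx, hy⟩ := n1 _ _ _ _ h' x hx
  obtain ⟨σ, hσ⟩ := Equiv.Perm.exists_extending_pair (f := ![i, k]) (g := ![x, y])
    (injective_pair_iff_ne.2 ki.symm) (injective_pair_iff_ne.2 yx.symm)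
  have s1 : σ i = x := hσ 0
  have s2 : σ k = y := hσ 1
  have h2 := C.perm σ h'
  have a1 : (u' ∘ σ) i ≠ 0 := by simpa [s1] using hx
  have a2 : (u' ∘ σ) k ≠ 0 := by simpa [s2] using hy
  generalize u' ∘ σ = w at h2 a1 a2
  have a3 := n3 _ _ _ _ h2 i k ki.symm a1 a2 j ji kj.symm
  have key : ∀ l, Lam P e f l → (u i)⁻¹ * w i + l⁻¹ * ν ⬝ᵥ m' = 0 := fun l hl => by
    by_contra g0
    have := n3 _ _ _ _ (C.conj (C.free' h2 a3 hl) h (a := (u i)⁻¹ * w i + l⁻¹ * ν ⬝ᵥ m') (by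
      rw [dot2 ji.symm fun k k1 k2 => by simp [h0 k k1 k2]]; simp [a3]) rfl) j k kj.symm
      (by simp [a3, g0, hj]) (by simp [h0 k ki kj, a2]) i ji.symm ki.symm
    have l0 := inv_ne_zero hl.1
    have u1 := inv_mul_cancel₀ hi
    simp only [Pi.add_apply, Pi.smul_apply, smul_eq_mul] at this
    generalize l⁻¹ = l' at this l0
    generalize (u i)⁻¹ = t at this u1
    grind
  have k1 := key 1 Lam.one
  have k2 := key _ C.lam.inv
  have := C.fr.ne1
  grind

theorem mono (Q : QS P) (H : Hy P) (n1 : N1 P e f) (n3 : N3 P e f) : False := by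
  have := C.char
  have D := C.fr.dual
  let Mo : GL ι F → Prop := fun g => ∀ i, ∃ (j : κ) (s : F), g.1 *ᵥ e i = s • e j
  have mul : ∀ g h, Mo g → Mo h → Mo (g * h) := fun g h hg hh i => by
    obtain ⟨j, s, e1⟩ := hh i
    obtain ⟨k, t, e2⟩ := hg j
    exact ⟨k, s * t, by rw [GL_mul_mulVec, e1, mulVec_smul, e2, smul_smul]⟩
  let K : Subgroup (GL ι F) :=
    { carrier := {g | Mo g ∧ Mo g⁻¹}
      one_mem' := by simpa [Mo] using fun i => ⟨i, 1, by simp⟩
      mul_mem' := fun {g h} hg hh =>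
        ⟨mul _ _ hg.1 hh.1, by rw [_root_.mul_inv_rev]; exact mul _ _ hh.2 hg.2⟩
      inv_mem' := fun {g} hg => ⟨hg.2, by rw [inv_inv]; exact hg.1⟩ }
  let N : Subgroup (GL ι F) :=
    { carrier := {g | ∀ i, ∃ s : F, g.1 *ᵥ e i = s • e i}
      one_mem' := fun i => ⟨1, by simp⟩
      mul_mem' := fun {g h} hg hh i => by
        obtain ⟨s, e1⟩ := hh i
        obtain ⟨t, e2⟩ := hg i
        exact ⟨s * t, by rw [GL_mul_mulVec, e1, mulVec_smul, e2, smul_smul]⟩
      inv_mem' := fun {g} hg i => by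
        obtain ⟨s, e1⟩ := hg i
        have s0 : s ≠ 0 := fun s0 => by
          rw [s0, zero_smul, GL_mulVec_eq_zero_iff] at e1
          simpa [e1] using D.same i
        exact ⟨s⁻¹, by rw [eq_inv_smul_iff₀ s0, ← mulVec_smul, ← e1, GL_inv_mulVec_mulVec]⟩ }
  have key : ∀ a φ, Fl P a φ → Mo (tv a φ) := fun a φ ha i => by
    obtain ⟨u, m, η, ν, h, rfl, rfl⟩ := exists_TT D ha
    obtain rfl := C.eta h
    rw [tv_mulVec ha.t.1, dotProduct_comm, show e i ⬝ᵥ _ = _ from congrFun (co_eq D.symm h.r) i]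
    by_cases hi : u i = 0
    · exact ⟨i, 1, by simp [hi]⟩
    obtain ⟨j, ji, hj⟩ := n1 _ _ _ _ h i hi
    have : u = Pi.single i (u i) + Pi.single j (u j) := funext fun x => by
      by_cases e1 : x = i <;> by_cases e2 : x = j <;>
        simp [e1, e2, ji, ji.symm, n3 _ _ _ _ h i j ji.symm hi hj]
    refine ⟨j, (u i)⁻¹ * u j, ?_⟩
    rw [C.mix H n1 n3 h hi, add_zero, Pi.inv_apply]
    conv_lhs => enter [2, 2]; rw [this, vv_add, vv_single, vv_single]
    ext x
    simp [← mul_assoc, ← add_assoc, mul_add, hi, CharTwo.add_self_eq_zero]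
  have hK : P ≤ K := H.gen K fun a φ ha => ⟨key a φ ha, by
    rw [tv_inv ha.t.1]; exact key _ _ ⟨ha.t.neg_left, neg_ne_zero.2 ha.l, ha.r⟩⟩
  obtain ⟨i⟩ : Nonempty κ := Fintype.card_pos_iff.1 (by have := C.card; omega)
  obtain ⟨j, ji, -⟩ := exists_third C.card i i
  obtain ⟨k, ki, kj⟩ := exists_third C.card i j
  have t1 := C.fr.one i j ji.symm
  have t2 := C.fr.mu i j ji.symm
  have act : ∀ x, (tv (e i + e j) (f i + f j) * tv (e i + μ • e j) (f i + μ⁻¹ • f j)).1 *ᵥ e x =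
      (if x = i then μ else if x = j then μ⁻¹ else 1) • e x := fun x => by
    rw [GL_mul_mulVec, tv_mulVec t1.1, tv_mulVec t2.1]
    have := mul_inv_cancel₀ C.fr.ne0
    ext y
    by_cases e1 : x = i <;> by_cases e2 : x = j <;>
      simp [e1, e2, D _ _, ji, ji.symm, Ne.symm] <;> grind
  have hN : N ⊓ P = P := Q.eq_of_normal inf_le_right (fun g hg x hx =>
    ⟨fun i => by
      obtain ⟨j, s, e1⟩ := (hK hg).2 i
      obtain ⟨t, e2⟩ := hx.1 j
      exact ⟨t, by rw [GL_mul_mulVec, GL_mul_mulVec, e1, mulVec_smul, e2, smul_comm, ← e1,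
        mulVec_smul, GL_mulVec_inv_mulVec]⟩,
    P.mul_mem (P.mul_mem hg hx.2) (P.inv_mem hg)⟩) fun hs => by
      obtain ⟨c, hc⟩ := (mem_scalars_iff _).1 (hs ⟨fun x => ⟨_, act x⟩, mul_mem t1.2 t2.2⟩)
      have a1 := congrArg (f i ⬝ᵥ ·) (act i)
      have a2 := congrArg (f k ⬝ᵥ ·) (act k)
      rw [hc] at a1 a2
      simp [D.same, ki, kj, smul_mulVec] at a1 a2
      exact C.fr.ne1 (by rw [← a1, a2]; rfl)
  obtain ⟨s, hs⟩ := (hN.ge t1.2).1 i
  have := congrArg (f j ⬝ᵥ ·) hs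
  simp [tv_mulVec t1.1, D _ _, ji, ji.symm] at this

theorem cube (h : TT P e f u m η ν) (hij : i ≠ j) (hi : k ≠ i) (hj : k ≠ j) (h1 : u i ≠ 0)
    (h2 : u j ≠ 0) (h3 : u k ≠ 0) : μ ^ 2 + μ + 1 = 0 ∧ u i ^ 3 = u j ^ 3 :=
  have t := fun x (hx : u x ≠ 0) => (C.tb h x).resolve_right fun k => hx k.1
  (C.three' h hij hi hj one_ne_zero (t i h1) (t j h2) (t k h3)).imp_right And.right

end Cf

theorem cube_aux (Q : QS P) (H : Hy P) (hμ : μ ^ 3 ≠ 1) (n : ℕ) : ∀ {κ : Type} [Fintype κ]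
    [DecidableEq κ] {e f : κ → ι → F}, Cf P μ e f → Fintype.card κ + n ≤ Fintype.card ι := by
  induction n with
  | zero => exact fun C => C.fr.dual.card_le
  | succ n ih =>
    intro κ _ _ e f C
    obtain ⟨E, E', C'⟩ := C.ext fun n1 => C.mono Q H n1 fun u m η ν h i j hij hi hj k k1 k2 =>
      by_contra fun hk => hμ (by linear_combination (μ - 1) * (C.cube h hij k1 k2 hi hj hk).1)
    have := ih C'
    rw [Fintype.card_option] at this
    omega

end Fm

theorem wFrA : WFrA.{u} := fun {ι _ _ _ _ _ _ _ _ _} h2 Q H _ hU hP hf => by_contra fun h => by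
  simpa using Fm.cube_aux Q H h (Fintype.card ι) ⟨h2, hU, hP, hf, by simp⟩

end Cfsg.Lib.Tv45
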