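import Cfsg.Agent.Tv45.FrA
import Mathlib.FieldTheory.Perfect

/-!
# Monomial frames: the unitary groups over the field of four elements
-/

set_option autoImplicit false

namespace Cfsg.Lib.Tv45

open Matrix Cfsg.Geo Cfsg.Lib.Class Cfsg.Lib.Class.Asch Cfsg.Lib.Mit
open scoped MatrixGroups

universe u

namespace Fm

variable {ι : Type} [Fintype ι] [DecidableEq ι] {F : Type*} [Field F] {P : Subgroup (GL ι F)}
  {κ : Type} [Fintype κ] [DecidableEq κ] {e f : κ → ι → F} {μ l : F} {u u' η η' d : κ → F}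
  {m m' ν ν' : ι → F} {i j k : κ}

omit [DecidableEq κ] in
theorem exists_perp (f : κ → ι → F) (h : Fintype.card κ < Fintype.card ι) :
    ∃ m, m ≠ 0 ∧ co f m = 0 := by
  by_contra! hn
  have := (Matrix.of f).mulVecLin.finrank_le_finrank_of_injective
    ((injective_iff_map_eq_zero _).2 fun m hm => by_contra fun m0 => hn m m0 hm)
  simp at this
  omega

theorem eq_zero_of_card (D : Dual e f) (hc : Fintype.card κ + 1 = Fintype.card ι)
    (h1 : co f m = 0) (h2 : co e ν = 0) (m0 : m ≠ 0) (h : ν ⬝ᵥ m = 0) : ν = 0 := by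
  obtain ⟨x, hx⟩ := exists_dot_eq_one m0
  rw [← (dual_opt D h1 (co_sub D.symm x) (by simp [vv_dot, h1, hx])).symm.vv_co
    (by simpa using hc) ν]
  refine (congrArg _ (funext ?_)).trans vv_zero
  rintro (_ | i)
  exacts [(dotProduct_comm _ _).trans h, congrFun h2 i]

theorem TT.toT (h : TT P e f u 0 η 0) : T P (vv e u) (vv f η) := by simpa using h.fl.t

theorem span_rat (D : Dual e f) (hc : Fintype.card κ = Fintype.card ι) (L : Subfield F) :
    Submodule.span F {c | ∃ k : κ → F, (∀ i, k i ∈ L) ∧ c = vv e k} = ⊤ :=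
  eq_top_iff.2 fun v _ => D.vv_co hc v ▸ sum_mem fun i _ => Submodule.smul_mem _ _
    (Submodule.subset_span ⟨Pi.single i 1, fun j => by
      by_cases h : j = i <;> simp [h], by simp [vv_single]⟩)

open Classical in
/-- The number of non-zero coordinates. -/
noncomputable def wt (u : κ → F) : ℕ := (Finset.univ.filter (u · ≠ 0)).card

omit [DecidableEq κ] in
theorem dot_wt (u : κ → F) : u⁻¹ ⬝ᵥ u = wt u := by
  classical
  rw [wt, Finset.card_filter, Nat.cast_sum]
  exact Finset.sum_congr rfl fun i _ => by by_cases h : u i = 0 <;> simp [h]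

omit [DecidableEq κ] in
theorem wt_le (u : κ → F) : wt u ≤ Fintype.card κ := Finset.card_le_univ _

omit [DecidableEq κ] in
theorem wt_eq (h : ∀ i, u i ≠ 0) : wt u = Fintype.card κ := by simp [wt, h]

namespace Cf

variable (C : Cf P μ e f)
include C

theorem lam_cube (hC : Cub P) (hl : Lam P e f l) : l ^ 3 = 1 := by
  obtain ⟨g⟩ := Function.Embedding.nonempty_of_card_le (α := Fin 3) (by simpa using C.card)
  by_cases l1 : l = 1
  · simp [l1]
  exact hC l (e ∘ g) (f ∘ g) ⟨fun i j => by simp [C.fr.dual _ _], hl.1, l1,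
    fun i j h => C.fr.one _ _ (g.injective.ne h), fun i j h => by
      simpa [vv_add, vv_single] using (C.two_TT (g.injective.ne h) hl).fl.t⟩

theorem root (hC : Cub P) : μ ^ 2 + μ + 1 = 0 := mul_left_cancel₀ (sub_ne_zero.2 C.fr.ne1) (by
  linear_combination C.lam_cube hC C.lam)

theorem lam3 (hC : Cub P) (h : l ^ 3 = 1) : Lam P e f l := by
  have : (l - 1) * (l - μ) * (l - μ ^ 2) = 0 := by
    linear_combination h + (-l ^ 2 + μ * l - μ + 1) * C.root hC
  simp only [mul_eq_zero, sub_eq_zero] at this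
  rcases this with (rfl | rfl) | rfl
  exacts [Lam.one, C.lam, C.lam.pow 2]

theorem even (h : TT P e f u m η ν) (h0 : ν ⬝ᵥ m = 0) : 2 ∣ wt u := by
  have := C.char
  rwa [C.zero h, C.eta h, dot_wt, CharP.cast_eq_zero_iff F 2] at h0

theorem step4 (H : Hy P) (hC : Cub P) (h4 : Fintype.card κ = 4) (h5 : Fintype.card ι = 5) :
    ∃ E E' : Option κ → ι → F, Cf P μ E E' := by
  have := C.char
  have D := C.fr.dual
  have w := C.root hC
  refine C.ext fun n1 => ?_
  have A : ∀ u m η ν, TT P e f u m η ν → m ≠ 0 → ν = 0 := fun u m η ν h m0 => by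
    refine eq_zero_of_card D (by omega) h.l h.r m0 (by_contra fun h0 => ?_)
    obtain rfl := C.eta h
    have z := C.zero h
    have h1 : ν ⬝ᵥ m = 1 := by
      rw [z, dot_wt] at h0 ⊢
      rw [CharP.cast_eq_zero_iff F 2] at h0
      obtain ⟨c, hc⟩ := Nat.odd_iff.2 (show wt u % 2 = 1 by omega)
      simp [hc, C.two]
    obtain ⟨k, hk⟩ : ∃ k, u k = 0 := by
      by_contra! hn
      exact h0 (by rw [z, dot_wt, wt_eq hn, h4, CharP.cast_eq_zero_iff F 2]; norm_num)
    obtain ⟨i, hi⟩ : ∃ i, u i ≠ 0 := by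
      by_contra! hn
      exact h0 (by rw [z, funext hn]; exact dotProduct_zero _)
    have t := C.free (d := fun x => if x = i then μ ^ 2 else μ) h hk fun x => by
      split_ifs
      exacts [C.lam.pow 2, C.lam]
    have e1 : (fun x => if x = i then μ ^ 2 else μ) * u = μ • u + Pi.single i (u i) :=
      funext fun x => by by_cases e : x = i <;> simp [e]; grind
    rw [e1] at t
    obtain ⟨j, ji, hj⟩ := n1 _ _ _ _ (C.conj t h (a := μ) (by
      rw [dotProduct_add, dotProduct_smul, ← z, h1]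
      simp [hi, add_assoc, CharTwo.add_self_eq_zero]) rfl) i (by simp; grind)
    exact hj (by simp [ji, CharTwo.add_self_eq_zero])
  obtain ⟨i⟩ : Nonempty κ := Fintype.card_pos_iff.1 (by omega)
  obtain ⟨j, ji, -⟩ := exists_third C.card i i
  have h0 := (C.two_TT ji Lam.one).fl
  obtain ⟨x, x0, hx⟩ := exists_perp e (show _ < Fintype.card ι by omega)
  obtain ⟨y, y0, hy⟩ := exists_perp f (show _ < Fintype.card ι by omega)
  obtain ⟨b, ψ, hb, b1⟩ := H.r h0 x0
  obtain ⟨b', ψ', hb', b2⟩ := H.l h0 y0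
  obtain ⟨u, m, η, ν, h, rfl, rfl⟩ := exists_TT D hb
  obtain ⟨u', m', η', ν', h', rfl, rfl⟩ := exists_TT D hb'
  have m0 : m ≠ 0 := by rintro rfl; simp [dot_vv, hx] at b1
  have n0 : ν' ≠ 0 := by rintro rfl; simp [vv_dot, hy] at b2
  obtain rfl := A _ _ _ _ h m0
  obtain rfl : m' = 0 := by_contra fun k => n0 (A _ _ _ _ h' k)
  obtain rfl := C.eta h
  have u0 : u i ≠ 0 := fun k => m0 ((C.iff_zero h k).2 rfl)
  have u1 : u' i ≠ 0 := fun k => n0 ((C.iff_zero h' k).1 rfl)
  have key : ∀ l, Lam P e f l →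
      u⁻¹ ⬝ᵥ u' + (u i)⁻¹ * ((l - 1) * u' i) + (u j)⁻¹ * ((l⁻¹ - 1) * u' j) = 0 := fun l hl => by
    have t := hl.2 i j ji.symm _ _ _ _ h'
    rw [show (Pi.mulSingle i l * Pi.mulSingle j l⁻¹) * u' =
      u' + Pi.single i ((l - 1) * u' i) + Pi.single j ((l⁻¹ - 1) * u' j) from funext fun x => by
        by_cases e1 : x = i <;> by_cases e2 : x = j <;> simp [e1, e2, ji, ji.symm, sub_mul]] at t
    simpa [n0] using A _ _ _ _ (C.conj h t rfl rfl) (by simpa using m0)
  have k1 := key 1 Lam.one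
  have k2 := key μ C.lam
  have k3 := key μ⁻¹ C.lam.inv
  have := inv_ne_zero u0
  rw [inv_inv] at k3
  rw [inv_eq_of_mul_eq_one_right (show μ * μ ^ 2 = 1 by grind)] at k2 k3
  generalize (u i)⁻¹ = a at *
  generalize (u j)⁻¹ = b at *
  grind

section Full

variable (hc : Fintype.card κ = Fintype.card ι)
include hc

theorem full (h : TT P e f u m η ν) : m = 0 ∧ ν = 0 :=
  ⟨by rw [← C.fr.dual.vv_co hc m, h.l, vv_zero], by rw [← C.fr.dual.symm.vv_co hc ν, h.r, vv_zero]⟩

theorem cube' (hC : Cub P) (h : TT P e f u m η ν) (hi : u i ≠ 0) (hj : u j ≠ 0) :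
    ((u i)⁻¹ * u j) ^ 3 = 1 := by
  by_cases hij : i = j
  · simp [hij, hj]
  by_cases h3 : ∃ k, k ≠ i ∧ k ≠ j ∧ u k ≠ 0
  · obtain ⟨k, k1, k2, k3⟩ := h3
    rw [mul_pow, ← (C.cube h hij k1 k2 hi hj k3).2, ← mul_pow, inv_mul_cancel₀ hi, one_pow]
  push Not at h3
  obtain ⟨rfl, rfl⟩ := C.full hc h
  obtain rfl := C.eta h
  refine C.lam_cube hC (C.lam_of (by simp [hi, hj]) fun a b hab => ?_)
  obtain ⟨σ, hσ⟩ := Equiv.Perm.exists_extending_pair (f := ![a, b]) (g := ![i, j])
    (injective_pair_iff_ne.2 hab) (injective_pair_iff_ne.2 hij)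
  obtain rfl : σ a = i := hσ 0
  obtain rfl : σ b = j := hσ 1
  rw [← one_smul F (e a), ← one_smul F (f a), ← vv_single, ← vv_single, ← vv_single, ← vv_single,
    ← vv_add, ← vv_add]
  refine (((C.perm σ h).scale (inv_ne_zero hi)).congr (funext fun x => ?_) (smul_zero _)
    (funext fun x => ?_) (smul_zero _)).toT <;>
  by_cases e1 : x = a <;> by_cases e2 : x = b <;> simp [e1, e2, hab, hab.symm, hi, h3, mul_comm]

theorem normal (hC : Cub P) {c χ : ι → F} (h : Fl P c χ) : ∃ k : κ → F, (∀ i, k i ^ 4 = k i) ∧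
    vv f k⁻¹ ⬝ᵥ vv e k = 0 ∧ tv c χ = tv (vv e k) (vv f k⁻¹) := by
  obtain ⟨u, m, η, ν, t, rfl, rfl⟩ := exists_TT C.fr.dual h
  obtain ⟨rfl, rfl⟩ := C.full hc t
  obtain rfl := C.eta t
  obtain ⟨i, hi⟩ : ∃ i, u i ≠ 0 := Function.ne_iff.1 fun k => h.l (by rw [k, add_zero]; exact vv_zero)
  have e1 : ((u i)⁻¹ • u)⁻¹ = u i • u⁻¹ := funext fun x => by simp [mul_comm]
  refine ⟨(u i)⁻¹ • u, fun j => ?_, ?_, ?_⟩
  · by_cases hj : u j = 0
    · simp [hj]
    · rw [pow_succ]; exact (congrArg (· * _) (C.cube' hc hC t hi hj)).trans (one_mul _)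
  · simpa [e1, vv_smul, hi] using h.t.1
  · rw [e1, vv_smul, vv_smul, tv_smul_left, smul_smul, inv_mul_cancel₀ hi]; simp

variable (hn : Fintype.card ι = 4 ∨ Fintype.card ι = 5) (hC : Cub P) (hF : ∀ x : F, x ^ 4 = x)
include hn hC hF

theorem all_diag (h : TT P e f u 0 η 0) (hd : ∀ i, d i ≠ 0) : TT P e f (d * u) 0 (d⁻¹ * η) 0 := by
  have c : ∀ x : F, x ≠ 0 → Lam P e f x := fun x hx =>
    C.lam3 hC (mul_left_cancel₀ hx (by rw [← pow_succ', hF, mul_one]))
  by_cases hk : ∃ k, u k = 0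
  · obtain ⟨k, hk⟩ := hk
    exact C.free h hk fun i => c _ (hd i)
  push Not at hk
  have := C.even h (by simp)
  rw [wt_eq hk] at this
  have p0 : ∏ i, d i ≠ 0 := Finset.prod_ne_zero_iff.2 fun i _ => hd i
  refine ((Dg.of_prod (d := (∏ i, d i)⁻¹ • d) (fun i => c _ (by simp [p0, hd])) ?_ _ _ _ _ h).scale
    p0).congr (funext fun x => by simp [p0]) (by simp) (funext fun x => ?_) (by simp)
  · simp only [Pi.smul_apply, smul_eq_mul, Finset.prod_mul_distrib, Finset.prod_const,
      Finset.card_univ, show Fintype.card κ = 4 by omega, hF, inv_mul_cancel₀ p0]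
  · simp only [Pi.smul_apply, Pi.mul_apply, Pi.inv_apply, smul_eq_mul]
    field_simp

theorem transfer (h : TT P e f u m η ν) (hw : wt u' = wt u) : T P (vv e u') (vv f u'⁻¹) := by
  classical
  obtain ⟨rfl, rfl⟩ := C.full hc h
  obtain rfl := C.eta h
  let g : {i // u' i ≠ 0} ≃ {i // u i ≠ 0} := Fintype.equivOfCardEq (by
    simpa only [Fintype.card_subtype, wt] using hw)
  have h1 := g.extendSubtype_mem
  have h2 := g.extendSubtype_not_mem
  generalize g.extendSubtype = σ at h1 h2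
  refine ((C.all_diag hc hn hC hF (d := fun i => if u' i = 0 then 1 else u' i / u (σ i))
    (C.perm σ h) fun i => by by_cases e : u' i = 0 <;> simp [e, h1 i]).congr
    (funext fun x => ?_) rfl (funext fun x => ?_) rfl).toT <;>
  by_cases e : u' x = 0
  · simpa [e] using h2 x
  · simp [e, h1 x e]
  · simpa [e] using h2 x
  · simp [e, h1 x e, div_eq_mul_inv, mul_comm]

theorem member (Q : QS P) (H : Hy P) (h : u⁻¹ ⬝ᵥ u = 0) : T P (vv e u) (vv f u⁻¹) := by
  classical
  have := C.char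
  rw [dot_wt, CharP.cast_eq_zero_iff F 2] at h
  have le := wt_le u
  by_cases h0 : wt u = 0
  · obtain rfl : u = 0 := funext (by simpa [wt] using h0)
    rw [vv_zero]; exact T.zero_left _ _
  by_cases h2 : wt u = 2
  · obtain ⟨i⟩ : Nonempty κ := Fintype.card_pos_iff.1 (by omega)
    obtain ⟨j, ji, -⟩ := exists_third C.card i i
    refine C.transfer hc hn hC hF (C.two_TT ji Lam.one) ?_
    rw [h2, ← Finset.card_pair ji, wt]
    congr 1
    ext x
    by_cases e1 : x = i <;> by_cases e2 : x = j <;> simp [e1, e2, ji, ji.symm]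
  have n3 : ¬ N3 P e f := C.mono Q H (by_contra fun n1 => by
    obtain ⟨E, E', C'⟩ := C.ext n1
    have := C'.fr.dual.card_le
    rw [Fintype.card_option] at this
    omega)
  simp only [N3, not_forall] at n3
  obtain ⟨u', m, η, ν, t, i, j, hij, hi, hj, k, ki, kj, hk⟩ := n3
  have ev := C.even t (by simp [(C.full hc t).1])
  have le' := wt_le u'
  have : 3 ≤ wt u' := (Finset.card_eq_three.2 ⟨i, j, k, hij, ki.symm, kj.symm, rfl⟩).ge.trans
    (Finset.card_le_card (by simp [Finset.insert_subset_iff, hi, hj, hk]))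
  exact C.transfer hc hn hC hF t (by omega)

end Full

theorem final [Finite F] (Q : QS P) (H : Hy P) (hN : NoSub P) (hC : Cub P)
    (hc : Fintype.card κ = Fintype.card ι) (hn : Fintype.card ι = 4 ∨ Fintype.card ι = 5) :
    IsSU P := by
  have := C.char
  have D := C.fr.dual
  let L := RingHom.eqLocusField (iterateFrobenius F 2 2) (RingHom.id F)
  have hL : ∀ x, x ∈ L ↔ x ^ 4 = x := fun x => Iff.rfl
  have hF : ∀ x : F, x ^ 4 = x := fun x => (hL x).1 (eq_top_of_rat hN L (span_rat D hc L)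
    (span_rat D.symm hc L) (by
      rintro _ ⟨k, hk, rfl⟩ _ ⟨g, hg, rfl⟩
      rw [D.vv_dot_vv]
      exact sum_mem fun i _ => mul_mem (hg i) (hk i)) (fun K hK => H.gen K fun c χ h => by
      obtain ⟨k, k1, k2, k3⟩ := C.normal hc hC h
      simpa [k3] using hK _ ⟨k, k1, rfl⟩ _ ⟨k⁻¹, fun i => inv_mem ((hL _).2 (k1 i)), rfl⟩ 1
        (one_mem _) k2) ▸ Subfield.mem_top x)
  have inv : ∀ x : F, x⁻¹ = x ^ 2 := fun x => by
    by_cases h : x = 0
    · simp [h]
    · exact inv_eq_of_mul_eq_one_right (mul_left_cancel₀ h (by linear_combination hF x))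
  have hσ : ∀ x, frobeniusEquiv F 2 x = x⁻¹ := fun x => (inv x).symm
  have pol : Pol (frobeniusEquiv F 2) fun v => vv f (co f v)⁻¹ :=
    ⟨fun x => by rw [hσ, hσ, inv_inv],
      fun v w => by rw [co_add, ← vv_add]; congr 1; ext i; simp [← hσ],
      fun c v => by rw [co_smul, ← vv_smul, hσ]; congr 1; ext i; simp [mul_comm],
      fun v w => by
        rw [vv_dot, vv_dot, CharTwo.neg_eq, dotProduct, dotProduct, map_sum]
        exact Finset.sum_congr rfl fun i _ => by simp [hσ],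
      fun v hv => by
        rw [← D.vv_co hc v, ← vv_zero (e := e)]
        congr 1
        ext i
        simpa using congrFun (D.symm.vv_eq_zero.1 hv) i⟩
  refine pol.isSU (fun e => C.fr.ne1 ?_) (H.gen _ fun c χ h => ?_) H.le_SL (by omega)
    fun v hv l hl => ?_
  · have := hσ μ
    rw [e, inv, RingEquiv.refl_apply] at this
    exact mul_left_cancel₀ C.fr.ne0 (by linear_combination -this)
  · obtain ⟨k, -, k2, k3⟩ := C.normal hc hC h
    simpa [k3, D.co_vv] using pol.tv_mem (k := 1) (c := vv e k) (by simp) (by simpa [D.co_vv] using k2)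
  · rw [hσ, inv] at hl
    rcases mul_eq_zero.1 (show l * (l - 1) = 0 by linear_combination hl) with rfl | e
    · simpa using T.zero_right P v
    · rw [sub_eq_zero.1 e, one_smul]
      simpa [D.vv_co hc] using C.member hc hn hC hF Q H ((vv_dot _ _).symm.trans hv)

end Cf

theorem step3 {e f : Fin 3 → ι → F} (C : Cf P μ e f) (Q : QS P) (H : Hy P) (hC : Cub P) :
    ∃ E E' : Option (Fin 3) → ι → F, Cf P μ E E' := by
  have := C.char
  have D := C.fr.dual
  have w := C.root hC
  by_cases n1 : N1 P e f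
  swap
  · exact C.ext n1
  have n3 := C.mono Q H n1
  simp only [N3, imp_false, not_forall] at n3
  obtain ⟨u, m, η, ν, h, i, j, hij, hi, hj, k, ki, kj, hk⟩ := n3
  have u0 : ∀ x, u x ≠ 0 := fun x => by
    rcases (by omega : x = i ∨ x = j ∨ x = k) with rfl | rfl | rfl <;> assumption
  obtain rfl := C.eta h
  have μ0 := C.fr.ne0
  refine C.star (m := m) (ν := ν) (v := fun j => vv e ((fun i => μ ^ (i.1 * j.1)) * u))
    (w := fun j => vv f ((fun i => μ ^ (i.1 * j.1))⁻¹ * u⁻¹)) (fun a b => ?_)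
    (funext fun a => by simp [co, vv_dot, h.l]) (funext fun a => by simp [co, vv_dot, h.r])
    (by rw [C.zero h, dot_wt, wt_eq u0]; simp; grind) fun a l hl => ?_
  · rw [D.vv_dot_vv]
    fin_cases a <;> fin_cases b <;> simp [dotProduct, Fin.sum_univ_three] <;>
      field_simp [u0] <;> grind
  · have l3 := C.lam_cube hC hl
    rw [← vv_smul, ← vv_smul]
    refine (Dg.of_prod (d := fun i => l * μ ^ (i.1 * a.1)) (fun i => hl.mul (C.lam.pow _)) ?_
      _ _ _ _ h).fl.t.congr (congrArg (vv e · + _) (funext fun x => by simp [mul_assoc]))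
      (congrArg (vv f · + _) (funext fun x => by simp; ring))
    fin_cases a <;> simp [Fin.prod_univ_three] <;> grind

end Fm

theorem wFrB : WFrB.{u} := fun {ι _ _ _ _ _ _ _ _ _} h2 Q H hN _ _ hU hC hP hf hn => by
  obtain ⟨E, E', C⟩ := Fm.step3 ⟨h2, hU, hP, hf, by simp⟩ Q H hC
  rcases hn with h | h
  · exact C.final Q H hN hC (by simp [h]) (Or.inl h)
  · obtain ⟨E, E', C⟩ := C.step4 H hC (by simp) h
    exact C.final Q H hN hC (by simp [h]) (Or.inr h)

end Cfsg.Lib.Tv45
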