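import Cfsg.Agent.Tv45.Defs

/-!
# Monomial frames: transvections in coordinates
-/

set_option autoImplicit false

namespace Cfsg.Lib.Tv45.Fm

open Matrix Cfsg.Geo Cfsg.Lib.Class Cfsg.Lib.Class.Asch Cfsg.Lib.Mit
open scoped MatrixGroups

variable {ι : Type} [Fintype ι] [DecidableEq ι] {F : Type*} [Field F] {P : Subgroup (GL ι F)}
  {κ : Type} [Fintype κ] [DecidableEq κ] {e f : κ → ι → F} {μ l : F} {u u' η η' d : κ → F}
  {m m' ν ν' : ι → F} {i j k : κ}

omit [DecidableEq ι] [Fintype κ] [DecidableEq κ] in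
theorem co_add (f : κ → ι → F) (v w : ι → F) : co f (v + w) = co f v + co f w :=
  funext fun _ => dotProduct_add ..

omit [DecidableEq ι] [Fintype κ] [DecidableEq κ] in
theorem co_smul (f : κ → ι → F) (s : F) (v : ι → F) : co f (s • v) = s • co f v :=
  funext fun _ => dotProduct_smul ..

omit [DecidableEq ι] [Fintype κ] [DecidableEq κ] in
theorem co_zero (f : κ → ι → F) : co f 0 = 0 := funext fun _ => dotProduct_zero _

omit [DecidableEq ι] in
theorem co_eq (h : Dual e f) (hm : co f m = 0) : co f (vv e u + m) = u := by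
  rw [co_add, h.co_vv, hm, add_zero]

omit [DecidableEq ι] in
theorem co_sub (h : Dual e f) (v : ι → F) : co f (v - vv e (co f v)) = 0 := by
  rw [sub_eq_add_neg, co_add, ← neg_one_smul F, co_smul, h.co_vv, neg_one_smul, add_neg_cancel]

omit [DecidableEq ι] in
theorem pair (h : Dual e f) (hm : co f m = 0) (hν : co e ν = 0) :
    (vv f η + ν) ⬝ᵥ (vv e u + m) = η ⬝ᵥ u + ν ⬝ᵥ m := by
  rw [add_dotProduct, vv_dot, co_eq h hm, dotProduct_add, dot_vv, hν, zero_dotProduct, zero_add]

theorem exists_third (h : 3 ≤ Fintype.card κ) (i j : κ) : ∃ k, k ≠ i ∧ k ≠ j := by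
  by_contra! hn
  have : (Finset.univ : Finset κ) ⊆ {i, j} := fun k _ => by
    by_cases e : k = i
    exacts [by simp [e], by simp [hn k e]]
  have := (Finset.card_le_card this).trans Finset.card_le_two
  rw [Finset.card_univ] at this
  omega

/-- The transvection with centre `u + m` and axis `η + ν`. -/
structure TT (P : Subgroup (GL ι F)) (e f : κ → ι → F) (u : κ → F) (m : ι → F) (η : κ → F)
    (ν : ι → F) : Prop where
  fl : Fl P (vv e u + m) (vv f η + ν)
  l : co f m = 0
  r : co e ν = 0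

theorem exists_TT (h : Dual e f) {c χ : ι → F} (hc : Fl P c χ) :
    ∃ u m η ν, TT P e f u m η ν ∧ c = vv e u + m ∧ χ = vv f η + ν :=
  ⟨co f c, _, co e χ, _, ⟨by simpa using hc, co_sub h c, co_sub h.symm χ⟩, by simp, by simp⟩

theorem TT.congr (h : TT P e f u m η ν) (e1 : u = u') (e2 : m = m') (e3 : η = η') (e4 : ν = ν') :
    TT P e f u' m' η' ν' := e1 ▸ e2 ▸ e3 ▸ e4 ▸ h

theorem TT.scale (h : TT P e f u m η ν) {s : F} (hs : s ≠ 0) :
    TT P e f (s • u) (s • m) (s⁻¹ • η) (s⁻¹ • ν) :=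
  ⟨by rw [vv_smul, vv_smul, ← smul_add, ← smul_add]; exact h.fl.scale hs,
    by rw [co_smul, h.l, smul_zero], by rw [co_smul, h.r, smul_zero]⟩

/-- The diagonal matrix `d` acts on the transvections. -/
def Dg (P : Subgroup (GL ι F)) (e f : κ → ι → F) (d : κ → F) : Prop :=
  ∀ u m η ν, TT P e f u m η ν → TT P e f (d * u) m (d⁻¹ * η) ν

theorem Dg.one : Dg P e f 1 := fun _ _ _ _ h => by simpa using h

theorem Dg.mul {d' : κ → F} (h : Dg P e f d) (h' : Dg P e f d') : Dg P e f (d * d') :=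
  fun _ _ _ _ k => (h _ _ _ _ (h' _ _ _ _ k)).congr (mul_assoc ..).symm rfl
    (funext fun _ => by simp [mul_assoc, mul_left_comm]) rfl

/-- The admissible ratios. -/
def Lam (P : Subgroup (GL ι F)) (e f : κ → ι → F) (l : F) : Prop :=
  l ≠ 0 ∧ ∀ i j, i ≠ j → Dg P e f (Pi.mulSingle i l * Pi.mulSingle j l⁻¹)

theorem Lam.one : Lam P e f 1 := ⟨one_ne_zero, fun _ _ _ => by simpa using Dg.one⟩

theorem Lam.mul {l' : F} (h : Lam P e f l) (h' : Lam P e f l') : Lam P e f (l * l') :=
  ⟨mul_ne_zero h.1 h'.1, fun i j hij => by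
    rw [mul_inv, Pi.mulSingle_mul, Pi.mulSingle_mul, mul_mul_mul_comm]
    exact (h.2 i j hij).mul (h'.2 i j hij)⟩

theorem Lam.inv (h : Lam P e f l) : Lam P e f l⁻¹ :=
  ⟨inv_ne_zero h.1, fun i j hij => by rw [inv_inv, mul_comm]; exact h.2 j i hij.symm⟩

theorem Lam.pow (h : Lam P e f l) (n : ℕ) : Lam P e f (l ^ n) := by
  induction n with
  | zero => simpa using Lam.one
  | succ n ih => rw [pow_succ]; exact ih.mul h

theorem Dg.of_prod (h : ∀ i, Lam P e f (d i)) (h1 : ∏ i, d i = 1) : Dg P e f d := by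
  rcases isEmpty_or_nonempty κ with _ | ⟨⟨k⟩⟩
  · rw [Subsingleton.elim d 1]; exact Dg.one
  have : d = ∏ i, Pi.mulSingle i (d i) * Pi.mulSingle k (d i)⁻¹ := by
    rw [Finset.prod_mul_distrib, Finset.univ_prod_mulSingle]
    ext j
    by_cases e : j = k <;> simp [Finset.prod_apply, e, h1]
  rw [this]
  refine Finset.prod_induction _ _ (fun _ _ => Dg.mul) Dg.one fun i _ => ?_
  by_cases e : i = k
  · rw [e, ← Pi.mulSingle_mul, mul_inv_cancel₀ (h k).1, Pi.mulSingle_one]; exact Dg.one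
  · exact (h i).2 i k e

/-- A vanishing coordinate absorbs the determinant. -/
theorem TT.free (h : TT P e f u m η ν) (h1 : u k = 0) (h2 : η k = 0) (hd : ∀ i, Lam P e f (d i)) :
    TT P e f (d * u) m (d⁻¹ * η) ν := by
  have hp : Lam P e f (∏ i, d i) :=
    Finset.prod_induction _ _ (fun _ _ => Lam.mul) Lam.one fun i _ => hd i
  refine (Dg.of_prod (d := d * Pi.mulSingle k (∏ i, d i)⁻¹) (fun i => ?_) ?_ _ _ _ _ h).congr
    (funext fun i => ?_) rfl (funext fun i => ?_) rfl
  · by_cases e : i = k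
    · simpa [e] using (hd k).mul hp.inv
    · simpa [e] using hd i
  · simp [Finset.prod_mul_distrib, hp.1]
  · by_cases e : i = k <;> simp [e, h1]
  · by_cases e : i = k <;> simp [e, h2]

theorem cubic4 {a b c d A B C : F} (ha : a ^ 3 + A * a ^ 2 + B * a + C = 0)
    (hb : b ^ 3 + A * b ^ 2 + B * b + C = 0) (hc : c ^ 3 + A * c ^ 2 + B * c + C = 0)
    (hd : d ^ 3 + A * d ^ 2 + B * d + C = 0) :
    (a - b) * (a - c) * (a - d) * (b - c) * (b - d) * (c - d) = 0 := by
  linear_combination (b - c) * (b - d) * (c - d) * ha - (a - c) * (a - d) * (c - d) * hb +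
    (a - b) * (a - d) * (b - d) * hc - (a - b) * (a - c) * (b - c) * hd

/-- A monomial frame of rank at least three. -/
structure Cf (P : Subgroup (GL ι F)) (μ : F) (e f : κ → ι → F) : Prop where
  two : (2 : F) = 0
  un : Un P
  pat : Pat P μ
  fr : Fr P μ e f
  card : 3 ≤ Fintype.card κ

namespace Cf

variable (C : Cf P μ e f)
include C

theorem char : CharP F 2 := (CharP.charP_iff_prime_eq_zero Nat.prime_two).2 (by simpa using C.two)

theorem zero (h : TT P e f u m η ν) : ν ⬝ᵥ m = η ⬝ᵥ u := by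
  have := h.fl.t.1
  rw [pair C.fr.dual h.l h.r] at this
  linear_combination this - η ⬝ᵥ u * C.two

theorem conj (h : TT P e f u m η ν) (h' : TT P e f u' m' η' ν') {a b : F}
    (ha : η' ⬝ᵥ u + ν' ⬝ᵥ m = a) (hb : η ⬝ᵥ u' + ν ⬝ᵥ m' = b) :
    TT P e f (u + a • u') (m + a • m') (η + b • η') (ν + b • ν') := by
  refine ⟨(h.fl.conj_tv h'.fl.t).congr ?_ ?_, by rw [co_add, co_smul, h.l, h'.l]; simp,
    by rw [co_add, co_smul, h.r, h'.r]; simp⟩
  · rw [pair C.fr.dual h.l h'.r, ha, vv_add, vv_smul]; module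
  · rw [pair C.fr.dual h'.l h.r, hb, vv_add, vv_smul]
    ext x
    simp only [Pi.add_apply, Pi.sub_apply, Pi.smul_apply, smul_eq_mul]
    linear_combination -(b * (vv f η' x + ν' x)) * C.two

theorem ax (h : TT P e f u m η ν) (h' : TT P e f u m η' ν') : η' = η ∧ ν' = ν := by
  have k := (C.un.ax _ _ _ h.fl h'.fl.t).resolve_left h'.fl.r
  have k1 := congrArg (co e) k
  rw [co_eq C.fr.dual.symm h.r, co_eq C.fr.dual.symm h'.r] at k1
  exact ⟨k1, by simpa [k1] using k⟩

theorem cen (h : TT P e f u m η ν) (h' : TT P e f u' m' η ν) : u' = u ∧ m' = m := by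
  have k := (C.un.cen _ _ _ h.fl h'.fl.t).resolve_left h'.fl.l
  have k1 := congrArg (co f) k
  rw [co_eq C.fr.dual h.l, co_eq C.fr.dual h'.l] at k1
  exact ⟨k1, by simpa [k1] using k⟩

theorem pat' (h : TT P e f u m η ν) (hij : i ≠ j) : u i * η i = u j * η j ∨
    (u i * η i = 1 ∧ u j = 0 ∧ η j = 0) ∨ (u j * η j = 1 ∧ u i = 0 ∧ η i = 0) := by
  have k1 : ∀ i, f i ⬝ᵥ (vv e u + m) = u i := congrFun (co_eq C.fr.dual h.l)
  have k2 : ∀ i, (vv f η + ν) ⬝ᵥ e i = η i := fun i =>
    (dotProduct_comm _ _).trans (congrFun (co_eq C.fr.dual.symm h.r) i)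
  simpa only [k1, k2] using C.pat e f C.fr C.card _ _ h.fl i j hij

theorem of_T (hij : i ≠ j) (h : T P (e i + l • e j) (f i + l⁻¹ • f j)) :
    TT P e f (Pi.single i 1 + Pi.single j l) 0 (Pi.single i 1 + Pi.single j l⁻¹) 0 :=
  ⟨⟨by simpa [vv_add, vv_single] using h,
    by rw [add_zero, Ne, C.fr.dual.vv_eq_zero]; exact fun k => by simpa [hij] using congrFun k i,
    by rw [add_zero, Ne, C.fr.dual.symm.vv_eq_zero]
       exact fun k => by simpa [hij] using congrFun k i⟩, co_zero f, co_zero e⟩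

theorem tw (hij : i ≠ j) (l0 : l ≠ 0) (hT : T P (e i + l • e j) (f i + l⁻¹ • f j))
    (h : TT P e f u m η ν) :
    TT P e f ((Pi.mulSingle i l⁻¹ * Pi.mulSingle j l) * u ∘ Equiv.swap i j) m
      ((Pi.mulSingle i l * Pi.mulSingle j l⁻¹) * η ∘ Equiv.swap i j) ν := by
  have := C.char
  refine (C.conj h (C.of_T hij hT) rfl rfl).congr (funext fun k => ?_) (by simp)
    (funext fun k => ?_) (by simp) <;>
  by_cases e1 : k = i <;> by_cases e2 : k = j <;>
    simp [e1, e2, hij, hij.symm, Equiv.swap_apply_of_ne_of_ne] <;> grind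

theorem perm (σ : Equiv.Perm κ) (h : TT P e f u m η ν) : TT P e f (u ∘ σ) m (η ∘ σ) ν := by
  induction σ using Equiv.Perm.swap_induction_on generalizing u η with
  | one => exact h
  | swap_mul σ i j hij ih =>
    exact ih (by simpa using C.tw hij one_ne_zero (by simpa using C.fr.one i j hij) h)

theorem lam_of (l0 : l ≠ 0) (hT : ∀ i j, i ≠ j → T P (e i + l • e j) (f i + l⁻¹ • f j)) :
    Lam P e f l := ⟨l0, fun i j hij u m η ν h => by
  refine (C.tw hij.symm l0 (hT j i hij.symm) (C.perm (Equiv.swap j i) h)).congr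
    (funext fun k => ?_) rfl (funext fun k => ?_) rfl <;>
  by_cases e1 : k = i <;> by_cases e2 : k = j <;> simp [e1, e2, hij, hij.symm]⟩

theorem lam : Lam P e f μ := C.lam_of C.fr.ne0 C.fr.mu

theorem two_TT (hij : i ≠ j) (hl : Lam P e f l) :
    TT P e f (Pi.single i 1 + Pi.single j l) 0 (Pi.single i 1 + Pi.single j l⁻¹) 0 := by
  obtain ⟨k, k1, k2⟩ := exists_third C.card i j
  refine ((C.of_T (l := 1) hij (by simpa using C.fr.one i j hij)).free (k := k)
    (d := Pi.mulSingle j l) (by simp [k1, k2]) (by simp [k1, k2]) fun x => ?_).congr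
    (funext fun x => ?_) rfl (funext fun x => ?_) rfl
  · by_cases e : x = j
    · simpa [e] using hl
    · simpa [e] using Lam.one
  all_goals by_cases e : x = j <;> simp [e, hij.symm]

theorem b1 (h : TT P e f u m η ν) (hij : i ≠ j) :
    (u i = 0 → u j = 0 → η i = 0) ∧ (η i = 0 → η j = 0 → u i = 0) := by
  have k := C.lam.2 i j hij _ _ _ _ h
  have := C.fr.ne0
  have := C.fr.ne1
  refine ⟨fun h1 h2 => ?_, fun h1 h2 => ?_⟩
  · have := congrFun (C.ax h (k.congr (funext fun x => ?_) rfl rfl rfl)).1 i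
    · simpa [hij, mul_left_eq_self₀, C.fr.ne1] using this
    · by_cases e1 : x = i <;> by_cases e2 : x = j <;> simp [e1, e2, h1, h2]
  · have := congrFun (C.cen h (k.congr rfl rfl (funext fun x => ?_) rfl)).1 i
    · simp [hij] at this; grind
    · by_cases e1 : x = i <;> by_cases e2 : x = j <;> simp [e1, e2, h1, h2]

theorem three (h : TT P e f u m η ν) (hij : i ≠ j) (hi : k ≠ i) (hj : k ≠ j) {p : F}
    (p0 : p ≠ 0) (h1 : u i * η i = p) (h2 : u j * η j = p) (h3 : u k * η k = p) (hl : Lam P e f l) :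
    (l * (u i * η j)) ^ 3 + (1 + p) * (l * (u i * η j)) ^ 2 + (p ^ 2 + p) * (l * (u i * η j)) +
      p ^ 3 = 0 := by
  have t := C.pat' (C.conj (C.two_TT hij hl) h (a := η i + l * η j) (b := u i + l⁻¹ * u j)
    (by simp [mul_comm]) (by simp)) hi
  simp only [Pi.add_apply, Pi.smul_apply, Pi.single_eq_of_ne hi, Pi.single_eq_of_ne hj,
    Pi.single_eq_same, Pi.single_eq_of_ne hij, smul_eq_mul, add_zero, zero_add] at t
  have l1 := mul_inv_cancel₀ hl.1
  generalize l⁻¹ = l' at t l1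
  have e1 : (1 + (η i + l * η j) * u i) * (1 + (u i + l' * u j) * η i) =
      1 + (η i + l * η j) * (u i + l' * u j) +
        (η i + l * η j) * u k * ((u i + l' * u j) * η k) := by grind
  have e2 : (η i + l * η j) * (u i + l' * u j) * (l * (u i * η j)) = (l * (u i * η j) + p) ^ 2 := by
    grind
  generalize (η i + l * η j) * (u i + l' * u j) = x at e1 e2
  generalize l * (u i * η j) = z at e2
  have key : x = 1 ∨ x = 0 := t.imp (fun t => by linear_combination -e1 - t - C.two) fun t =>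
    t.elim (fun t => by linear_combination (1 + (u i + l' * u j) * η i) * t.2.1 - e1 - t.1 - C.two)
      fun t => by linear_combination t.1 - e1 - (u i + l' * u j) * η k * t.2.1
  rcases key with rfl | rfl
  · linear_combination -(z + p) * e2 + (z ^ 2 + p * z - p * z ^ 2 - p ^ 2 * z) * C.two
  · rw [zero_mul, eq_comm, sq_eq_zero_iff] at e2
    linear_combination (z ^ 2 + z + p ^ 2) * e2

theorem three' (h : TT P e f u m η ν) (hij : i ≠ j) (hi : k ≠ i) (hj : k ≠ j) {p : F}
    (p0 : p ≠ 0) (h1 : u i * η i = p) (h2 : u j * η j = p) (h3 : u k * η k = p) :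
    μ ^ 2 + μ + 1 = 0 ∧ p = 1 ∧ u i ^ 3 = u j ^ 3 := by
  have := C.char
  have μ0 := C.fr.ne0
  have μ1 := C.fr.ne1
  have t := fun n => C.three h hij hi hj p0 h1 h2 h3 (C.lam.pow n)
  have r0 : u i * η j ≠ 0 := by grind
  have k := cubic4 (t 0) (t 1) (t 2) (t 3)
  have μ2 : μ ^ 2 ≠ 1 := fun e => μ1 (by
    rw [← sub_eq_zero, ← sq_eq_zero_iff]; linear_combination e + (1 - μ) * C.two)
  have w : μ ^ 2 + μ + 1 = 0 := by
    generalize u i * η j = r at k r0
    have : r ^ 6 * μ ^ 4 * (μ - 1) ^ 4 * (μ ^ 2 - 1) ^ 2 * (μ ^ 2 + μ + 1) = 0 := by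
      linear_combination k
    simpa [r0, μ0, sub_eq_zero, μ1, μ2] using this
  have t0 := t 0
  have t1 := t 1
  have t2 := t 2
  have : p = 1 ∧ (u i * η j) ^ 3 = 1 := by
    generalize u i * η j = r at t0 t1 t2 r0
    grind
  grind

theorem tb (h : TT P e f u m η ν) (k : κ) : u k * η k = 1 ∨ (u k = 0 ∧ η k = 0) := by
  by_cases hp : ∀ i j, u i * η i = u j * η j
  · obtain ⟨i, i1, -⟩ := exists_third C.card k k
    obtain ⟨j, j1, j2⟩ := exists_third C.card k i
    by_cases p0 : u k * η k = 0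
    · have := hp i k
      have := hp j k
      have := C.b1 h i1
      have := C.b1 h i1.symm
      have := C.b1 h j1
      have := C.b1 h j1.symm
      have := C.b1 h j2
      have := C.b1 h j2.symm
      grind
    · exact Or.inl (C.three' h j2 j1.symm i1.symm p0 (hp _ _) (hp _ _) rfl).2.1
  · push Not at hp
    obtain ⟨i, j, hp⟩ := hp
    have := C.pat' h (i := i) (j := j) (by rintro rfl; exact hp rfl)
    by_cases e1 : k = i
    · grind
    by_cases e2 : k = j
    · grind
    have := C.pat' h e1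
    have := C.pat' h e2
    grind

theorem eta (h : TT P e f u m η ν) : η = u⁻¹ := funext fun k => by
  rcases C.tb h k with e | ⟨e, e'⟩
  · exact eq_inv_of_mul_eq_one_right e
  · simp [e, e']

end Cf

end Cfsg.Lib.Tv45.Fm
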