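import Cfsg.Agent.Tv45.Defs

/-!
# The transvection theorem: a copy of `SL₃(2)` grows to `SL_n(2)`
-/

set_option autoImplicit false

namespace Cfsg.Lib.Tv45

open Matrix Cfsg.Geo Cfsg.Lib.Class Cfsg.Lib.Class.Asch Cfsg.Lib.Mit
open scoped MatrixGroups

universe u

namespace S2

variable {ι : Type} [Fintype ι] [DecidableEq ι] {F : Type u} [Field F] {P : Subgroup (GL ι F)}
  {κ : Type} [Fintype κ] [DecidableEq κ] {e f : κ → ι → F} {a b c m y φ φ' ψ χ : ι → F}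

/-- The prime field in characteristic two. -/
def bits (h2 : (2 : F) = 0) : Subfield F where
  carrier := {x | x = 0 ∨ x = 1}
  zero_mem' := .inl rfl
  one_mem' := .inr rfl
  mul_mem' := by rintro _ _ (rfl | rfl) (rfl | rfl) <;> simp
  add_mem' := by rintro _ _ (rfl | rfl) (rfl | rfl) <;> simp [one_add_one_eq_two, h2]
  neg_mem' := by
    rintro _ (rfl | rfl)
    · simp
    · exact .inr (by linear_combination -h2)
  inv_mem' := by rintro _ (rfl | rfl) <;> simp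

/-- The additive group generated by a family. -/
def U (e : κ → ι → F) : AddSubgroup (ι → F) := AddSubgroup.closure (Set.range e)

/-- The centres common to all axes of a family. -/
def A (P : Subgroup (GL ι F)) (f : κ → ι → F) : Set (ι → F) := {m | ∀ j, T P m (f j)}

omit [Fintype ι] [DecidableEq ι] [Fintype κ] [DecidableEq κ] in
theorem mem_U (i : κ) : e i ∈ U e := AddSubgroup.subset_closure ⟨i, rfl⟩

omit [Fintype κ] [DecidableEq κ] in
theorem A.t (h : m ∈ A P f) (hφ : φ ∈ U f) : T P m φ := by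
  induction hφ using AddSubgroup.closure_induction with
  | mem _ k => obtain ⟨j, rfl⟩ := k; exact h j
  | zero => exact T.zero_right P m
  | add _ _ _ _ k1 k2 => exact k1.add_right k2
  | neg _ _ k => exact k.neg_right

theorem three_bits (h2 : (2 : F) = 0) {x₁ x₂ x₃ y₁ y₂ y₃ : F} (h1 : x₁ ∈ bits h2)
    (h3 : x₂ ∈ bits h2) (h4 : x₃ ∈ bits h2) (k1 : y₁ ∈ bits h2) (k3 : y₂ ∈ bits h2)
    (k4 : y₃ ∈ bits h2) : ∃ s₁ ∈ bits h2, ∃ s₂ ∈ bits h2, ∃ s₃ ∈ bits h2,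
      (s₁ = 1 ∨ s₂ = 1 ∨ s₃ = 1) ∧ s₁ * x₁ + s₂ * x₂ + s₃ * x₃ = 0 ∧
        s₁ * y₁ + s₂ * y₂ + s₃ * y₃ = 0 := by
  have z := (bits h2).zero_mem
  have o := (bits h2).one_mem
  have t : (1 : F) + 1 = 0 := one_add_one_eq_two.trans h2
  rcases h1 with rfl | rfl <;> rcases h3 with rfl | rfl <;> rcases h4 with rfl | rfl <;>
    rcases k1 with rfl | rfl <;> rcases k3 with rfl | rfl <;> rcases k4 with rfl | rfl <;>
    first
      | refine ⟨1, o, 0, z, 0, z, ?_⟩; simp [t]; done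
      | refine ⟨0, z, 1, o, 0, z, ?_⟩; simp [t]; done
      | refine ⟨0, z, 0, z, 1, o, ?_⟩; simp [t]; done
      | refine ⟨1, o, 1, o, 0, z, ?_⟩; simp [t]; done
      | refine ⟨1, o, 0, z, 1, o, ?_⟩; simp [t]; done
      | refine ⟨0, z, 1, o, 1, o, ?_⟩; simp [t]; done
      | refine ⟨1, o, 1, o, 1, o, ?_⟩; simp [t]; done

theorem conic4 [Finite F] (hC : WCon.{u}) (h2 : (2 : F) = 0) (hs : Small P) (ha : Fl P a φ)
    (hb : Fl P b ψ) (e1 : φ ⬝ᵥ b ≠ 0) (e2 : ψ ⬝ᵥ a ≠ 0) (h : ∀ m, T P m φ → ψ ⬝ᵥ m = 0 → m = 0)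
    (hy : T P y φ) (hχ : T P a χ) (e3 : χ ⬝ᵥ y ≠ 0) :
    (ψ ⬝ᵥ y) ^ 2 + ψ ⬝ᵥ y * ψ ⬝ᵥ a + (ψ ⬝ᵥ a) ^ 2 = 0 := by
  obtain ⟨K, m, -, -, m2, -, k1, k2⟩ := hC h2 hs ha hb e1 e2 h hy (right_ne e3)
    (fun k => e3 (k ▸ hχ.1))
  obtain ⟨s, hs', rfl⟩ := k2 y hy
  have p1 := (hs.pairing ha hy hχ).resolve_left e3
  have p2 := hs.pairing ha (k1 _ (pow_mem hs' 2)) hχ
  simp only [dotProduct_add, dotProduct_smul, smul_eq_mul, hχ.1, m2, mul_zero, zero_add,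
    add_zero] at p1 p2 ⊢
  have : CharP F 2 := (CharP.charP_iff_prime_eq_zero Nat.prime_two).2 (by exact_mod_cast h2)
  rcases p2 with p2 | p2 <;> grind

/-- A frame of elementary transvections. -/
structure Fm (P : Subgroup (GL ι F)) (e f : κ → ι → F) : Prop where
  two : (2 : F) = 0
  small : Small P
  dual : Dual e f
  t : ∀ i j, i ≠ j → T P (e i) (f j)
  three : 2 < Fintype.card κ

namespace Fm

variable (h : Fm P e f)
include h

theorem dl : Fm (dl P) f e :=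
  ⟨h.two, h.small.dl, h.dual.symm, fun i j k => T_dl.2 (h.t j i k.symm), h.three⟩

theorem add_self (v : ι → F) : v + v = 0 := by rw [← two_smul F, h.two, zero_smul]

theorem val (ha : a ∈ U e) (hφ : φ ∈ U f) : φ ⬝ᵥ a ∈ bits h.two := by
  induction hφ using AddSubgroup.closure_induction with
  | mem _ k =>
    obtain ⟨j, rfl⟩ := k
    induction ha using AddSubgroup.closure_induction with
    | mem _ k =>
      obtain ⟨i, rfl⟩ := k
      rw [h.dual j i]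
      split_ifs
      exacts [one_mem _, zero_mem _]
    | zero => rw [dotProduct_zero]; exact zero_mem _
    | add _ _ _ _ k1 k2 => rw [dotProduct_add]; exact add_mem k1 k2
    | neg _ _ k => rw [dotProduct_neg]; exact neg_mem k
  | zero => rw [zero_dotProduct]; exact zero_mem _
  | add _ _ _ _ k1 k2 => rw [add_dotProduct]; exact add_mem k1 k2
  | neg _ _ k => rw [neg_dotProduct]; exact neg_mem k

theorem smul_mem {s : F} (hs : s ∈ bits h.two) (ha : a ∈ U e) : s • a ∈ U e := by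
  rcases hs with rfl | rfl
  · rw [zero_smul]; exact zero_mem _
  · rwa [one_smul]

theorem vv_mem {u : κ → F} (hu : ∀ i, u i ∈ bits h.two) : vv e u ∈ U e :=
  sum_mem fun i _ => h.smul_mem (hu i) (mem_U i)

theorem fix (ha : a ∈ U e) : vv e (co f a) = a := by
  induction ha using AddSubgroup.closure_induction with
  | mem _ k =>
    obtain ⟨i, rfl⟩ := k
    have := vv_single (e := e) i (1 : F)
    rw [one_smul] at this
    rw [← this, h.dual.co_vv]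
  | zero => rw [show co f 0 = 0 from funext fun i => dotProduct_zero _, vv_zero]
  | add x y _ _ k1 k2 =>
    rw [show co f (x + y) = co f x + co f y from funext fun i => dotProduct_add _ _ _, vv_add, k1, k2]
  | neg x _ k =>
    rw [← neg_one_smul F x, show co f ((-1 : F) • x) = (-1 : F) • co f x from
      funext fun i => dotProduct_smul _ _ _, vv_smul, k]

theorem dot_fix (hφ : φ ∈ U f) (v : ι → F) : φ ⬝ᵥ vv e (co f v) = φ ⬝ᵥ v := by
  rw [dot_vv, ← vv_dot, h.dl.fix hφ]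

theorem nd (hφ : φ ∈ U f) (h0 : φ ≠ 0) : ∃ i, φ ⬝ᵥ e i = 1 := by
  by_contra! k
  refine h0 ((h.dl.fix hφ).symm.trans ?_)
  rw [show co e φ = 0 from funext fun i => (dotProduct_comm _ _).trans
    ((h.val (mem_U i) hφ).resolve_right (k i)), vv_zero]

theorem t_left {i : κ} (ha : a ∈ U e) (k : f i ⬝ᵥ a = 0) : T P a (f i) := by
  rw [← h.fix ha]
  refine Finset.sum_induction _ (T P · (f i)) (fun _ _ => T.add_left) (T.zero_left P _) fun j _ => ?_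
  by_cases ij : j = i
  · rw [ij, co, k, zero_smul]; exact T.zero_left P _
  · rcases h.val ha (mem_U j) with k | k <;> rw [co, k]
    · rw [zero_smul]; exact T.zero_left P _
    · rw [one_smul]; exact h.t j i ij

theorem tv (ha : a ∈ U e) (hφ : φ ∈ U f) (k : φ ⬝ᵥ a = 0) : T P a φ := by
  by_cases a0 : a = 0
  · rw [a0]; exact T.zero_left P _
  obtain ⟨i, hi⟩ := h.dl.nd ha a0
  rw [dotProduct_comm] at hi
  have h1 := h.t_left (i := i) (sub_mem ha (mem_U i)) (by rw [dotProduct_sub, hi, h.dual.same, sub_self])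
  have h2 := T_dl.1 (h.dl.t_left (i := i)
    (sub_mem hφ (h.dl.smul_mem (h.val (mem_U i) hφ) (mem_U i))) (by
      rw [dotProduct_comm, sub_dotProduct, smul_dotProduct, h.dual.same, smul_eq_mul, mul_one,
        sub_self]))
  refine (h2.conj_tv h1).congr (by rw [h.dual.same, one_smul, add_sub_cancel]) ?_
  simp [dotProduct_sub, sub_dotProduct, hi, k, h.dual.same]

theorem sep (hφ : φ ∈ U f) (hφ' : φ' ∈ U f) (h0 : φ ≠ 0) (h1 : φ ≠ φ') :
    ∃ a ∈ U e, φ ⬝ᵥ a = 1 ∧ φ' ⬝ᵥ a = 0 := by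
  obtain ⟨i, hi⟩ := h.nd hφ h0
  obtain ⟨j, hj⟩ := h.nd (sub_mem hφ hφ') (sub_ne_zero.2 h1)
  rw [sub_dotProduct] at hj
  rcases h.val (mem_U i) hφ' with k | k
  · exact ⟨_, mem_U i, hi, k⟩
  rcases h.val (mem_U j) hφ' with k' | k'
  · exact ⟨_, mem_U j, by rwa [k', sub_zero] at hj, k'⟩
  · exact ⟨_, add_mem (mem_U i) (mem_U j), by
      rw [dotProduct_add]; linear_combination hi + hj + k' + h.two, by
      rw [dotProduct_add]; linear_combination k + k' + h.two⟩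

theorem ne_zero {i j k : κ} (ij : i ≠ j) (ik : i ≠ k) (jk : j ≠ k) {s₁ s₂ s₃ : F}
    (hs : s₁ = 1 ∨ s₂ = 1 ∨ s₃ = 1) : s₁ • e i + s₂ • e j + s₃ • e k ≠ 0 := fun z => by
  have h1 := congrArg (f i ⬝ᵥ ·) z
  have h2 := congrArg (f j ⬝ᵥ ·) z
  have h3 := congrArg (f k ⬝ᵥ ·) z
  simp [h.dual _ _, ij, ik, jk, ij.symm, ik.symm, jk.symm] at h1 h2 h3
  simp [h1, h2, h3] at hs

theorem kill2 (hφ : φ ∈ U f) (hφ' : φ' ∈ U f) : ∃ a ∈ U e, a ≠ 0 ∧ φ ⬝ᵥ a = 0 ∧ φ' ⬝ᵥ a = 0 := by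
  obtain ⟨i, j, k, ij, ik, jk⟩ := Fintype.two_lt_card_iff.1 h.three
  obtain ⟨s₁, h1, s₂, h2, s₃, h3, h4, h5, h6⟩ := three_bits h.two (h.val (mem_U i) hφ)
    (h.val (mem_U j) hφ) (h.val (mem_U k) hφ) (h.val (mem_U i) hφ') (h.val (mem_U j) hφ')
    (h.val (mem_U k) hφ')
  exact ⟨_, add_mem (add_mem (h.smul_mem h1 (mem_U i)) (h.smul_mem h2 (mem_U j)))
    (h.smul_mem h3 (mem_U k)), h.ne_zero ij ik jk h4, by simpa using h5, by simpa using h6⟩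

theorem pair (ha : a ∈ U e) : ∃ φ ∈ U f, ∃ φ' ∈ U f, φ ≠ 0 ∧ φ' ≠ 0 ∧ φ + φ' ≠ 0 ∧
    φ ⬝ᵥ a = 0 ∧ φ' ⬝ᵥ a = 0 := by
  obtain ⟨φ, h1, h2, h3, -⟩ := h.dl.kill2 ha ha
  obtain ⟨i, hi⟩ := h.nd h1 h2
  obtain ⟨φ', k1, k2, k3, k4⟩ := h.dl.kill2 ha (mem_U i)
  rw [dotProduct_comm] at h3 k3 k4
  exact ⟨φ, h1, φ', k1, h2, k2, left_ne (a := e i) (by simp [hi, k4]), h3, k3⟩

theorem mem_A (h1 : ∀ j, f j ⬝ᵥ m = 0) (hφ : φ ∈ U f) (h0 : φ ≠ 0) (hm : T P m φ) : m ∈ A P f :=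
  fun j => by
    by_cases k : φ = f j
    · exact k ▸ hm
    obtain ⟨a, ha, a1, a2⟩ := h.sep hφ (mem_U j) h0 k
    simpa [a1] using hm.comm' (h.t_left ha a2) (h1 j)

theorem lc (hφ : φ ∈ U f) (h0 : φ ≠ 0) (hy : T P y φ) : ∃ a ∈ U e, y - a ∈ A P f := by
  have k := h.vv_mem (u := co f y) fun j => by
    obtain ⟨a, ha, a0, a1, a2⟩ := h.kill2 hφ (mem_U j)
    exact h.small _ _ ⟨h.tv ha hφ a1, a0, h0⟩ _ (hy.comm (h.t_left ha a2) a1)
  exact ⟨_, k, h.mem_A (fun j => by rw [dotProduct_sub, h.dot_fix (mem_U j), sub_self]) hφ h0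
    (hy.sub_left (h.tv k hφ ((h.dot_fix hφ y).trans hy.1)))⟩

theorem kill_of (hc : Fl P c χ) (ha : a ∈ U e) (a0 : a ≠ 0) (k : χ ⬝ᵥ a = 0) :
    ∃ φ ∈ U f, φ ≠ 0 ∧ φ ⬝ᵥ c = 0 := by
  by_contra! n
  obtain ⟨φ, h1, φ', h2, h3, h4, h5, h6, h7⟩ := h.pair ha
  have := (h.small.eq a0 hc.r (hc.t.comm (h.tv ha h1 h6) k) (hc.t.comm (h.tv ha h2 h7) k)
    (n _ h1 h3)).resolve_left (n _ h2 h4)
  exact n _ (add_mem h1 h2) h5 (by rw [add_dotProduct, this, ← two_mul, h.two, zero_mul])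

variable [Finite F] (hC : WCon.{u})
include hC

theorem kill (hc : Fl P c χ) : ∃ φ ∈ U f, φ ≠ 0 ∧ φ ⬝ᵥ c = 0 := by
  by_contra! n
  have n' {a} (ha : a ∈ U e) (a0 : a ≠ 0) : χ ⬝ᵥ a ≠ 0 := fun k => by
    obtain ⟨φ, h1, h2, h3⟩ := h.kill_of hc ha a0 k
    exact n φ h1 h2 h3
  have o (i) : f i ⬝ᵥ e i ≠ 0 := by rw [h.dual.same]; exact one_ne_zero
  have two {i j k} (ij : i ≠ j) (ik : i ≠ k) (jk : j ≠ k) : χ ⬝ᵥ e j + χ ⬝ᵥ e k ≠ 0 := by
    simpa using n' (add_mem (mem_U j) (mem_U k))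
      (by simpa using h.ne_zero (s₁ := 0) (s₂ := 1) (s₃ := 1) ij ik jk (by simp))
  have key {i j k} (ij : i ≠ j) (ik : i ≠ k) (jk : j ≠ k) :
      (χ ⬝ᵥ e k) ^ 2 + χ ⬝ᵥ e k * χ ⬝ᵥ e j + (χ ⬝ᵥ e j) ^ 2 = 0 := by
    have c1 := n _ (mem_U i) (left_ne (o i))
    refine conic4 hC h.two h.small ⟨h.t j i ij.symm, right_ne (o j), left_ne (o i)⟩ hc c1
      (n' (mem_U j) (right_ne (o j))) (fun m hm m1 => by_contra fun m0 => two ij ik jk ?_)
      (h.t k i ik.symm) (h.t j k jk) (o k)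
    have p := h.small.x_eq_one (h.t j i ij.symm) hc.t hm m0 m1 c1 (n' (mem_U j) (right_ne (o j)))
    have q := h.small.x_eq_one (h.t k i ik.symm) hc.t hm m0 m1 c1 (n' (mem_U k) (right_ne (o k)))
    rw [mul_left_cancel₀ c1 (p.trans q.symm), ← two_mul, h.two, zero_mul]
  obtain ⟨i, j, k, ij, ik, jk⟩ := Fintype.two_lt_card_iff.1 h.three
  have p := n' (add_mem (add_mem (mem_U i) (mem_U j)) (mem_U k))
    (by simpa using h.ne_zero (s₁ := 1) (s₂ := 1) (s₃ := 1) ij ik jk (by simp))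
  rw [dotProduct_add, dotProduct_add] at p
  refine mul_ne_zero (two ik.symm jk.symm ij) p ?_
  linear_combination key ij ik jk + key ij.symm jk ik +
    (χ ⬝ᵥ e i * χ ⬝ᵥ e j - (χ ⬝ᵥ e k) ^ 2) * h.two

theorem main (hc : Fl P c χ) {v : ι → F} (hv : v ∈ (U e : Set (ι → F)) ∪ A P f) (k : χ ⬝ᵥ v ≠ 0) :
    ∃ s : F, s ≠ 0 ∧ ∃ a ∈ U e, s • c - a ∈ A P f := by
  suffices ∃ φ ∈ U f, φ ≠ 0 ∧ φ ⬝ᵥ c = 0 ∧ ∃ y, T P y φ ∧ χ ⬝ᵥ y ≠ 0 by
    obtain ⟨φ, h1, h2, h3, y, h4, h5⟩ := this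
    exact ⟨_, h5, h.lc h1 h2 (h4.comm hc.t h3)⟩
  obtain ⟨φ₀, h1, h2, h3⟩ := h.kill hC hc
  rcases hv with hv | hv
  swap
  · exact ⟨φ₀, h1, h2, h3, v, A.t hv h1, k⟩
  by_contra! n
  have n0 {a} (ha : a ∈ U e) (e0 : φ₀ ⬝ᵥ a = 0) : χ ⬝ᵥ a = 0 := n _ h1 h2 h3 a (h.tv ha h1 e0)
  have v1 : φ₀ ⬝ᵥ v = 1 := (h.val hv h1).resolve_left fun e0 => k (n0 hv e0)
  have key {φ} (hφ : φ ∈ U f) (p0 : φ ≠ 0) (p1 : φ ⬝ᵥ v = 0) : φ ⬝ᵥ c * χ ⬝ᵥ v = 1 := by
    obtain ⟨a, ha, a1, a2⟩ := h.sep h1 hφ h2 fun z => by simp [z, p1] at v1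
    obtain ⟨b, hb, b0, b1, b2⟩ := h.kill2 hφ h1
    have a3 : χ ⬝ᵥ a = χ ⬝ᵥ v := sub_eq_zero.1 (by
      rw [← dotProduct_sub]; exact n0 (sub_mem ha hv) (by rw [dotProduct_sub, a1, v1, sub_self]))
    exact a3 ▸ h.small.x_eq_one (h.tv ha hφ a2) hc.t (h.tv hb hφ b1) b0 (n0 hb b2)
      (fun z => k (a3 ▸ n _ hφ p0 z a (h.tv ha hφ a2))) (a3 ▸ k)
  obtain ⟨φ, k1, φ', k2, k3, k4, k5, k6, k7⟩ := h.pair hv
  have := key (add_mem k1 k2) k5 (by rw [add_dotProduct, k6, k7, add_zero])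
  rw [add_dotProduct, add_mul, key k1 k3 k6, key k2 k4 k7] at this
  simp at this

theorem span_eq (H : Hy P) : Submodule.span F ((U e : Set (ι → F)) ∪ A P f) = ⊤ := by
  obtain ⟨i, -⟩ := Fintype.two_lt_card_iff.1 h.three
  refine H.span_eq_top ⟨e i, .inl (mem_U i), right_ne (φ := f i) (by simp [h.dual.same])⟩
    fun c χ hc v hv => ?_
  by_cases k : χ ⬝ᵥ v = 0
  · simp [k]
  obtain ⟨s, s0, a, ha, hm⟩ := h.main hC hc hv k
  refine Submodule.smul_mem _ _ ((Submodule.smul_mem_iff _ s0).1 ?_)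
  rw [← sub_add_cancel (s • c) a]
  exact add_mem (Submodule.subset_span (.inr hm)) (Submodule.subset_span (.inl ha))

theorem A_eq (H : Hy P) (hx : ∀ m ∈ A P f, ∀ ν ∈ A (Tv45.dl P) e, m ⬝ᵥ ν = 0) (hm : m ∈ A P f) :
    m = 0 :=
  eq_zero_of_span (h.dl.span_eq hC H.dl) fun v hv =>
    hv.elim (fun k => (dotProduct_comm _ _).trans (A.t hm k).1) (hx m hm v)

theorem span_U (H : Hy P) (hx : ∀ m ∈ A P f, m = 0) :
    Submodule.span F (U e : Set (ι → F)) = ⊤ :=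
  eq_top_iff.2 ((h.span_eq hC H).ge.trans (Submodule.span_le.2 fun v hv =>
    hv.elim (fun k => Submodule.subset_span k) fun k => hx v k ▸ zero_mem _))

theorem cen (H : Hy P) (hx : ∀ m ∈ A P f, m = 0) (hc : Fl P c χ) :
    ∃ s : F, s ≠ 0 ∧ ∃ a ∈ U e, c = s • a := by
  obtain ⟨v, hv, k⟩ : ∃ v ∈ U e, χ ⬝ᵥ v ≠ 0 := by
    by_contra! k
    exact hc.r (eq_zero_of_span (h.span_U hC H hx) k)
  obtain ⟨s, s0, a, ha, hm⟩ := h.main hC hc (.inl hv) k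
  exact ⟨s⁻¹, inv_ne_zero s0, a, ha, by
    rw [← sub_eq_zero.1 (hx _ hm), smul_smul, inv_mul_cancel₀ s0, one_smul]⟩

omit [Finite F] hC in
theorem mem_all (h1 : Submodule.span F (U f : Set (ι → F)) = ⊤) (h2 : bits h.two = ⊤) (v : ι → F) :
    v ∈ U e := by
  have := eq_zero_of_span (φ := v - vv e (co f v)) h1 fun φ hφ => by
    rw [dotProduct_comm, dotProduct_sub, h.dot_fix hφ, sub_self]
  rw [sub_eq_zero.1 this]
  exact h.vv_mem fun _ => h2 ▸ trivial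

theorem fin (H : Hy P) (hN : NoSub P) (hx : ∀ m ∈ A P f, ∀ ν ∈ A (Tv45.dl P) e, m ⬝ᵥ ν = 0) :
    P = specialLinear ι F := by
  have x1 : ∀ m ∈ A P f, m = 0 := fun m => h.A_eq hC H hx
  have x2 : ∀ m ∈ A (Tv45.dl P) e, m = 0 := fun m => h.dl.A_eq hC H.dl fun ν hν m hm =>
    (dotProduct_comm _ _).trans (hx m (dl_dl (P := P) ▸ hm) ν hν)
  have s1 := h.span_U hC H x1
  have s2 := h.dl.span_U hC H.dl x2
  have top := eq_top_of_rat hN (bits h.two) s1 s2 (fun c hc χ hχ => h.val hc hχ) fun K hK =>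
    H.gen K fun c χ hc => by
      obtain ⟨s, s0, a, ha, rfl⟩ := h.cen hC H x1 hc
      obtain ⟨t, t0, φ, hφ, rfl⟩ := h.dl.cen hC H.dl x2 (Fl_dl.2 hc)
      have k : φ ⬝ᵥ a = 0 := by simpa [s0, t0] using hc.t.1
      have p := (T.smul_iff t).2 hc.t
      rw [← tv_smul_left]
      rw [smul_smul] at p ⊢
      exact hK a ha φ hφ _ (h.small _ _ ⟨h.tv ha hφ k, right_ne_zero_of_smul hc.l,
        right_ne_zero_of_smul hc.r⟩ _ p) k
  exact eq_SL H.le_SL fun a φ k => h.tv (h.mem_all s2 top a) (h.dl.mem_all s1 top φ) k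

omit [Finite F] hC in
theorem ext {ν : ι → F} (hm : m ∈ A P f) (hν : ν ∈ A (Tv45.dl P) e) (k : m ⬝ᵥ ν ≠ 0) :
    Fm P (fun o : Option κ => o.elim m e) fun o => o.elim ν f := by
  obtain ⟨i, j, -, ij, -⟩ := Fintype.two_lt_card_iff.1 h.three
  have o (i) : f i ⬝ᵥ e i ≠ 0 := by rw [h.dual.same]; exact one_ne_zero
  rw [dotProduct_comm] at k
  have k1 := (h.small _ _ ⟨h.t i j ij, right_ne (o i), left_ne (o j)⟩ _
    ((hm j).comm (T_dl.1 (hν i)) (h.dual.ne ij.symm))).resolve_left k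
  refine ⟨h.two, h.small, ?_, ?_, by rw [Fintype.card_option]; exact h.three.trans (lt_add_one _)⟩
  · rintro (_ | i) (_ | j)
    · simpa using k1
    · simpa using (T_dl.1 (hν j)).1
    · simpa using (hm i).1
    · simpa using h.dual i j
  · rintro (_ | i) (_ | j) n
    · exact absurd rfl n
    · exact hm j
    · exact T_dl.1 (hν i)
    · exact h.t i j fun z => n (congrArg _ z)

end Fm

theorem eq_of_fm [Finite F] (hC : WCon.{u}) (H : Hy P) (hN : NoSub P) (n : ℕ) :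
    ∀ {κ : Type} [Fintype κ] [DecidableEq κ] {e f : κ → ι → F}, Fm P e f →
      Fintype.card ι ≤ Fintype.card κ + n → P = specialLinear ι F := by
  induction n with
  | zero =>
    intro κ _ _ e f h hn
    refine h.fin hC H hN fun m hm ν hν => by_contra fun k => ?_
    have := (h.ext hm hν k).dual.card_le
    rw [Fintype.card_option] at this
    omega
  | succ n ih =>
    intro κ _ _ e f h hn
    by_contra hP
    refine hP (h.fin hC H hN fun m hm ν hν => by_contra fun k => hP (ih (h.ext hm hν k) ?_))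
    rw [Fintype.card_option]
    omega

end S2

theorem wSL_of (hC : WCon.{u}) : WSL.{u} := fun h2 H hN hs ⟨_, _, h1, h3⟩ =>
  S2.eq_of_fm hC H hN _ ⟨h2, hs, h1, h3, by simp⟩ (Nat.le_add_left _ _)

end Cfsg.Lib.Tv45
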