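import Cfsg.Agent.Tv45.Defs

/-!
# Transvection groups in characteristic two: a seed or the `3·A₆` configuration
-/

set_option autoImplicit false

namespace Cfsg.Lib.Tv45

open Matrix Cfsg.Geo Cfsg.Lib.Class Cfsg.Lib.Class.Asch Cfsg.Lib.Mit
open scoped MatrixGroups

universe u

variable {ι : Type} [Fintype ι] [DecidableEq ι] {F : Type u} [Field F] [Finite F]
  {P : Subgroup (GL ι F)} {a b m x y φ ψ χ μ : ι → F}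

/-- The conic lemma when the first centre has a second axis. -/
theorem conicF4 (hc : WCon.{u}) (h2 : (2 : F) = 0) (hs : Small P) (ha : Fl P a φ) (hb : Fl P b ψ)
    (e1 : φ ⬝ᵥ b ≠ 0) (e2 : ψ ⬝ᵥ a ≠ 0) (hk : ∀ m, T P m φ → ψ ⬝ᵥ m = 0 → m = 0) (hy : T P y φ)
    (hμ : T P a μ) (e3 : μ ⬝ᵥ y ≠ 0) :
    ∃ (K : Subfield F) (m : ι → F) (s : F), s ∈ K ∧ s ^ 2 + s = 1 ∧ y = s ^ 2 • a + m ∧
      φ ⬝ᵥ m = 0 ∧ ψ ⬝ᵥ m = 0 ∧ μ ⬝ᵥ m = 1 ∧ φ ⬝ᵥ b * ψ ⬝ᵥ a ∈ K ∧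
      (∀ t ∈ K, t ^ 2 + t = 0 ∨ t ^ 2 + t = 1) ∧ ∀ t ∈ K, T P (t ^ 2 • a + (t ^ 2 + t) • m) φ := by
  obtain ⟨K, m, -, m1, m2, k1, k2, k3⟩ := hc h2 hs ha hb e1 e2 hk hy (right_ne e3)
    (fun e => e3 (e ▸ hμ.1))
  obtain ⟨s, hs1, hs2⟩ := k3 y hy
  have val : ∀ t ∈ K, (t ^ 2 + t) * μ ⬝ᵥ m = 0 ∨ (t ^ 2 + t) * μ ⬝ᵥ m = 1 := fun t ht => by
    simpa only [dotProduct_add, dotProduct_smul, hμ.1, smul_eq_mul, mul_zero, zero_add] using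
      hs.pairing ha (k2 t ht) hμ
  have v1 : (s ^ 2 + s) * μ ⬝ᵥ m = 1 := (val s hs1).resolve_left fun e => e3 (by
    simpa only [hs2, dotProduct_add, dotProduct_smul, hμ.1, smul_eq_mul, mul_zero, zero_add]
      using e)
  have v2 : s ^ 2 + s = 1 := by
    rcases val _ (pow_mem hs1 2) with e | e
    · have : s ^ 2 + s = 0 := by
        linear_combination e - (s ^ 2 + s) * v1 + (s ^ 3 * μ ⬝ᵥ m) * h2
      rw [this, zero_mul] at v1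
      exact absurd v1 zero_ne_one
    · linear_combination e - (s ^ 2 + s) * v1 + (s ^ 3 * μ ⬝ᵥ m) * h2
  rw [v2, one_mul] at v1
  refine ⟨K, m, s, hs1, v2, by rw [hs2, v2, one_smul], m1, m2, v1, k1, fun t ht => ?_, k2⟩
  simpa only [v1, mul_one] using val t ht

/-- The ratio in the conic lemma is a primitive cube root of unity. -/
theorem conicF4_root (hc : WCon.{u}) (h2 : (2 : F) = 0) (hs : Small P) (ha : Fl P a φ)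
    (hb : Fl P b ψ) (e1 : φ ⬝ᵥ b ≠ 0) (e2 : ψ ⬝ᵥ a ≠ 0) (hk : ∀ m, T P m φ → ψ ⬝ᵥ m = 0 → m = 0)
    (hy : T P y φ) (hμ : T P a μ) (e3 : μ ⬝ᵥ y ≠ 0) :
    ∃ r : F, r ^ 2 + r + 1 = 0 ∧ ψ ⬝ᵥ y = r * ψ ⬝ᵥ a := by
  obtain ⟨K, m, s, -, s1, rfl, -, m2, -⟩ := conicF4 hc h2 hs ha hb e1 e2 hk hy hμ e3
  exact ⟨s ^ 2, by linear_combination (s ^ 2 + s + 1) * s1 + (1 - s ^ 3) * h2, by simp [m2]⟩

omit [Finite F] in
theorem seed_cen (h2 : (2 : F) = 0) (hs : Small P) (hx : T P x φ) (ha : T P a φ) (hb : T P b χ)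
    (e1 : φ ⬝ᵥ b = 1) (e2 : χ ⬝ᵥ x ≠ 0) (hm : T P m φ) (m0 : m ≠ 0) (e : χ ⬝ᵥ m = 0) :
    χ ⬝ᵥ x = 1 ∧ ∃ m, T P m φ ∧ χ ⬝ᵥ m = 0 ∧ ∀ ν : ι → F, ν ⬝ᵥ x = 0 → ν ⬝ᵥ m = ν ⬝ᵥ a := by
  have k : χ ⬝ᵥ x = 1 := by simpa [e1] using hs.x_eq_one hx hb hm m0 e (by simp [e1]) e2
  refine ⟨k, ?_⟩
  by_cases h : χ ⬝ᵥ a = 0
  · exact ⟨a, ha, h, fun _ _ => rfl⟩
  · have k' : χ ⬝ᵥ a = 1 := by simpa [e1] using hs.x_eq_one ha hb hm m0 e (by simp [e1]) h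
    exact ⟨a + x, ha.add_left hx, by rw [dotProduct_add, k, k']; linear_combination h2,
      fun ν hν => by simp [hν]⟩

omit [Finite F] in
theorem seed_both (h2 : (2 : F) = 0) (hs : Small P) (hx : T P x φ) (ha : T P a φ) (hψ : T P x ψ)
    (e0 : ψ ⬝ᵥ a = 1) (hb : T P b χ) (e1 : φ ⬝ᵥ b = 1) (e2 : χ ⬝ᵥ x ≠ 0) (hm : T P m φ)
    (m0 : m ≠ 0) (e : χ ⬝ᵥ m = 0) (hμ : T P x μ) (μ0 : μ ≠ 0) (e' : μ ⬝ᵥ b = 0) : Seed P := by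
  obtain ⟨k, m, m1, m2, m3⟩ := seed_cen h2 hs hx ha hb e1 e2 hm m0 e
  obtain ⟨-, μ, n1, n2, n3⟩ := seed_cen h2 hs.dl (T_dl.2 hx) (T_dl.2 hψ) (T_dl.2 hb)
    (dotProduct_comm χ x ▸ k) (by simp [dotProduct_comm b φ, e1]) (T_dl.2 hμ) μ0
    (dotProduct_comm μ b ▸ e')
  rw [T_dl] at n1
  rw [dotProduct_comm] at n2
  have n4 : μ ⬝ᵥ m = 1 := by
    rw [dotProduct_comm, n3 m (dotProduct_comm φ m ▸ m1.1), dotProduct_comm, m3 ψ hψ.1, e0]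
  have t1 : T P b μ := by simpa [k] using n1.comm hb n2
  have t2 : T P m χ := by simpa [e1] using m1.comm' hb m2
  refine ⟨![x, m, b], ![χ, μ, φ], fun i j => ?_, fun i j hij => ?_⟩
  · fin_cases i <;> fin_cases j <;> simp [k, m2, hb.1, n1.1, n4, n2, hx.1, m1.1, e1]
  · fin_cases i <;> fin_cases j <;> simp_all

theorem seed_one (hc : WCon.{u}) (h2 : (2 : F) = 0) (hs : Small P) (hx : Fl P x φ) (ha : T P a φ)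
    (hψ : T P x ψ) (e0 : ψ ⬝ᵥ a = 1) (hb : Fl P b χ) (e1 : φ ⬝ᵥ b = 1) (e2 : χ ⬝ᵥ x ≠ 0)
    (hm : T P m φ) (m0 : m ≠ 0) (e : χ ⬝ᵥ m = 0) (hk : ∀ μ, T P x μ → μ ⬝ᵥ b = 0 → μ = 0) :
    Sig P := by
  obtain ⟨k, m, m1, m2, m3⟩ := seed_cen h2 hs hx.t ha hb.t e1 e2 hm m0 e
  have m4 : ψ ⬝ᵥ m = 1 := by rw [m3 ψ hψ.1, e0]
  obtain ⟨w, w1, w2⟩ := conicF4_root hc h2 hs.dl (Fl_dl.2 hx) (Fl_dl.2 hb)
    (dotProduct_comm χ x ▸ e2) (by simp [dotProduct_comm b φ, e1])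
    (fun μ h h' => hk μ (T_dl.1 h) (dotProduct_comm b μ ▸ h')) (T_dl.2 hψ) (T_dl.2 m1)
    (by simp [dotProduct_comm m ψ, m4])
  rw [dotProduct_comm b, dotProduct_comm b, e1, mul_one] at w2
  have t2 : T P m χ := by simpa [e1] using m1.comm' hb.t m2
  have ww : w + w = 0 := by linear_combination w * h2
  refine ⟨![x, m, b + w • m], ![χ, ψ, φ], w, fun i j => ?_, w1, hψ, t2, hx.t, m1, ?_⟩
  · fin_cases i <;> fin_cases j <;> simp [k, m2, hb.t.1, hψ.1, m4, hx.t.1, m1.1, e1, w2, ww]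
  · refine hb.t.congr ?_ rfl
    change b = b + w • m + w • m
    rw [add_assoc, ← add_smul, ww, zero_smul, add_zero]

theorem seed_one' (hc : WCon.{u}) (h2 : (2 : F) = 0) (hs : Small P) (hx : Fl P x φ)
    (ha : T P a φ) (hψ : T P x ψ) (e0 : ψ ⬝ᵥ a = 1) (hb : Fl P b χ) (e1 : φ ⬝ᵥ b ≠ 0)
    (e2 : χ ⬝ᵥ x ≠ 0) (hμ : T P x μ) (μ0 : μ ≠ 0) (e : μ ⬝ᵥ b = 0)
    (hk : ∀ m, T P m φ → χ ⬝ᵥ m = 0 → m = 0) : Sig (dl P) := by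
  refine seed_one hc h2 hs.dl (Fl_dl.2 hx) (T_dl.2 hψ) (T_dl.2 ha) (dotProduct_comm ψ a ▸ e0)
    ((Fl_dl.2 hb).scale (inv_ne_zero e2)) (by simp [dotProduct_comm x χ, e2])
    (by simp [dotProduct_comm b φ, e1, e2]) (T_dl.2 hμ) μ0 (by simp [dotProduct_comm b μ, e])
    fun m h h' => hk m (T_dl.1 h) ?_
  simpa [dotProduct_comm m χ, e2] using h'

theorem seed_none (hc : WCon.{u}) (h2 : (2 : F) = 0) (hs : Small P) (hx : Fl P x φ)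
    (ha : T P a φ) (hψ : T P x ψ) (e0 : ψ ⬝ᵥ a = 1) (hb : Fl P b χ) (e1 : φ ⬝ᵥ b = 1)
    (e2 : χ ⬝ᵥ x ≠ 0) (hk : ∀ m, T P m φ → χ ⬝ᵥ m = 0 → m = 0)
    (hk' : ∀ μ, T P x μ → μ ⬝ᵥ b = 0 → μ = 0) : Sig (dl P) := by
  obtain ⟨K, m, s, s1, s2, -, m1, m2, m3, k1, k2, k3⟩ := conicF4 hc h2 hs hx hb (by simp [e1]) e2
    hk ha hψ (by simp [e0])
  obtain ⟨w, w1, w2⟩ := conicF4_root hc h2 hs.dl (Fl_dl.2 hx) (Fl_dl.2 hb)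
    (dotProduct_comm χ x ▸ e2) (by simp [dotProduct_comm b φ, e1])
    (fun μ h h' => hk' μ (T_dl.1 h) (dotProduct_comm b μ ▸ h')) (T_dl.2 hψ) (T_dl.2 ha)
    (by simp [dotProduct_comm a ψ, e0])
  rw [dotProduct_comm b, dotProduct_comm b, e1, mul_one] at w2
  rw [e1, one_mul] at k1
  obtain ⟨k, hk0⟩ : ∃ k, χ ⬝ᵥ x = k := ⟨_, rfl⟩
  rw [hk0] at k1 e2
  have k3' : k ^ 3 = 1 := by
    rcases k2 k k1 with e | e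
    · have : k = 1 := mul_left_cancel₀ e2 (by linear_combination e - k * h2)
      rw [this, one_pow]
    · linear_combination (k + 1) * e - (k ^ 2 - 1) * h2 - h2
  have wK : w ∈ K := by
    rcases mul_eq_zero.1 (show (w - s) * (w - (s + 1)) = 0 by
      linear_combination w1 + s2 - (w * s + w) * h2) with e | e
    · exact sub_eq_zero.1 e ▸ s1
    · exact sub_eq_zero.1 e ▸ add_mem s1 (one_mem K)
  obtain ⟨μ, u, u1, u2, u3, u4, u5, u6⟩ : ∃ (μ : ι → F) (u : F), T P x μ ∧ u ∈ K ∧ u + k ≠ 0 ∧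
      μ ⬝ᵥ b = u ∧ μ ⬝ᵥ m = 1 ∧ μ ⬝ᵥ a = 1 := by
    by_cases h : w + k = 0
    · exact ⟨ψ + φ, w + 1, hψ.add_right hx.t, add_mem wK (one_mem K),
        fun e => one_ne_zero (by linear_combination e - h : (1 : F) = 0), by simp [w2, e1],
        by simp [m3, m1], by simp [e0, ha.1]⟩
    · exact ⟨ψ, w, hψ, wK, h, w2, m3, e0⟩
  obtain ⟨r, hr⟩ : ∃ r, r = (k * (u + k))⁻¹ := ⟨_, rfl⟩
  have r1 : r ∈ K := hr ▸ inv_mem (mul_mem k1 (add_mem u2 k1))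
  have r2 : r * (k * (u + k)) = 1 := hr ▸ inv_mul_cancel₀ (mul_ne_zero e2 u3)
  have r0 : r ≠ 0 := left_ne_zero_of_mul_eq_one r2
  have t := ((k3 r r1).conj_tv hb.t).conj_tv (k3 k k1)
  simp only [dotProduct_add, dotProduct_smul, sub_dotProduct, smul_dotProduct, hx.t.1, m1, m2, hk0,
    e1, smul_eq_mul, mul_zero, add_zero, zero_add, mul_one, one_mul, zero_sub] at t
  have t' : T P ((r ^ 2 * k) • b + (r + r ^ 2 * k ^ 2) • m) χ := t.congr (by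
    ext i
    simp only [Pi.add_apply, Pi.smul_apply, smul_eq_mul]
    linear_combination (r ^ 2 * (x i + m i)) * k3' + (r ^ 2 * (x i + m i)) * h2) (by
    ext i
    simp only [Pi.sub_apply, Pi.smul_apply, smul_eq_mul]
    linear_combination (φ i) * k3' + (φ i - χ i) * h2)
  have e3 : φ ⬝ᵥ ((r ^ 2 * k) • b + (r + r ^ 2 * k ^ 2) • m) ≠ 0 := by simp [e1, m1, r0, e2]
  refine seed_one' hc h2 hs hx ha hψ e0 ⟨t', right_ne e3, hb.r⟩ e3 (hk0 ▸ e2) u1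
    (left_ne (a := a) (by simp [u6])) ?_ hk
  simp only [dotProduct_add, dotProduct_smul, u4, u5, smul_eq_mul]
  linear_combination r * r2 + r * h2

theorem wSeed_of (hc : WCon.{u}) : WSeed.{u} := fun {ι _ _ F _ _ P} h2 H hs hn => by
  simp only [NS, not_forall] at hn
  obtain ⟨a, φ, x₀, ψ₀, ha, hx₀, e, e'⟩ := hn
  have hx : Fl P ((ψ₀ ⬝ᵥ a) • x₀) φ := ⟨ha.t.comm hx₀.t e, smul_ne_zero e' hx₀.l, ha.r⟩
  have hψ := hx₀.t.scale e'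
  have e0 : ((ψ₀ ⬝ᵥ a)⁻¹ • ψ₀) ⬝ᵥ a = 1 := by simp [e']
  obtain ⟨b₀, χ₀, hb₀, e1, e2⟩ := H.exists_opp hx
  have hb := hb₀.scale (inv_ne_zero e1)
  have e1' : φ ⬝ᵥ (φ ⬝ᵥ b₀)⁻¹ • b₀ = 1 := by simp [e1]
  have e2' : ((φ ⬝ᵥ b₀)⁻¹⁻¹ • χ₀) ⬝ᵥ (ψ₀ ⬝ᵥ a) • x₀ ≠ 0 := by
    rw [smul_dotProduct]
    exact smul_ne_zero (by simp [e1]) e2
  generalize (ψ₀ ⬝ᵥ a) • x₀ = x at *
  generalize (ψ₀ ⬝ᵥ a)⁻¹ • ψ₀ = ψ at *
  generalize (φ ⬝ᵥ b₀)⁻¹ • b₀ = b at *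
  generalize (φ ⬝ᵥ b₀)⁻¹⁻¹ • χ₀ = χ at *
  by_cases hk : ∀ m, T P m φ → χ ⬝ᵥ m = 0 → m = 0 <;>
    by_cases hk' : ∀ μ, T P x μ → μ ⬝ᵥ b = 0 → μ = 0
  · exact Or.inr (Or.inr (seed_none hc h2 hs hx ha.t hψ e0 hb e1' e2' hk hk'))
  · simp only [not_forall] at hk'
    obtain ⟨μ, h1, h3, h4⟩ := hk'
    exact Or.inr (Or.inr (seed_one' hc h2 hs hx ha.t hψ e0 hb (by simp [e1']) e2' h1 h4 h3 hk))
  · simp only [not_forall] at hk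
    obtain ⟨m, h1, h3, h4⟩ := hk
    exact Or.inr (Or.inl (seed_one hc h2 hs hx ha.t hψ e0 hb e1' e2' h1 h4 h3 hk'))
  · simp only [not_forall] at hk hk'
    obtain ⟨m, h1, h3, h4⟩ := hk
    obtain ⟨μ, k1, k3, k4⟩ := hk'
    exact Or.inl (seed_both h2 hs hx.t ha.t hψ e0 hb.t e1' e2' h1 h4 h3 k1 k4 k3)

end Cfsg.Lib.Tv45
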