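import Cfsg.Agent.Tv45.Seed

/-!
# The `3·A₆` configuration forces dimension three
-/

set_option autoImplicit false

namespace Cfsg.Lib.Tv45

open Matrix Cfsg.Geo Cfsg.Lib.Class Cfsg.Lib.Class.Asch Cfsg.Lib.Mit
open scoped MatrixGroups

universe u

variable {ι : Type} [Fintype ι] [DecidableEq ι] {F : Type u} [Field F]
  {P : Subgroup (GL ι F)} {c m v v' χ η : ι → F} {e f : Fin 3 → ι → F} {w l : F}

/-- The data of the configuration `Sig`. -/
structure SigD (P : Subgroup (GL ι F)) (e f : Fin 3 → ι → F) (w : F) : Prop where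
  two : (2 : F) = 0
  small : Small P
  dual : Dual e f
  root : w ^ 2 + w + 1 = 0
  t01 : T P (e 0) (f 1)
  t10 : T P (e 1) (f 0)
  t02 : T P (e 0) (f 2)
  t12 : T P (e 1) (f 2)
  t20 : T P (e 2 + w • e 1) (f 0)

namespace SigD

theorem ne0 (h : SigD P e f w) : w ≠ 0 := fun e => by simpa [e] using h.root

theorem ne1 (h : SigD P e f w) : w ≠ 1 := fun e =>
  one_ne_zero (by linear_combination h.root - h.two - (w + 2) * e : (1 : F) = 0)

theorem e_ne (h : SigD P e f w) (i : Fin 3) : e i ≠ 0 :=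
  right_ne (φ := f i) (by simp [h.dual.same])

theorem f_ne (h : SigD P e f w) (i : Fin 3) : f i ≠ 0 :=
  left_ne (a := e i) (by simp [h.dual.same])

theorem k1 (h : SigD P e f w) (m0 : m ≠ 0) (hm : ∀ i, f i ⬝ᵥ m = 0) (l0 : l ≠ 0)
    (t : T P m (l • f 1)) : False := by
  have t1 := t.comm' h.t10 (hm 0)
  have t2 := t.comm' h.t20 (hm 0)
  simp only [smul_dotProduct, dotProduct_add, dotProduct_smul, h.dual _ _] at t1 t2
  rcases h.small.eq' m0 (h.f_ne 0) t1 t2 (by simpa using l0) with k | k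
  · simp [l0, h.ne0] at k
  · simp [l0, h.ne1] at k

theorem k0 (h : SigD P e f w) (m0 : m ≠ 0) (hm : ∀ i, f i ⬝ᵥ m = 0) (l0 : l ≠ 0)
    (t : T P m (l • f 0)) : False :=
  h.k1 m0 hm l0 (by simpa [h.dual _ _] using t.comm' h.t01 (hm 1))

theorem L1 (h : SigD P e f w) (m0 : m ≠ 0) (hm : ∀ i, f i ⬝ᵥ m = 0) (t : T P m η) (i : Fin 3) :
    η ⬝ᵥ e i = 0 := by
  have a0 : η ⬝ᵥ e 0 = 0 := by_contra fun k => h.k1 m0 hm k (t.comm' h.t01 (hm 1))
  have a1 : η ⬝ᵥ e 1 = 0 := by_contra fun k => h.k0 m0 hm k (t.comm' h.t10 (hm 0))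
  have a2 : η ⬝ᵥ (e 2 + w • e 1) = 0 := by_contra fun k => h.k0 m0 hm k (t.comm' h.t20 (hm 0))
  fin_cases i
  · exact a0
  · exact a1
  · simpa [a1] using a2

theorem k0' (h : SigD P e f w) (η0 : η ≠ 0) (hη : ∀ i, η ⬝ᵥ e i = 0) (l0 : l ≠ 0)
    (t : T P (l • e 0) η) : False := by
  have t0 := t.comm h.t20 (by simp [hη])
  have t1 := t0.comm h.t02 (hη 0)
  have t2 := t0.comm h.t01 (hη 0)
  simp only [dotProduct_add, dotProduct_smul, h.dual _ _] at t1 t2
  rcases h.small.eq (h.e_ne 0) η0 t1 t2 (by simpa using l0) with k | k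
  · simp [l0, h.ne0] at k
  · simp [l0, h.ne1] at k

theorem L1' (h : SigD P e f w) (η0 : η ≠ 0) (hη : ∀ i, η ⬝ᵥ e i = 0) (t : T P m η) (i : Fin 3) :
    f i ⬝ᵥ m = 0 := by
  by_contra k
  fin_cases i
  · exact h.k0' η0 hη k (by simpa [h.dual _ _] using (t.comm h.t10 (hη 1)).comm h.t01 (hη 0))
  · exact h.k0' η0 hη k (t.comm h.t01 (hη 0))
  · exact h.k0' η0 hη k (t.comm h.t02 (hη 0))

theorem exists_j (h : SigD P e f w) :
    ∃ j ∈ P, ∀ v, (j : Matrix ι ι F) *ᵥ v = v + (w + 1) • vv e (co f v) := by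
  have m1 : T (res h.dual P) ![0, 1, 0] ![0, 0, 1] :=
    (T_res h.dual).2 (by simpa [vv, Fin.sum_univ_three] using h.t12)
  have m2 : T (res h.dual P) ![0, w, 1] ![1, 0, 0] :=
    (T_res h.dual).2 (by simpa [vv, Fin.sum_univ_three, add_comm] using h.t20)
  have m3 : T (res h.dual P) ![1, 0, 0] ![0, 1, 0] :=
    (T_res h.dual).2 (by simpa [vv, Fin.sum_univ_three] using h.t01)
  obtain ⟨g, hg, k⟩ : ∃ g ∈ res h.dual P, ∀ u, (g : Matrix (Fin 3) (Fin 3) F) *ᵥ u =
      ![u 0 + u 1, w ^ 2 * u 0 + w * u 1 + u 2, u 0 + u 1 + u 2] := by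
    refine ⟨_, mul_mem (mul_mem m1.2 m2.2) m3.2, fun u => ?_⟩
    rw [GL_mul_mulVec, GL_mul_mulVec, tv_mulVec m3.1, tv_mulVec m2.1, tv_mulVec m1.1]
    ext i
    fin_cases i <;> simp [dotProduct, Fin.sum_univ_three, vecHead, vecTail]
    · linear_combination (-(u 0)) * h.root + ((w + 1) * u 0 + u 1) * h.two
    · ring
  refine ⟨_, show upK h.dual (g * g * g * g) ∈ P from mul_mem (mul_mem (mul_mem hg hg) hg) hg,
    fun v => ?_⟩
  have k4 : ∀ u, ((g * g * g * g : GL (Fin 3) F) : Matrix (Fin 3) (Fin 3) F) *ᵥ u = w • u :=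
    fun u => by
    have h2 := h.two
    have h3 := h.root
    simp only [GL_mul_mulVec, k]
    ext i
    fin_cases i <;> simp <;> grind
  rw [upK_mulVec, k4, vv_smul]
  ext i
  simp only [Pi.add_apply, Pi.sub_apply, Pi.smul_apply, smul_eq_mul]
  linear_combination (-(vv e (co f v) i)) * h.two

theorem conj_j (h : SigD P e f w) (t : T P c η) :
    T P (c + (w + 1) • vv e (co f c)) (η + (w ^ 2 + 1) • vv f (co e η)) := by
  obtain ⟨j, hj, k⟩ := h.exists_j
  rw [← k]
  refine t.conj hj (sub_eq_zero.1 (eq_zero_of_dot fun v => ?_))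
  rw [sub_dotProduct, ← dotProduct_mulVec, k]
  have k1 : vv f (co e η) ⬝ᵥ v = co e η ⬝ᵥ co f v := vv_dot _ _
  have k2 : η ⬝ᵥ vv e (co f v) = co e η ⬝ᵥ co f v := dot_vv _ _
  simp only [dotProduct_add, add_dotProduct, dotProduct_smul, smul_dotProduct, h.dual.vv_dot_vv,
    smul_eq_mul, k1, k2]
  linear_combination (co e η ⬝ᵥ co f v) * (w + 1) * h.root + (co e η ⬝ᵥ co f v) * h.two

theorem L2 (h : SigD P e f w) {g : Fin 3 → F} (t : T P c (vv f g)) (g0 : vv f g ≠ 0) :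
    vv e (co f c) = c := by
  have h2 := h.two
  have h3 := h.root
  have t1 := h.conj_j t
  rw [h.dual.symm.co_vv] at t1
  have t2 : T P ((w ^ 2 + 1) • (c - vv e (co f c))) (vv f g) :=
    (((T.smul_iff (w ^ 2)).2 (t1.congr rfl (by
      ext i
      simp only [Pi.add_apply, Pi.smul_apply, smul_eq_mul]
      linear_combination (vv f g i) * h2))).add_left t).congr (by
      ext i
      simp only [Pi.add_apply, Pi.sub_apply, Pi.smul_apply, smul_eq_mul]
      grind) rfl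
  by_contra k
  have w1 : w ^ 2 + 1 ≠ 0 := fun k => h.ne0 (by linear_combination h3 - k)
  have := h.L1 (smul_ne_zero w1 (sub_ne_zero.2 (Ne.symm k))) (fun i => by
    have := congrFun (h.dual.co_vv (co f c)) i
    simp only [co] at this
    simp [this]) t2
  exact g0 (h.dual.symm.vv_eq_zero.2 (by
    rw [← h.dual.symm.co_vv g]
    exact funext fun i => (dotProduct_comm _ _).trans (this i)))

theorem L2' (h : SigD P e f w) {u : Fin 3 → F} (t : T P (vv e u) χ) (u0 : vv e u ≠ 0) :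
    vv f (co e χ) = χ := by
  have h2 := h.two
  have h3 := h.root
  have t1 := h.conj_j t
  rw [h.dual.co_vv] at t1
  have t2 : T P (vv e u) ((w + 1) • (χ - vv f (co e χ))) :=
    (((T.smul_iff w).1 (t1.congr (by
      ext i
      simp only [Pi.add_apply, Pi.smul_apply, smul_eq_mul]
      linear_combination (vv e u i) * h2) rfl)).add_right t).congr rfl (by
      ext i
      simp only [Pi.add_apply, Pi.sub_apply, Pi.smul_apply, smul_eq_mul]
      grind)
  by_contra k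
  have w1 : w + 1 ≠ 0 := fun k => h.ne1 (by linear_combination k - h2)
  have := h.L1' (smul_ne_zero w1 (sub_ne_zero.2 (Ne.symm k))) (fun i => by
    have := congrFun (h.dual.symm.co_vv (co e χ)) i
    simp only [co] at this
    simp [dotProduct_comm _ (e i), this]) t2
  exact u0 (h.dual.vv_eq_zero.2 (by rw [← h.dual.co_vv u]; exact funext this))

/-- For a transvection with centre outside the frame, incidence with the frame is symmetric. -/
theorem inc (h : SigD P e f w) (hc : Fl P c χ) (hn : vv e (co f c) ≠ c) {g : Fin 3 → F}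
    (g0 : vv f g ≠ 0) (t : T P v (vv f g)) (v0 : v ≠ 0) : vv f g ⬝ᵥ c = 0 ↔ χ ⬝ᵥ v = 0 := by
  have key : ∀ {s : F} {g : Fin 3 → F}, s ≠ 0 → vv f g ≠ 0 → T P (s • c) (vv f g) → False :=
    fun {s g} s0 g0 t => hn (smul_right_injective _ s0 (by
      have := h.L2 t g0
      change s • _ = s • _
      rw [← vv_smul, ← this]
      congr 1
      ext i
      simp [co]))
  refine ⟨fun k => by_contra fun k' => key k' g0 (t.comm hc.t k), fun k => by_contra fun k' => ?_⟩
  have t1 := t.comm' hc.t k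
  have e1 := h.L2 t g0
  have e2 := h.L2' (e1.symm ▸ t1) (e1.symm ▸ v0)
  refine key (inv_ne_zero k') (e2.symm ▸ smul_ne_zero k' hc.r) (e2.symm ▸ ?_)
  simpa using hc.t.scale (inv_ne_zero k')

theorem kill [Finite F] (hcon : WCon.{u}) (h : SigD P e f w) (hc : Fl P c χ)
    (hn : vv e (co f c) ≠ c) (i : Fin 3) : χ ⬝ᵥ e i = 0 := by
  have h2 := h.two
  have h3 := h.root
  have inc : ∀ (i : Fin 3) {v}, T P v (f i) → v ≠ 0 → (f i ⬝ᵥ c = 0 ↔ χ ⬝ᵥ v = 0) :=
    fun i v t v0 => by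
    have k : f i = vv f (Pi.single i 1) := by rw [vv_single, one_smul]
    rw [k] at t ⊢
    exact h.inc hc hn (k ▸ h.f_ne i) t v0
  have con : ∀ (i : Fin 3) {a y μ}, T P a (f i) → χ ⬝ᵥ a ≠ 0 → T P y (f i) → T P a μ →
      μ ⬝ᵥ y ≠ 0 → ∃ r : F, r ^ 2 + r + 1 = 0 ∧ χ ⬝ᵥ y = r * χ ⬝ᵥ a := fun i a y μ ta a0 ty tμ k =>
    conicF4_root hcon h2 h.small ⟨ta, right_ne a0, h.f_ne i⟩ hc
      (fun k => a0 ((inc i ta (right_ne a0)).1 k)) a0
      (fun m tm m0 => by_contra fun k => a0 ((inc i ta (right_ne a0)).1 ((inc i tm k).2 m0)))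
      ty tμ k
  have n2 : e 2 + w • e 1 ≠ 0 := right_ne (φ := f 2) (by simp [h.dual _ _])
  suffices a0 : χ ⬝ᵥ e 0 = 0 by
    have a1 := (inc 2 h.t12 (h.e_ne 1)).1 ((inc 2 h.t02 (h.e_ne 0)).2 a0)
    have a2 := (inc 0 h.t20 n2).1 ((inc 0 h.t10 (h.e_ne 1)).2 a1)
    fin_cases i
    · exact a0
    · exact a1
    · simpa [a1] using a2
  by_contra a0
  have t21 : T P (e 2 + w • e 0) (f 1) := by
    have := (h.t20.conj_tv h.t01).conj_tv h.t10
    simp only [dotProduct_add, dotProduct_smul, sub_dotProduct, smul_dotProduct, h.dual _ _] at this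
    refine this.congr ?_ ?_ <;> ext j <;> simp <;> grind
  obtain ⟨r, r1, r2⟩ := con 2 h.t02 a0 h.t12 h.t01 (by simp [h.dual _ _])
  have a1 : χ ⬝ᵥ e 1 ≠ 0 := r2 ▸ mul_ne_zero (fun k => by simp [k] at r1) a0
  obtain ⟨s, s1, s2⟩ := con 0 h.t10 a1 h.t20 h.t12 (by simp [h.dual _ _])
  obtain ⟨q, q1, q2⟩ := con 1 h.t01 a0 t21 h.t02 (by simp [h.dual _ _])
  simp only [dotProduct_add, dotProduct_smul, smul_eq_mul] at s2 q2
  have two : ∀ {x : F}, x ^ 2 + x + 1 = 0 → x = w ∨ x = w + 1 := fun {x} hx => by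
    simpa only [mul_eq_zero, sub_eq_zero] using
      (show (x - w) * (x - (w + 1)) = 0 by linear_combination hx + h3 - (x * w + x + 1) * h2)
  have a2 : χ ⬝ᵥ e 2 = 0 := by
    rcases two s1 with rfl | rfl
    · linear_combination s2
    rcases two q1 with rfl | rfl
    · linear_combination q2
    have : r = 1 := mul_right_cancel₀ a0 (by linear_combination q2 - s2 - r2)
    exact absurd (by linear_combination r1 - h2 - (r + 2) * this : (1 : F) = 0) one_ne_zero
  have t3 : T P (e 2 + r • e 0) (f 1) := by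
    rcases two r1 with rfl | rfl
    · exact t21
    · exact (t21.add_left h.t01).congr (by rw [add_smul, one_smul, add_assoc]) rfl
  have k : f 1 + f 2 = vv f ![0, 1, 1] := by simp [vv, Fin.sum_univ_three]
  have t4 : T P (e 2 + r • e 0 + e 1) (f 1 + f 2) := by
    have := t3.conj_tv h.t12
    simp only [dotProduct_add, dotProduct_smul, h.dual _ _] at this
    refine this.congr ?_ ?_
    · simp
    · ext j
      simp
      grind
  have g0 : f 1 + f 2 ≠ 0 := left_ne (a := e 1) (by simp [h.dual _ _])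
  have t5 := h.t01.add_right h.t02
  rw [k] at t4 t5 g0
  refine a0 ((h.inc hc hn g0 t5 (h.e_ne 0)).1 ((h.inc hc hn g0 t4
    (right_ne (φ := f 2) (by simp [h.dual _ _]))).2 ?_))
  simp only [dotProduct_add, dotProduct_smul, smul_eq_mul]
  linear_combination a2 + r2 + (r * χ ⬝ᵥ e 0) * h2

end SigD

theorem wSig_of (hc : WCon.{u}) : WSig.{u} := fun {ι _ _ F _ _ P} h2 H hs hS => by
  obtain ⟨e, f, w, k0, k1, k2, k3, k4, k5, k6⟩ := hS
  have h : SigD P e f w := ⟨h2, hs, k0, k1, k2, k3, k4, k5, k6⟩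
  have top := H.span_eq_top (S := Set.range e) ⟨e 0, ⟨0, rfl⟩, h.e_ne 0⟩ (by
    rintro c χ hχ _ ⟨i, rfl⟩
    by_cases hn : vv e (co f c) = c
    · rw [← hn]
      exact Submodule.smul_mem _ _ (sum_mem fun j _ =>
        Submodule.smul_mem _ _ (Submodule.subset_span ⟨j, rfl⟩))
    · simp [h.kill hc hχ hn i])
  have := finrank_range_le_card (R := F) e
  rwa [Set.finrank, top, finrank_top, Module.finrank_fintype_fun_eq_card, Fintype.card_fin] at this

end Cfsg.Lib.Tv45
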