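import Cfsg.Agent.Tv45.Base

/-!
# Groups generated by transvections: frames, opposite pairs, rationality, polarities
-/

set_option autoImplicit false

namespace Cfsg.Lib.Tv45

open Matrix Cfsg.Geo Cfsg.Lib.Class Cfsg.Lib.Class.Asch Cfsg.Lib.Mit
open scoped MatrixGroups

variable {ι : Type} [Fintype ι] [DecidableEq ι] {F : Type*} [Field F]
  {P : Subgroup (GL ι F)} {a b c m x φ ψ χ : ι → F}

section Frame

variable {κ : Type} [Fintype κ] [DecidableEq κ] {e f : κ → ι → F}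

/-- Dual families of vectors and functionals. -/
def Dual (e f : κ → ι → F) : Prop := ∀ i j, f i ⬝ᵥ e j = if i = j then 1 else 0

/-- The linear combination of the family `e` with coefficients `u`. -/
def vv (e : κ → ι → F) (u : κ → F) : ι → F := ∑ i, u i • e i

/-- The coordinates of `v` for the functionals `f`. -/
def co (f : κ → ι → F) (v : ι → F) : κ → F := fun i => f i ⬝ᵥ v

omit [Fintype κ] [DecidableEq ι] in
theorem Dual.same (h : Dual e f) (i : κ) : f i ⬝ᵥ e i = 1 := by simp [h i i]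

omit [Fintype κ] [DecidableEq ι] in
theorem Dual.ne (h : Dual e f) {i j : κ} (hij : i ≠ j) : f i ⬝ᵥ e j = 0 := by simp [h i j, hij]

omit [Fintype κ] [DecidableEq ι] in
theorem Dual.symm (h : Dual e f) : Dual f e := fun i j => by
  rw [dotProduct_comm, h j i]; simp [eq_comm]

omit [DecidableEq κ] [DecidableEq ι] in
theorem vv_dot (g : κ → F) (v : ι → F) : vv f g ⬝ᵥ v = g ⬝ᵥ co f v := by
  simp [vv, co, sum_dotProduct, dotProduct.eq_1 g]

omit [DecidableEq κ] [DecidableEq ι] in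
theorem dot_vv (φ : ι → F) (u : κ → F) : φ ⬝ᵥ vv e u = co e φ ⬝ᵥ u := by
  rw [dotProduct_comm, vv_dot, dotProduct_comm]

omit [DecidableEq ι] in
theorem Dual.co_vv (h : Dual e f) (u : κ → F) : co f (vv e u) = u := funext fun i => by
  simp [co, vv, dotProduct_sum, h i]

omit [DecidableEq ι] in
theorem Dual.vv_dot_vv (h : Dual e f) (g u : κ → F) : vv f g ⬝ᵥ vv e u = g ⬝ᵥ u := by
  rw [vv_dot, h.co_vv]

omit [Fintype ι] [DecidableEq κ] [DecidableEq ι] in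
theorem vv_add (u u' : κ → F) : vv e (u + u') = vv e u + vv e u' := by
  simp [vv, add_smul, Finset.sum_add_distrib]

omit [Fintype ι] [DecidableEq κ] [DecidableEq ι] in
theorem vv_smul (s : F) (u : κ → F) : vv e (s • u) = s • vv e u := by
  simp [vv, Finset.smul_sum, smul_smul]

omit [Fintype ι] [DecidableEq κ] [DecidableEq ι] in
theorem vv_zero : vv e (0 : κ → F) = 0 := by simp [vv]

omit [Fintype ι] [DecidableEq ι] in
theorem vv_single (i : κ) (s : F) : vv e (Pi.single i s) = s • e i := by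
  simp [vv, Pi.single_apply, ite_smul]

omit [DecidableEq ι] in
theorem Dual.vv_eq_zero (h : Dual e f) {u : κ → F} : vv e u = 0 ↔ u = 0 :=
  ⟨fun h0 => by rw [← h.co_vv u, h0]; ext i; simp [co], fun h0 => by rw [h0, vv_zero]⟩

omit [Fintype κ] [DecidableEq ι] in
theorem Dual.mul_eq_one (h : Dual e f) : Matrix.of f * (Matrix.of e)ᵀ = 1 := by
  ext i j
  rw [one_apply, ← h i j]
  rfl

omit [DecidableEq ι] in
theorem Dual.card_le (h : Dual e f) : Fintype.card κ ≤ Fintype.card ι := by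
  have := rank_mul_le_right (Matrix.of f) (Matrix.of e)ᵀ
  rw [h.mul_eq_one, rank_one] at this
  exact this.trans (rank_le_card_height _)

/-- A frame with as many members as the dimension is a basis. -/
theorem Dual.vv_co (h : Dual e f) (hc : Fintype.card κ = Fintype.card ι) (v : ι → F) :
    vv e (co f v) = v := by
  have := (mul_eq_one_comm_of_card_eq κ ι F hc).1 h.mul_eq_one
  have h2 := congrArg (· *ᵥ v) this
  simp only [← mulVec_mulVec, one_mulVec] at h2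
  refine Eq.trans ?_ h2
  ext i
  simp [vv, co, mulVec, dotProduct, mul_comm]

/-- The matrix acting as `M` on the span of `e` and trivially on the common kernel of `f`. -/
def upKM (h : Dual e f) : Matrix κ κ F →* Matrix ι ι F where
  toFun M := 1 + (Matrix.of e)ᵀ * (M - 1) * Matrix.of f
  map_one' := by simp
  map_mul' M N := by
    have : (Matrix.of e)ᵀ * (M - 1) * Matrix.of f * ((Matrix.of e)ᵀ * (N - 1) * Matrix.of f) =
        (Matrix.of e)ᵀ * ((M - 1) * (N - 1)) * Matrix.of f := by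
      simp only [Matrix.mul_assoc]
      rw [← Matrix.mul_assoc (Matrix.of f), h.mul_eq_one, Matrix.one_mul]
    rw [add_mul, mul_add, mul_add, this]
    simp only [Matrix.mul_sub, Matrix.sub_mul, Matrix.one_mul, Matrix.mul_one]
    abel

/-- The embedding `GL(κ) → GL(ι)` of a frame. -/
def upK (h : Dual e f) : GL κ F →* GL ι F := Units.map (upKM h)

theorem upK_mulVec (h : Dual e f) (M : GL κ F) (v : ι → F) : (upK h M : Matrix ι ι F) *ᵥ v =
    v + (vv e ((M : Matrix κ κ F) *ᵥ co f v) - vv e (co f v)) := by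
  have e1 : ∀ u, (Matrix.of e)ᵀ *ᵥ u = vv e u := fun u => by
    ext i; simp [vv, mulVec, dotProduct, mul_comm]
  change (1 + (Matrix.of e)ᵀ * ((M : Matrix κ κ F) - 1) * Matrix.of f) *ᵥ v = _
  rw [add_mulVec, one_mulVec, ← mulVec_mulVec, ← mulVec_mulVec, sub_mulVec, one_mulVec, mulVec_sub,
    e1, e1]
  rfl

theorem upK_tv (h : Dual e f) {u g : κ → F} (h0 : g ⬝ᵥ u = 0) :
    upK h (tv u g) = tv (vv e u) (vv f g) := GL_ext_mulVec fun v => by
  rw [upK_mulVec, tv_mulVec h0, tv_mulVec (by rw [h.vv_dot_vv, h0]), vv_add, vv_smul, vv_dot]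
  abel

/-- The restriction of `P` to a frame. -/
def res (h : Dual e f) (P : Subgroup (GL ι F)) : Subgroup (GL κ F) := P.comap (upK h)

theorem T_res (h : Dual e f) {u g : κ → F} : T (res h P) u g ↔ T P (vv e u) (vv f g) := by
  refine ⟨fun k => ⟨by rw [h.vv_dot_vv, k.1], upK_tv h k.1 ▸ k.2⟩, fun k => ?_⟩
  have h0 : g ⬝ᵥ u = 0 := by rw [← h.vv_dot_vv, k.1]
  exact ⟨h0, show upK h _ ∈ P from upK_tv h h0 ▸ k.2⟩

theorem Fl_res (h : Dual e f) {u g : κ → F} : Fl (res h P) u g ↔ Fl P (vv e u) (vv f g) :=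
  ⟨fun k => ⟨(T_res h).1 k.t, h.vv_eq_zero.not.2 k.l, h.symm.vv_eq_zero.not.2 k.r⟩,
    fun k => ⟨(T_res h).2 k.t, h.vv_eq_zero.not.1 k.l, h.symm.vv_eq_zero.not.1 k.r⟩⟩

theorem Small.res (hs : Small P) (h : Dual e f) : Small (res h P) := fun u _ k l hl =>
  hs _ _ ((Fl_res h).1 k) l (vv_smul (e := e) l u ▸ (T_res h).1 hl)

theorem NS.res (hs : NS P) (h : Dual e f) : NS (res h P) := fun u g u' g' k k' h0 => by
  rw [← h.vv_dot_vv] at h0 ⊢
  exact hs _ _ _ _ ((Fl_res h).1 k) ((Fl_res h).1 k') h0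

end Frame

/-! ### Opposite pairs -/

omit [DecidableEq ι] in
theorem dual_pair (ha : φ ⬝ᵥ a = 0) (hb : ψ ⬝ᵥ b = 0) (e1 : φ ⬝ᵥ b ≠ 0) (e2 : ψ ⬝ᵥ a ≠ 0) :
    Dual ![a, b] ![(ψ ⬝ᵥ a)⁻¹ • ψ, (φ ⬝ᵥ b)⁻¹ • φ] := fun i j => by
  fin_cases i <;> fin_cases j <;> simp [ha, hb, e1, e2]

/-- Dickson's lemma for an opposite pair; the last clause is the torus. -/
theorem pairT [Finite F] (ha : T P a φ) (hb : T P b ψ) (e1 : φ ⬝ᵥ b ≠ 0) (e2 : ψ ⬝ᵥ a ≠ 0)
    (hbig : Big P a φ) :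
    ∃ F₀ : Subfield F, (∀ c, T P (c • a) φ ↔ c ∈ F₀) ∧ (∀ c, T P (c • b) ψ ↔ c ∈ F₀) ∧
      (φ ⬝ᵥ b * ψ ⬝ᵥ a ∈ F₀ ∨ ((3 : F) = 0 ∧ (φ ⬝ᵥ b * ψ ⬝ᵥ a) ^ 2 = -1 ∧
        ∀ c ∈ F₀, c = 0 ∨ c = 1 ∨ c = -1)) ∧
      ∀ μ ∈ F₀, μ ≠ 0 → ∃ g ∈ P, ∀ v, (g : Matrix ι ι F) *ᵥ v =
        v + ((μ - 1) * (ψ ⬝ᵥ v / ψ ⬝ᵥ a)) • a + ((μ⁻¹ - 1) * (φ ⬝ᵥ v / φ ⬝ᵥ b)) • b := by
  have h := dual_pair ha.1 hb.1 e1 e2
  let Γ : Subgroup SL(2, F) := (res h P).comap SpecialLinearGroup.toGL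
  have A : ∀ c, slU (c * φ ⬝ᵥ b) ∈ Γ ↔ T P (c • a) φ := fun c => by
    have k : SpecialLinearGroup.toGL (slU (c * φ ⬝ᵥ b)) = tv ![c, 0] ![0, φ ⬝ᵥ b] :=
      Units.ext (by rw [tv_coe (by simp)]; ext i j; fin_cases i <;> fin_cases j <;> simp)
    have := T_res (P := P) h (u := ![c, 0]) (g := ![0, φ ⬝ᵥ b])
    simp only [vv, Fin.sum_univ_two, cons_val_zero, cons_val_one, zero_smul, add_zero, zero_add,
      smul_smul, mul_inv_cancel₀ e1, one_smul, zero_mul] at this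
    rw [← this, Subgroup.mem_comap, k]
    exact ⟨fun k => ⟨by simp, k⟩, fun k => k.2⟩
  have B : ∀ c, slV (c * ψ ⬝ᵥ a) ∈ Γ ↔ T P (c • b) ψ := fun c => by
    have k : SpecialLinearGroup.toGL (slV (c * ψ ⬝ᵥ a)) = tv ![0, c] ![ψ ⬝ᵥ a, 0] :=
      Units.ext (by rw [tv_coe (by simp)]; ext i j; fin_cases i <;> fin_cases j <;> simp)
    have := T_res (P := P) h (u := ![0, c]) (g := ![ψ ⬝ᵥ a, 0])
    simp only [vv, Fin.sum_univ_two, cons_val_zero, cons_val_one, zero_smul, add_zero, zero_add,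
      smul_smul, mul_inv_cancel₀ e2, one_smul, zero_mul] at this
    rw [← this, Subgroup.mem_comap, k]
    exact ⟨fun k => ⟨by simp, k⟩, fun k => k.2⟩
  obtain ⟨l, l0, l1, hl⟩ := hbig
  obtain ⟨F₀, h1, h2, h3, h4⟩ := pair Γ e1 e2 (by simpa using (A 1).2 (by simpa using ha))
    (by simpa using (B 1).2 (by simpa using hb)) ⟨l, l0, l1, (A l).2 hl⟩
  refine ⟨F₀, fun c => by rw [← h1, A], fun c => by rw [← h2, B], h3, fun μ hμ μ0 =>
    ⟨_, h4 μ hμ μ0, fun v => ?_⟩⟩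
  rw [upK_mulVec]
  simp [vv, co, Fin.sum_univ_two, mulVec, dotProduct.eq_1 (m := Fin 2), div_eq_inv_mul]
  module

theorem Big.opp [Finite F] (ha : T P a φ) (hb : T P b ψ) (e1 : φ ⬝ᵥ b ≠ 0) (e2 : ψ ⬝ᵥ a ≠ 0)
    (hbig : Big P a φ) : Big P b ψ := by
  obtain ⟨F₀, h1, h2, -⟩ := pairT ha hb e1 e2 hbig
  obtain ⟨l, l0, l1, hl⟩ := hbig
  exact ⟨l, l0, l1, (h2 l).2 ((h1 l).1 hl)⟩

/-! ### Rationality -/

theorem exists_GL_cols {S : Set (ι → F)} (h : Submodule.span F S = ⊤) :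
    ∃ g : GL ι F, ∀ j, (g : Matrix ι ι F) *ᵥ Pi.single j 1 ∈ S := by
  obtain ⟨B, hB, h1, h2⟩ := exists_linearIndependent F S
  let β : Module.Basis B F (ι → F) := Module.Basis.mk h2 (by simp [h1, h])
  let β' := β.reindex (β.indexEquiv (Pi.basisFun F ι))
  let g := (glLin ι F).symm ((Pi.basisFun F ι).equiv β' (Equiv.refl ι))
  refine ⟨g, fun j => hB ?_⟩
  have : (g : Matrix ι ι F) *ᵥ Pi.single j 1 = β' j := by
    rw [coe_glLin_symm_mulVec, ← Pi.basisFun_apply]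
    exact Module.Basis.equiv_apply _ _ _ _
  rw [this, Module.Basis.reindex_apply, Module.Basis.mk_apply]
  exact Subtype.prop _

/-- Centres and axes pairing into a subfield make the group rational over it. -/
theorem eq_top_of_rat (hN : NoSub P) (L : Subfield F) {S S' : Set (ι → F)}
    (h1 : Submodule.span F S = ⊤) (h2 : Submodule.span F S' = ⊤)
    (hv : ∀ c ∈ S, ∀ χ ∈ S', χ ⬝ᵥ c ∈ L)
    (hg : ∀ K : Subgroup (GL ι F),
      (∀ c ∈ S, ∀ χ ∈ S', ∀ k ∈ L, χ ⬝ᵥ c = 0 → tv (k • c) χ ∈ K) → P ≤ K) : L = ⊤ := by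
  obtain ⟨g, hg1⟩ := exists_GL_cols h1
  obtain ⟨g', hg2⟩ := exists_GL_cols h2
  have r1 : ∀ χ ∈ S', ∀ j, (χ ᵥ* (g : Matrix ι ι F)) j ∈ L := fun χ hχ j => by
    have := hv _ (hg1 j) χ hχ
    rwa [dotProduct_mulVec, dotProduct_single_one] at this
  let N : Matrix ι ι L := Matrix.of fun i j => ⟨_, r1 _ (hg2 i) j⟩
  have hN1 : N.map L.subtype = (g' : Matrix ι ι F)ᵀ * g := by
    ext i j
    simp [N, vecMul, Matrix.mul_apply, dotProduct]
  have hd : N.det ≠ 0 := fun e => by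
    have := congrArg L.subtype e
    rw [RingHom.map_det, RingHom.mapMatrix_apply, hN1, det_mul, det_transpose, map_zero] at this
    exact mul_ne_zero (GeneralLinearGroup.det_ne_zero g') (GeneralLinearGroup.det_ne_zero g) this
  have r2 : ∀ c ∈ S, ∀ i, (((g⁻¹ : GL ι F) : Matrix ι ι F) *ᵥ c) i ∈ L := fun c hc i => by
    let y : ι → L := fun i => ⟨_, hv c hc _ (hg2 i)⟩
    have e1 : N.map L.subtype *ᵥ (((g⁻¹ : GL ι F) : Matrix ι ι F) *ᵥ c) = L.subtype ∘ y := by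
      rw [hN1, ← mulVec_mulVec, GL_mulVec_inv_mulVec]
      ext j
      simp [y, mulVec, dotProduct, Pi.single_apply]
    have e2 : (N⁻¹).map L.subtype * N.map L.subtype = 1 := by
      rw [← Matrix.map_mul, nonsing_inv_mul _ hd.isUnit, Matrix.map_one _ (map_zero _) (map_one _)]
    have e3 := congrArg ((N⁻¹).map L.subtype *ᵥ ·) e1
    simp only [mulVec_mulVec, ← Matrix.mul_assoc, e2, Matrix.one_mul] at e3
    rw [e3, ← RingHom.map_mulVec]
    exact Subtype.prop _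
  let R : Subgroup (GL ι F) :=
    { carrier := {s | (∀ i j, s.1 i j ∈ L) ∧ ∀ i j, s⁻¹.1 i j ∈ L}
      one_mem' := by
        simp only [Set.mem_ofPred_eq, inv_one, and_self, Units.val_one, one_apply]
        intro i j
        split_ifs <;> simp
      mul_mem' := fun {s t} hs ht => ⟨fun i j => by
          rw [Units.val_mul, Matrix.mul_apply]
          exact sum_mem fun k _ => mul_mem (hs.1 _ _) (ht.1 _ _), fun i j => by
          rw [_root_.mul_inv_rev, Units.val_mul, Matrix.mul_apply]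
          exact sum_mem fun k _ => mul_mem (ht.2 _ _) (hs.2 _ _)⟩
      inv_mem' := fun {s} hs => ⟨hs.2, hs.1⟩ }
  have key : ∀ c ∈ S, ∀ χ ∈ S', ∀ k ∈ L, χ ⬝ᵥ c = 0 → ∀ i j,
      (g⁻¹ * tv (k • c) χ * g).1 i j ∈ L := fun c hc χ hχ k hk h0 i j => by
    rw [inv_conj_tv, tv_coe (by rw [← dotProduct_mulVec, GL_mulVec_inv_mulVec]; simp [h0]),
      Matrix.add_apply, vecMulVec_apply, one_apply, mulVec_smul]
    exact add_mem (by split_ifs <;> simp) (mul_mem (mul_mem hk (r2 c hc i)) (r1 χ hχ j))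
  by_contra hn
  refine hN L hn ⟨g⁻¹, ?_⟩
  rintro _ ⟨s, hs, rfl⟩ i j
  have := hg (R.comap (MulAut.conj g⁻¹).toMonoidHom) (fun c hc χ hχ k hk h0 =>
    ⟨by simpa using key c hc χ hχ k hk h0, by
      have := key c hc χ hχ (-k) (neg_mem hk) h0
      rw [neg_smul, ← tv_inv (by simp [h0])] at this
      simpa [mul_assoc] using this⟩) hs
  simpa using this.1 i j

/-! ### Polarities -/

/-- A skew `σ`-semilinear polarity. -/
structure Pol (σ : F ≃+* F) (J : (ι → F) → (ι → F)) : Prop where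
  invol : ∀ x, σ (σ x) = x
  add : ∀ u v, J (u + v) = J u + J v
  smul : ∀ (c : F) u, J (c • u) = σ c • J u
  skew : ∀ u v, J u ⬝ᵥ v = -σ (J v ⬝ᵥ u)
  inj : ∀ u, J u = 0 → u = 0

variable {σ : F ≃+* F} {J : (ι → F) → (ι → F)}

theorem exists_pol (hσ : ∀ x, σ (σ x) = x) (Y : Set ((ι → F) × (ι → F)))
    (h : ∀ p ∈ Y, ∀ q ∈ Y, p.2 ⬝ᵥ q.1 = -σ (q.2 ⬝ᵥ p.1))
    (h1 : Submodule.span F (Prod.fst '' Y) = ⊤) (h2 : Submodule.span F (Prod.snd '' Y) = ⊤) :
    ∃ J, Pol σ J ∧ ∀ p ∈ Y, J p.1 = p.2 := by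
  obtain ⟨g, hg⟩ := exists_GL_cols h1
  choose p hp hp' using hg
  let J : (ι → F) → (ι → F) := fun u =>
    (fun j => -σ ((p j).2 ⬝ᵥ u)) ᵥ* ((g⁻¹ : GL ι F) : Matrix ι ι F)
  have hJ : ∀ u j, J u ⬝ᵥ (p j).1 = -σ ((p j).2 ⬝ᵥ u) := fun u j => by
    rw [hp', vecMul_inv_dot_mulVec]; simp
  have ext : ∀ φ ψ : ι → F, (∀ j, φ ⬝ᵥ (p j).1 = ψ ⬝ᵥ (p j).1) → φ = ψ := fun φ ψ k => by
    rw [← GL_vecMul_vecMul_inv g φ, ← GL_vecMul_vecMul_inv g ψ]
    congr 1
    ext j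
    have := k j
    rwa [hp', dotProduct_mulVec, dotProduct_mulVec, dotProduct_single_one,
      dotProduct_single_one] at this
  have hY : ∀ q ∈ Y, J q.1 = q.2 := fun q hq => ext _ _ fun j => by rw [hJ, h q hq _ (hp j)]
  have add : ∀ u v, J (u + v) = J u + J v := fun u v => ext _ _ fun j => by
    simp only [hJ, add_dotProduct, dotProduct_add, map_add]; ring
  have smul : ∀ (c : F) u, J (c • u) = σ c • J u := fun c u => ext _ _ fun j => by
    simp only [hJ, smul_dotProduct, dotProduct_smul, smul_eq_mul, map_mul]; ring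
  have skew : ∀ u v, J u ⬝ᵥ v = -σ (J v ⬝ᵥ u) := fun u v => by
    have hv : v ∈ Submodule.span F (Prod.fst '' Y) := h1 ▸ trivial
    have hv' : v ∈ Submodule.span F (Set.range fun j => (p j).1) := by
      rw [← GL_mulVec_inv_mulVec g v, pi_eq_sum_univ' (((g⁻¹ : GL ι F) : Matrix ι ι F) *ᵥ v),
        mulVec_sum]
      exact sum_mem fun j _ => by
        rw [mulVec_smul]
        exact Submodule.smul_mem _ _ (Submodule.subset_span ⟨j, hp' j⟩)
    clear hv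
    induction hv' using Submodule.span_induction with
    | mem _ hx => obtain ⟨j, rfl⟩ := hx; rw [hJ, hY _ (hp j)]
    | zero => simpa using congrArg (fun w => σ (w ⬝ᵥ u)) (smul 0 0)
    | add _ _ _ _ k1 k2 => rw [dotProduct_add, k1, k2, add, add_dotProduct, map_add]; ring
    | smul c _ _ k1 =>
      rw [dotProduct_smul, k1, smul, smul_dotProduct, smul_eq_mul, smul_eq_mul, map_mul, hσ]; ring
  refine ⟨J, ⟨hσ, add, smul, skew, fun u hu => eq_zero_of_span h2 ?_⟩, hY⟩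
  rintro _ ⟨q, hq, rfl⟩
  rw [dotProduct_comm, ← hY q hq, skew, hu]
  simp

theorem Pol.tv_mem (h : Pol σ J) {k : F} (hk : σ k = k) (hc : J c ⬝ᵥ c = 0) :
    tv (k • c) (J c) ∈ isoms fun u v => J v ⬝ᵥ u := fun u v => by
  change J ((tv (k • c) (J c)).1 *ᵥ v) ⬝ᵥ ((tv (k • c) (J c)).1 *ᵥ u) = J v ⬝ᵥ u
  rw [tv_mulVec (by simp [hc]), tv_mulVec (by simp [hc])]
  simp only [h.add, h.smul, dotProduct_add, add_dotProduct, dotProduct_smul, smul_dotProduct,
    smul_eq_mul, hk, hc, h.skew v c]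
  ring

theorem vecMul_of_isoms {g : GL ι F} (hg : g ∈ isoms fun u v => J v ⬝ᵥ u) (v : ι → F) :
    J (g.1 *ᵥ v) ᵥ* g.1 = J v :=
  sub_eq_zero.1 (eq_zero_of_dot fun u => by
    rw [sub_dotProduct, ← dotProduct_mulVec]
    exact sub_eq_zero.2 (hg u v))

theorem Pol.fixA (h : Pol (RingEquiv.refl F) J) (alt : ∀ v, J v ⬝ᵥ v = 0)
    (hle : P ≤ isoms fun u v => J v ⬝ᵥ u) : FixA P := by
  refine ⟨fun u v => J v ⬝ᵥ u, ⟨⟨fun x y v => by simp, fun c x v => by simp,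
    fun v x y => by simp [h.add], fun c v x => by simp [h.smul]⟩, fun v w => h.skew w v, alt,
    fun v hv => ?_⟩, ?_⟩
  · have : ∃ x, J v ⬝ᵥ x ≠ 0 := by
      by_contra! hn
      exact hv (h.inj v (eq_zero_of_dot hn))
    obtain ⟨x, hx⟩ := this
    exact ⟨⟨x, hx⟩, x, by rw [h.skew]; simpa using hx⟩
  · rintro _ ⟨g, hg, rfl⟩ u v
    exact hle hg u v

theorem Pol.isSU [Finite F] (h : Pol σ J) (hσ : σ ≠ RingEquiv.refl F)
    (hle : P ≤ isoms fun u v => J v ⬝ᵥ u) (hSL : P ≤ specialLinear ι F)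
    (h3 : Fintype.card ι = 3 → ∃ a, σ a = a ∧ a ≠ 0 ∧ a ≠ 1)
    (cen : ∀ v, J v ⬝ᵥ v = 0 → ∀ l, σ l = l → T P v (l • J v)) : IsSU P := by
  obtain ⟨θ, θ0, θ1⟩ : ∃ θ : F, θ ≠ 0 ∧ σ θ = -θ := by
    obtain ⟨y, hy⟩ : ∃ y, σ y ≠ y := by
      by_contra! hn
      exact hσ (RingEquiv.ext hn)
    exact ⟨σ y - y, sub_ne_zero.2 hy, by rw [map_sub, h.invol]; ring⟩
  have hf : IsSesq σ 1 fun u v => θ * J v ⬝ᵥ u :=
    ⟨h.invol, by simp, fun x y v => by simp [mul_add], fun c x v => by simp [mul_left_comm],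
      fun u v => by rw [h.skew, map_mul, θ1]; ring, fun v hv =>
        h.inj v (eq_zero_of_dot fun f => by simpa [θ0] using hv f)⟩
  refine ⟨σ, _, hf.isUnitaryForm hσ, le_antisymm (le_inf (fun g hg u v =>
    congrArg (θ * ·) (hle hg u v)) hSL) ?_⟩
  rintro g ⟨g1, g2⟩
  have H := hf.herm_toSesq hσ
  have := (H.transvGroup_eq_sIsom fun e => h3 (by simpa using e)).ge
    (show (⟨glLin ι F g, fun u v => g1 v u⟩ : Form.isomGroup hf.toSesq) ∈
      Form.sIsom hf.toSesq from (det_glLin g).trans g2)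
  simpa using (Subgroup.closure_le (K := P.comap ((glLin ι F).symm.toMonoidHom.comp
    (Form.isomGroup hf.toSesq).subtype))).2 (fun t ht => by
      obtain ⟨v, hv, s, hs, rfl⟩ := ht.eq_transv H
      have hv' : J v ⬝ᵥ v = 0 := (mul_eq_zero.1 hv).resolve_left θ0
      have := cen v hv' (s * θ) (by
        rw [map_mul, θ1, show σ s = -s from eq_neg_of_add_eq_zero_right hs]; ring)
      change (glLin ι F).symm _ ∈ P
      convert this.2 using 1
      refine GL_ext_mulVec fun y => ?_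
      rw [coe_glLin_symm_mulVec, tv_mulVec this.1]
      refine (H.transv_apply v hv s hs y).trans ?_
      rw [smul_dotProduct, smul_eq_mul, mul_assoc]
      rfl) this

theorem eq_SL (h : P ≤ specialLinear ι F) (hT : ∀ a φ : ι → F, φ ⬝ᵥ a = 0 → T P a φ) :
    P = specialLinear ι F :=
  le_antisymm h (ker_det_le_of_elementary _ fun i j hij s => (hT _ _ (by simp [hij.symm])).2)

end Cfsg.Lib.Tv45
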