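import Cfsg.Agent.Tv45.Conic

/-!
# Uniqueness of centres and axes, and the symplectic case
-/

set_option autoImplicit false

namespace Cfsg.Lib.Tv45

open Matrix Cfsg.Geo Cfsg.Lib.Class Cfsg.Lib.Class.Asch Cfsg.Lib.Mit
open scoped MatrixGroups

universe u

variable {ι : Type} [Fintype ι] [DecidableEq ι] {F : Type u} [Field F]
  {P : Subgroup (GL ι F)} {a b c y φ ψ χ : ι → F}

theorem NS.inj (h : NS P) (ha : Fl P a φ) (hb : Fl P b ψ) (e : φ ⬝ᵥ b ≠ 0) (m : ι → F)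
    (hm : T P m φ) (e' : ψ ⬝ᵥ m = 0) : m = 0 :=
  by_contra fun m0 => e (h _ _ _ _ hb ⟨hm, m0, ha.r⟩ e')

/-- Two opposite transvections seeing a second centre differently. -/
theorem NS.two_opp [Finite F] (h : NS P) (h2 : (2 : F) = 0) (hs : Small P) (ha : Fl P a φ)
    (hy : T P y φ) (y0 : y ≠ 0) (ya : y ≠ a) (hb : Fl P b ψ) (e1 : φ ⬝ᵥ b ≠ 0) (hc : Fl P c χ)
    (e2 : φ ⬝ᵥ c ≠ 0) {r r' : F} (hr : ψ ⬝ᵥ y = r * ψ ⬝ᵥ a) (hr' : χ ⬝ᵥ y = r' * χ ⬝ᵥ a)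
    (hne : r ≠ r') : r' ^ 2 + r' + 1 = 0 := by
  have e3 := h.ne ha hb e1
  have e4 := h.ne ha hc e2
  obtain ⟨K, m, m0, -, m2, -, -, k2⟩ := wCon h2 hs ha hb e1 e3 (h.inj ha hb e1) hy y0 ya
  obtain ⟨K', n, -, -, n2, -, k3, k4⟩ := wCon h2 hs ha hc e2 e4 (h.inj ha hc e2) hy y0 ya
  obtain ⟨s, -, es⟩ := k2 y hy
  obtain ⟨t, ht, et⟩ := k4 y hy
  obtain rfl : r = s ^ 2 := mul_right_cancel₀ e3 (by rw [← hr, es]; simp [m2])
  obtain rfl : r' = t ^ 2 := mul_right_cancel₀ e4 (by rw [← hr', et]; simp [n2])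
  have t0 : t ≠ 0 := by rintro rfl; exact y0 (by simpa using et)
  have t1 : t + 1 ≠ 0 := fun e => ya (by
    rw [et, show t ^ 2 = 1 by linear_combination (t - 1) * e, add_comm 1 t, e]; simp)
  have t2 : t ^ 2 + t ≠ 0 := fun e => mul_ne_zero t0 t1 (by linear_combination e)
  obtain ⟨α, hα⟩ : ∃ α, (t ^ 2 + t) * α = s ^ 2 - t ^ 2 := ⟨_, mul_div_cancel₀ _ t2⟩
  obtain ⟨β, hβ⟩ : ∃ β, (t ^ 2 + t) * β = s ^ 2 + s := ⟨_, mul_div_cancel₀ _ t2⟩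
  obtain rfl : n = α • a + β • m := smul_right_injective _ t2 (by
    linear_combination (norm := module) es - et - hα • a - hβ • m)
  have key : ∀ z ∈ K', z ≠ 0 →
      (1 + α + β) ^ 2 * z ^ 3 + ((α + β) ^ 2 + 1 + α) * z + α = 0 := fun z hz z0 => by
    obtain ⟨x, -, ex⟩ := k2 _ (k3 z hz)
    have a1 : z ^ 2 + (z ^ 2 + z) * α = x ^ 2 := by
      have := congrArg (ψ ⬝ᵥ ·) ex
      simp only [dotProduct_add, dotProduct_smul, m2, smul_eq_mul, mul_zero, add_zero] at this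
      exact mul_right_cancel₀ e3 (by linear_combination this)
    have a2 : (z ^ 2 + z) * β = x ^ 2 + x := smul_left_injective F m0 (by
      linear_combination (norm := module) ex - a1 • a)
    have a3 : x = (1 + α + β) * z ^ 2 + (α + β) * z := by
      linear_combination -a1 - a2 - x ^ 2 * h2
    refine mul_left_cancel₀ z0 ?_
    rw [a3] at a1
    linear_combination -a1 + (z ^ 2 + α * z ^ 2 + α * z - (1 + α + β) * (α + β) * z ^ 3) * h2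
  have b1 := key 1 (one_mem _) one_ne_zero
  have b2 := key t ht t0
  have b3 := key _ (pow_mem ht 2) (pow_ne_zero 2 t0)
  generalize (1 + α + β) ^ 2 = A at b1 b2 b3
  generalize (α + β) ^ 2 + 1 + α = B at b1 b2 b3
  have t3 : t - 1 ≠ 0 := fun e => t1 (by linear_combination e + h2)
  have c1 : A * (t ^ 2 + t + 1) + B = 0 := mul_left_cancel₀ t3 (by linear_combination b2 - b1)
  have c2 : A * (t ^ 4 + t ^ 2 + 1) + B = 0 := mul_left_cancel₀ (mul_ne_zero t3 t1) (by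
    linear_combination b3 - b1)
  by_contra hn
  have c3 : t ^ 2 + t + 1 ≠ 0 := fun e => hn (by
    linear_combination (t ^ 2 - t + 1) * e)
  have c4 : A = 0 := mul_left_cancel₀ (mul_ne_zero (mul_ne_zero t0 t3) c3) (by
    linear_combination c2 - c1)
  have c5 : α = 0 := by linear_combination b1 - c1 + (t ^ 2 + t) * c4
  exact hne (by rw [c5] at hα; linear_combination -hα)

theorem NS.cen [Finite F] (h : NS P) (h2 : (2 : F) = 0) (H : Hy P) (hs : Small P) (ha : Fl P a φ)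
    (hy : T P y φ) : y = 0 ∨ y = a := by
  by_contra! hn
  obtain ⟨y0, ya⟩ := hn
  have hy' : Fl P y φ := ⟨hy, y0, ha.r⟩
  have ex : ∀ b ψ, Fl P b ψ → φ ⬝ᵥ b ≠ 0 → ∃ r, ψ ⬝ᵥ y = r * ψ ⬝ᵥ a := fun b ψ hb e =>
    ⟨_, (div_mul_cancel₀ _ (h.ne ha hb e)).symm⟩
  obtain ⟨b₀, ψ₀, hb₀, e₀, -⟩ := H.exists_opp ha
  obtain ⟨r, hr⟩ := ex b₀ ψ₀ hb₀ e₀
  have n0 : y - r • a ≠ 0 := fun e => by
    rw [sub_eq_zero] at e
    rcases hs a φ ha r (e ▸ hy) with rfl | rfl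
    · exact y0 (by simpa using e)
    · exact ya (by simpa using e)
  obtain ⟨b₁, ψ₁, hb₁, e₁⟩ := H.l ha n0
  have key : ∀ b ψ c χ, Fl P b ψ → φ ⬝ᵥ b ≠ 0 → ψ ⬝ᵥ y = r * ψ ⬝ᵥ a → Fl P c χ →
      χ ⬝ᵥ y ≠ r * χ ⬝ᵥ a → χ ⬝ᵥ b = 0 := fun b ψ c χ hb e1 k1 hc k2 => by
    have e2 : φ ⬝ᵥ c ≠ 0 := fun e => k2 (by rw [h _ _ _ _ ha hc e, h _ _ _ _ hy' hc e, mul_zero])
    obtain ⟨r', k3⟩ := ex c χ hc e2
    have k4 : r ≠ r' := by rintro rfl; exact k2 k3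
    have e3 := h.ne ha hb e1
    have e4 := h.ne ha hc e2
    refine h _ _ _ _ hb hc (by_contra fun e5 => ?_)
    have hd := hb.conj_tv hc.t
    have e6 : φ ⬝ᵥ (b + (χ ⬝ᵥ b) • c) ≠ 0 := fun e => by
      have a1 := h _ _ _ _ ha hd e
      have a2 := h _ _ _ _ hy' hd e
      simp only [sub_dotProduct, smul_dotProduct, smul_eq_mul, k1, k3] at a1 a2
      exact mul_ne_zero (sub_ne_zero.2 k4) e3 (by linear_combination a2 - r' * a1)
    obtain ⟨r'', k5⟩ := ex _ _ hd e6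
    have k6 := k5
    simp only [sub_dotProduct, smul_dotProduct, smul_eq_mul, k1, k3] at k6
    have k7 : r ≠ r'' := by
      rintro rfl
      exact mul_ne_zero (mul_ne_zero (sub_ne_zero.2 k4) e5) e4 (by linear_combination k6)
    have k8 : r' ≠ r'' := by
      rintro rfl
      exact mul_ne_zero (sub_ne_zero.2 k4) e3 (by linear_combination k6)
    have q1 := h.two_opp h2 hs ha hy y0 ya hc e2 hb e1 k3 k1 k4.symm
    have q2 := h.two_opp h2 hs ha hy y0 ya hb e1 hc e2 k1 k3 k4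
    have q3 := h.two_opp h2 hs ha hy y0 ya hb e1 hd e6 k1 k5 k7
    have q4 : r + r' + 1 = 0 := mul_left_cancel₀ (sub_ne_zero.2 k4) (by linear_combination q1 - q2)
    have q5 : r + r'' + 1 = 0 := mul_left_cancel₀ (sub_ne_zero.2 k7) (by linear_combination q1 - q3)
    exact k8 (by linear_combination q4 - q5)
  have hsp := H.span_eq_top (S := {b | ∃ ψ, Fl P b ψ ∧ φ ⬝ᵥ b ≠ 0 ∧ ψ ⬝ᵥ y = r * ψ ⬝ᵥ a})
    ⟨b₀, ⟨ψ₀, hb₀, e₀, hr⟩, hb₀.l⟩ fun d θ hd v ⟨ψ, k1, k2, k3⟩ => by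
      by_cases k4 : θ ⬝ᵥ y = r * θ ⬝ᵥ a
      swap
      · simp [key v ψ d θ k1 k2 k3 hd k4]
      by_cases k5 : φ ⬝ᵥ d = 0
      swap
      · exact Submodule.smul_mem _ _ (Submodule.subset_span ⟨θ, hd, k5, k4⟩)
      have := sub_mem (Submodule.subset_span (R := F)
        (s := {b | ∃ ψ, Fl P b ψ ∧ φ ⬝ᵥ b ≠ 0 ∧ ψ ⬝ᵥ y = r * ψ ⬝ᵥ a})
        ⟨_, k1.conj_tv hd.t, by simpa [k5] using k2, by
          simp only [sub_dotProduct, smul_dotProduct, smul_eq_mul, k3, k4]; ring⟩)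
        (Submodule.subset_span ⟨ψ, k1, k2, k3⟩)
      simpa using this
  exact hb₁.r (eq_zero_of_span hsp fun v ⟨ψ, k1, k2, k3⟩ => key v ψ b₁ ψ₁ k1 k2 k3 hb₁
    fun e => e₁ (by simp [e]))

theorem wUn : WUn.{u} := fun h2 H hs h =>
  ⟨fun _ _ _ ha hx => h.cen h2 H hs ha hx,
    fun _ _ _ ha hx => h.dl.cen h2 H.dl hs.dl (Fl_dl.2 ha) (T_dl.2 hx)⟩

theorem wSym : WSym.{u} := by
  intro ι _ _ F _ _ P z φ₀ h2 H h hz hy
  let Y : Set ((ι → F) × (ι → F)) :=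
    {(z, φ₀)} ∪ {p | ∃ χ, Fl P p.1 χ ∧ φ₀ ⬝ᵥ p.1 = 1 ∧ p.2 = (χ ⬝ᵥ z)⁻¹ • χ}
  have ne : ∀ c χ, Fl P c χ → φ₀ ⬝ᵥ c = 1 → χ ⬝ᵥ z ≠ 0 := fun c χ hc e =>
    h.ne hz hc (by simp [e])
  have mem : ∀ c χ, Fl P c χ → φ₀ ⬝ᵥ c = 1 → (c, (χ ⬝ᵥ z)⁻¹ • χ) ∈ Y := fun c χ hc e =>
    Or.inr ⟨χ, hc, e, rfl⟩
  have sc : ∀ a φ, Fl P a φ → φ₀ ⬝ᵥ a ≠ 0 → ((φ₀ ⬝ᵥ a)⁻¹ • a, (φ ⬝ᵥ z)⁻¹ • φ) ∈ Y :=
    fun a φ ha e => by
      have := mem _ _ (ha.scale (inv_ne_zero e)) (by simp [e])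
      convert this using 2
      have := h.ne hz ha e
      rw [smul_dotProduct, smul_smul, smul_eq_mul]
      congr 1
      field_simp
  have s1 : Submodule.span F (Prod.fst '' Y) = ⊤ :=
    H.span_eq_top ⟨z, ⟨_, Or.inl rfl, rfl⟩, hz.l⟩ fun a φ ha v hv => by
      by_cases e : φ₀ ⬝ᵥ a = 0
      · obtain ⟨p, rfl | ⟨χ, hc, k, -⟩, rfl⟩ := hv
        · simp [h _ _ _ _ hz ha e]
        · have := sub_mem (Submodule.subset_span (R := F) (s := Prod.fst '' Y)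
            ⟨_, mem _ _ (hc.conj_tv ha.t) (by simpa [e] using k), rfl⟩)
            (Submodule.subset_span ⟨_, mem _ _ hc k, rfl⟩)
          simpa using this
      · have := Submodule.smul_mem _ (φ ⬝ᵥ v * φ₀ ⬝ᵥ a)
          (Submodule.subset_span (R := F) (s := Prod.fst '' Y) ⟨_, sc a φ ha e, rfl⟩)
        simpa [smul_smul, e] using this
  have s2 : Submodule.span F (Prod.snd '' Y) = ⊤ :=
    H.dl.span_eq_top ⟨φ₀, ⟨_, Or.inl rfl, rfl⟩, hz.r⟩ fun φ a ha v hv => by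
      replace ha := Fl_dl.1 ha
      by_cases e : φ₀ ⬝ᵥ a = 0
      · have e' := h _ _ _ _ hz ha e
        obtain ⟨⟨c, f⟩, k | ⟨χ, hc, k, rfl⟩, rfl⟩ := hv
        · obtain ⟨rfl, rfl⟩ := Prod.ext_iff.1 k
          simp [dotProduct_comm a, e]
        · have := sub_mem (Submodule.subset_span (R := F) (s := Prod.snd '' Y)
            ⟨_, mem _ _ hc k, rfl⟩)
            (Submodule.subset_span ⟨_, mem _ _ (hc.conj_tv ha.t) (by simpa [e] using k), rfl⟩)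
          simpa [e', smul_sub, smul_smul, dotProduct_comm a] using this
      · have := Submodule.smul_mem _ (a ⬝ᵥ v * φ ⬝ᵥ z)
          (Submodule.subset_span (R := F) (s := Prod.snd '' Y) ⟨_, sc a φ ha e, rfl⟩)
        simpa [smul_smul, h.ne hz ha e] using this
  obtain ⟨J, hJ, hY⟩ := exists_pol (σ := RingEquiv.refl F) (fun _ => rfl) Y (by
    rintro ⟨c, f⟩ (k | ⟨χ, hc, k, rfl⟩) ⟨c', f'⟩ (k' | ⟨χ', hc', k', rfl⟩)
    · obtain ⟨rfl, rfl⟩ := Prod.ext_iff.1 k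
      obtain ⟨rfl, rfl⟩ := Prod.ext_iff.1 k'
      simp [hz.t.1]
    · obtain ⟨rfl, rfl⟩ := Prod.ext_iff.1 k
      simp only at k' ⊢
      simp only [k', smul_dotProduct, smul_eq_mul, inv_mul_cancel₀ (ne _ _ hc' k'),
        RingEquiv.refl_apply]
      linear_combination h2
    · obtain ⟨rfl, rfl⟩ := Prod.ext_iff.1 k'
      simp only at k ⊢
      simp only [k, smul_dotProduct, smul_eq_mul, inv_mul_cancel₀ (ne _ _ hc k),
        RingEquiv.refl_apply]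
      linear_combination h2
    · have := hy _ _ _ _ _ _ hz hc hc'
      have n1 := ne _ _ hc k
      have n2 := ne _ _ hc' k'
      simp only at k k' n1 n2 this ⊢
      simp only [smul_dotProduct, smul_eq_mul, RingEquiv.refl_apply]
      rw [k, k'] at this
      field_simp
      linear_combination this + (χ' ⬝ᵥ c * χ ⬝ᵥ z) * h2) s1 s2
  have alt : ∀ v, J v ⬝ᵥ v = 0 := fun v => by
    have hv : v ∈ Submodule.span F (Prod.fst '' Y) := s1 ▸ trivial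
    induction hv using Submodule.span_induction with
    | mem _ hx =>
      obtain ⟨p, hp, rfl⟩ := hx
      rw [hY p hp]
      rcases hp with rfl | ⟨χ, hc, -, k⟩
      · exact hz.t.1
      · simp [k, hc.t.1]
    | zero => simp
    | add u v _ _ k1 k2 => simp [hJ.add, k1, k2, hJ.skew u v]
    | smul c _ _ k1 => simp [hJ.smul, k1]
  have opp : ∀ a φ, Fl P a φ → φ₀ ⬝ᵥ a ≠ 0 → T (isoms fun u v => J v ⬝ᵥ u) a φ :=
    fun a φ ha e => by
      have k := hJ.tv_mem (k := φ₀ ⬝ᵥ a * φ ⬝ᵥ z) rfl (alt ((φ₀ ⬝ᵥ a)⁻¹ • a))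
      rw [hY _ (sc a φ ha e), smul_smul, ← tv_smul_left, smul_smul] at k
      refine ⟨ha.t.1, ?_⟩
      have := h.ne hz ha e
      convert k using 2
      rw [eq_comm]
      convert one_smul F a using 2
      field_simp
  refine hJ.fixA alt (H.gen _ fun a φ ha => ?_)
  by_cases e : φ₀ ⬝ᵥ a = 0
  swap
  · exact (opp a φ ha e).2
  obtain ⟨c, χ, hc, k, k'⟩ : ∃ c χ, Fl P c χ ∧ φ₀ ⬝ᵥ c = 1 ∧ φ ⬝ᵥ c ≠ 0 := by
    by_contra! hn
    refine ha.r (eq_zero_of_span s1 ?_)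
    rintro _ ⟨p, rfl | ⟨χ, hc, k, -⟩, rfl⟩
    · exact h _ _ _ _ hz ha e
    · exact hn _ χ hc k
  have a1 := opp _ _ (ha.conj_tv hc.t) (by simpa [e, k] using h.ne ha hc k')
  have a2 := a1.conj_tv (opp c χ hc (by simp [k])).neg_left
  exact (a2.congr (by simp [hc.t.1]) (by simp [hc.t.1])).2

end Cfsg.Lib.Tv45
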